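import Cfsg.Agent.Lib.H13.FrobFusion
import Cfsg.Agent.Lib.H05.Comp5

/-!
More on the Frobenius condition.
-/

set_option autoImplicit false

namespace Cfsg.Agent.H13

open Cfsg

variable {G : Type*} [Group G] {p : ℕ}

theorem FrobCond.centralizes_of_le [Finite G] [Fact p.Prime] {W Q : Subgroup G} (hF : FrobCond p W) (hQW : Q ≤ W) {g : G} (hgW : g ∈ W)
    (hQ : IsPGroup p Q) (hgN : g ∈ Subgroup.normalizer (Q : Set G)) (hgc : (orderOf g).Coprime p) :
    g ∈ Subgroup.centralizer (Q : Set G) := by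
  have h1 : IsPGroup p (Q.subgroupOf W) := isPGroup_subgroupOf hQ
  have h2 := hF (Q.subgroupOf W) h1 ⟨g, hgW⟩ (by
      rw [Subgroup.mem_normalizer_iff]
      rintro ⟨x, hx⟩
      rw [Subgroup.mem_subgroupOf, Subgroup.mem_subgroupOf]
      exact Subgroup.mem_normalizer_iff.mp hgN x) (by rwa [Subgroup.orderOf_mk])
  rw [Subgroup.mem_centralizer_iff] at h2 ⊢
  intro x hx
  have h3 := h2 ⟨x, hQW hx⟩ (by rw [SetLike.mem_coe, Subgroup.mem_subgroupOf]; exact hx)
  exact congrArg Subtype.val h3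

end Cfsg.Agent.H13
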