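import Cfsg.Agent.Lib.H13.FrobCore
import Cfsg.Agent.Lib.H22.Blocks

/-!
# A group has a single 2-block when the Frobenius matrix on class sums is nilpotent

Let `Sh : G → ℕ` be a conjugation-invariant labelling with at most two classes in each fibre.
If the parities of the structure constants `nC` of the squares of the fibre sums are triangular
for a rank function, then all central characters agree modulo every maximal ideal above 2.
-/

set_option autoImplicit false
set_option linter.unusedSectionVars false
set_option linter.style.haveILetI false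

namespace Cfsg.Agent.H13.Frob

open Cfsg Cfsg.Agent.H22

universe u

variable {G : Type u} [Group G] [Fintype G]

theorem nC_conj (S : G → Prop) (hS : ∀ x g, S (x * g * x⁻¹) ↔ S g) (x z : G) :
    nC S (x * z * x⁻¹) = nC S z := by
  classical
  unfold nC
  refine Finset.card_bij (fun h _ => x⁻¹ * h * x⁻¹⁻¹) ?_ ?_ ?_
  · intro h hh
    rw [Finset.mem_filter] at hh ⊢
    refine ⟨Finset.mem_univ _, (hS _ _).2 hh.2.1, ?_⟩
    have e : (x⁻¹ * h * x⁻¹⁻¹)⁻¹ * z = x⁻¹ * (h⁻¹ * (x * z * x⁻¹)) * x⁻¹⁻¹ := by group
    rw [e]
    exact (hS _ _).2 hh.2.2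
  · intro a _ b _ hab
    simpa using hab
  · intro b hb
    rw [Finset.mem_filter] at hb
    refine ⟨x * b * x⁻¹, ?_, by group⟩
    rw [Finset.mem_filter]
    refine ⟨Finset.mem_univ _, (hS _ _).2 hb.2.1, ?_⟩
    have e : (x * b * x⁻¹)⁻¹ * (x * z * x⁻¹) = x * (b⁻¹ * z) * x⁻¹ := by group
    rw [e]
    exact (hS _ _).2 hb.2.2

theorem nC_conj' (S : G → Prop) (hS : ∀ x g, S (x * g * x⁻¹) ↔ S g) {a b : G} (h : IsConj a b) :
    nC S a = nC S b := by
  obtain ⟨x, hx⟩ := isConj_iff.1 h
  rw [← hx, nC_conj S hS]

/-- Inverting a set inverts the structure constants. -/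
theorem nC_invS (S : G → Prop) (z : G) : nC (fun x => S x⁻¹) z = nC S z⁻¹ := by
  classical
  unfold nC
  refine Finset.card_bij (fun h _ => z⁻¹ * h) ?_ ?_ ?_
  · intro h hh
    rw [Finset.mem_filter] at hh ⊢
    refine ⟨Finset.mem_univ _, ?_, ?_⟩
    · have := hh.2.2
      have e : (h⁻¹ * z)⁻¹ = z⁻¹ * h := by group
      simp only [e] at this
      exact this
    · have := hh.2.1
      have e : (z⁻¹ * h)⁻¹ * z⁻¹ = h⁻¹ * (z * z⁻¹) := by group
      rw [e]
      simpa using this
  · intro a _ b _ hab
    simpa using hab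
  · intro b hb
    rw [Finset.mem_filter] at hb
    refine ⟨z * b, ?_, by group⟩
    rw [Finset.mem_filter]
    refine ⟨Finset.mem_univ _, ?_, ?_⟩
    · have := hb.2.2
      have e : (z * b)⁻¹ = b⁻¹ * z⁻¹ := by group
      show S (z * b)⁻¹
      rwa [e]
    · have := hb.2.1
      have e : ((z * b)⁻¹ * z)⁻¹ = b := by group
      show S ((z * b)⁻¹ * z)⁻¹
      rwa [e]

theorem nC_inv (S : G → Prop) (hS : ∀ g, S g⁻¹ ↔ S g) (z : G) : nC S z⁻¹ = nC S z := by
  rw [← nC_invS]
  congr 1
  funext x
  exact propext (hS x)

/-- The structure constants of a disjoint union, modulo two. -/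
theorem nC_union (A B : G → Prop) (hA : ∀ x g, A (x * g * x⁻¹) ↔ A g)
    (hB : ∀ x g, B (x * g * x⁻¹) ↔ B g) (hd : ∀ g, A g → ¬ B g) (z : G) :
    ∃ m, nC (fun x => A x ∨ B x) z = nC A z + nC B z + 2 * m := by
  classical
  let AB := Finset.univ.filter fun h : G => A h ∧ B (h⁻¹ * z)
  let BA := Finset.univ.filter fun h : G => B h ∧ A (h⁻¹ * z)
  have hcard : AB.card = BA.card := by
    refine Finset.card_bij (fun h _ => z * h⁻¹) ?_ ?_ ?_
    · intro h hh
      rw [Finset.mem_filter] at hh ⊢
      refine ⟨Finset.mem_univ _, ?_, ?_⟩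
      · have := (hB h _).2 hh.2.2
        have e : h * (h⁻¹ * z) * h⁻¹ = z * h⁻¹ := by group
        rwa [e] at this
      · have e : (z * h⁻¹)⁻¹ * z = h := by group
        rw [e]
        exact hh.2.1
    · intro a _ b _ hab
      simpa using hab
    · intro b hb
      rw [Finset.mem_filter] at hb
      refine ⟨b⁻¹ * z, ?_, by group⟩
      rw [Finset.mem_filter]
      refine ⟨Finset.mem_univ _, hb.2.2, ?_⟩
      have e : (b⁻¹ * z)⁻¹ * z = z⁻¹ * b * z := by group
      rw [e]
      have := (hB z⁻¹ b).2 hb.2.1
      have e' : z⁻¹ * b * z⁻¹⁻¹ = z⁻¹ * b * z := by group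
      rwa [e'] at this
  refine ⟨AB.card, ?_⟩
  unfold nC
  have hsplit : ∀ s : Finset G, (∀ h, h ∈ s ↔ (A h ∨ B h) ∧ (A (h⁻¹ * z) ∨ B (h⁻¹ * z))) →
      s.card = ((Finset.univ.filter fun h : G => A h ∧ A (h⁻¹ * z)) ∪
      (Finset.univ.filter fun h : G => B h ∧ B (h⁻¹ * z)) ∪ AB ∪ BA).card := by
    intro s hs
    congr 1
    ext h
    rw [hs]
    simp only [Finset.mem_filter, Finset.mem_union, Finset.mem_univ, true_and, AB, BA]
    tauto
  rw [hsplit _ (by intro h; simp only [Finset.mem_filter, Finset.mem_univ, true_and]),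
    Finset.card_union_of_disjoint, Finset.card_union_of_disjoint,
    Finset.card_union_of_disjoint, hcard]
  · ring
  · rw [Finset.disjoint_left]
    intro h h1 h2
    simp only [Finset.mem_filter, Finset.mem_univ, true_and] at h1 h2
    exact hd _ h1.1 h2.1
  · rw [Finset.disjoint_left]
    intro h h1 h2
    simp only [Finset.mem_filter, Finset.mem_union, Finset.mem_univ, true_and, AB] at h1 h2
    rcases h1 with h1 | h1
    · exact hd _ h1.2 h2.2
    · exact hd _ h2.1 h1.1
  · rw [Finset.disjoint_left]
    intro h h1 h2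
    simp only [Finset.mem_filter, Finset.mem_union, Finset.mem_univ, true_and, BA, AB] at h1 h2
    rcases h1 with (h1 | h1) | h1
    · exact hd _ h1.1 h2.1
    · exact hd _ h2.2 h1.2
    · exact hd _ h1.1 h2.1


/-! ### The relation in the residue ring -/

section Residue

variable [Fintype (IrrCharacter G)] [Fintype (ConjClasses G)]

open Classical in
/-- The indicator function of a set. -/
noncomputable def ind (S : G → Prop) (g : G) : ℂ := if S g then 1 else 0

theorem ind_isClass (S : G → Prop) (hS : ∀ x g, S (x * g * x⁻¹) ↔ S g) :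
    IsClassFunction G (ind S) := by
  intro g h
  unfold ind
  by_cases h1 : S g
  · rw [if_pos h1, if_pos ((hS h g).2 h1)]
  · rw [if_neg h1, if_neg (fun h2 => h1 ((hS h g).1 h2))]

theorem conv_ind (S : G → Prop) (z : G) : conv (ind S) (ind S) z = (nC S z : ℂ) := by
  classical
  unfold conv nC ind
  rw [Finset.card_filter]
  push_cast
  refine Finset.sum_congr rfl fun h _ => ?_
  by_cases h1 : S h <;> by_cases h2 : S (h⁻¹ * z) <;> simp [h1, h2]

/-- The central character as an algebraic integer. -/
noncomputable def ccA (g : G) (χ : IrrCharacter G) : AlgInt := ⟨cc g χ, cc_isIntegral g χ⟩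

theorem ccA_coe (g : G) (χ : IrrCharacter G) : ((ccA g χ : AlgInt) : ℂ) = cc g χ := rfl

theorem ccA_conj (χ : IrrCharacter G) {a b : G} (h : IsConj a b) : ccA a χ = ccA b χ := by
  apply Subtype.ext
  rw [ccA_coe, ccA_coe]
  classical
  rw [← om_classIndicator, ← om_classIndicator]
  congr 1
  funext x
  unfold Cfsg.Agent.H21.classIndicator
  have h' : IsConj x a ↔ IsConj x b := ⟨fun h1 => h1.trans h, fun h1 => h1.trans h.symm⟩
  simp only [h']

open Classical in
/-- The square of a class sum in the ring of algebraic integers. -/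
theorem sq_sum_ccA (S : G → Prop) (hS : ∀ x g, S (x * g * x⁻¹) ↔ S g) (χ : IrrCharacter G) :
    (∑ C : ConjClasses G, (if S C.out then ccA C.out χ else 0)) ^ 2 =
      ∑ C : ConjClasses G, (nC S C.out : AlgInt) * ccA C.out χ := by
  apply Subtype.ext
  have hcl := ind_isClass S hS
  have h1 := om_conv (ind S) (ind S) hcl χ
  have h2 := om_eq_sum_classes (ind S) hcl χ
  have h3 := om_eq_sum_classes (conv (ind S) (ind S)) (conv_isClass _ _ hcl hcl) χ
  rw [h3, h2] at h1
  simp only [conv_ind] at h1
  have e1 : ((∑ C : ConjClasses G, (if S C.out then ccA C.out χ else 0) : AlgInt) : ℂ) =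
      ∑ C : ConjClasses G, ind S C.out * cc C.out χ := by
    rw [AddSubmonoidClass.coe_finsetSum]
    refine Finset.sum_congr rfl fun C _ => ?_
    unfold ind
    by_cases h : S C.out <;> simp [h, ccA_coe]
  have e2 : ((∑ C : ConjClasses G, (nC S C.out : AlgInt) * ccA C.out χ : AlgInt) : ℂ) =
      ∑ C : ConjClasses G, (nC S C.out : ℂ) * cc C.out χ := by
    rw [AddSubmonoidClass.coe_finsetSum]
    refine Finset.sum_congr rfl fun C _ => ?_
    rw [Subalgebra.coe_mul, ccA_coe]
    simp
  rw [e2, h1, pow_two, Subalgebra.coe_mul, e1]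

end Residue


section Main

variable [Fintype (IrrCharacter G)] [Fintype (ConjClasses G)]

open Classical in
/-- The relation between the squares of class sums in the residue ring. -/
theorem sq_sum_D (M : Ideal AlgInt) (h2 : (2 : AlgInt) ∈ M) (S : G → Prop)
    (hS : ∀ x g, S (x * g * x⁻¹) ↔ S g) (χ ψ : IrrCharacter G) :
    (∑ C : ConjClasses G, (if S C.out then
      (Ideal.Quotient.mk M (ccA C.out χ) + Ideal.Quotient.mk M (ccA C.out ψ)) else 0)) ^ 2 =
      ∑ C : ConjClasses G, (nC S C.out : AlgInt ⧸ M) *
        (Ideal.Quotient.mk M (ccA C.out χ) + Ideal.Quotient.mk M (ccA C.out ψ)) := by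
  have h20 : (2 : AlgInt ⧸ M) = 0 := by
    have := Ideal.Quotient.eq_zero_iff_mem.2 h2
    rwa [map_ofNat] at this
  have hx := congrArg (Ideal.Quotient.mk M) (sq_sum_ccA S hS χ)
  have hy := congrArg (Ideal.Quotient.mk M) (sq_sum_ccA S hS ψ)
  simp only [map_pow, map_sum, map_mul, map_natCast, apply_ite (Ideal.Quotient.mk M), map_zero]
    at hx hy
  have e1 : (∑ C : ConjClasses G, (if S C.out then
      (Ideal.Quotient.mk M (ccA C.out χ) + Ideal.Quotient.mk M (ccA C.out ψ)) else 0)) =
      (∑ C : ConjClasses G, (if S C.out then Ideal.Quotient.mk M (ccA C.out χ) else 0)) +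
      (∑ C : ConjClasses G, (if S C.out then Ideal.Quotient.mk M (ccA C.out ψ) else 0)) := by
    rw [← Finset.sum_add_distrib]
    refine Finset.sum_congr rfl fun C _ => ?_
    by_cases h : S C.out <;> simp [h]
  have e2 : (∑ C : ConjClasses G, (nC S C.out : AlgInt ⧸ M) *
        (Ideal.Quotient.mk M (ccA C.out χ) + Ideal.Quotient.mk M (ccA C.out ψ))) =
      (∑ C : ConjClasses G, (nC S C.out : AlgInt ⧸ M) * Ideal.Quotient.mk M (ccA C.out χ)) +
      (∑ C : ConjClasses G, (nC S C.out : AlgInt ⧸ M) * Ideal.Quotient.mk M (ccA C.out ψ)) := by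
    rw [← Finset.sum_add_distrib]
    refine Finset.sum_congr rfl fun C _ => ?_
    ring
  rw [e1, e2, ← hx, ← hy]
  linear_combination ((∑ C : ConjClasses G, (if S C.out then Ideal.Quotient.mk M (ccA C.out χ) else 0)) *
      (∑ C : ConjClasses G, (if S C.out then Ideal.Quotient.mk M (ccA C.out ψ) else 0))) * h20

theorem cast_even {R : Type*} [CommRing R] (h2 : (2 : R) = 0) {n : ℕ} (h : Even n) : (n : R) = 0 := by
  obtain ⟨m, rfl⟩ := h
  have : ((m + m : ℕ) : R) = 2 * m := by push_cast; ring
  rw [this, h2, zero_mul]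

theorem cast_odd {R : Type*} [CommRing R] (h2 : (2 : R) = 0) {n : ℕ} (h : Odd n) : (n : R) = 1 := by
  obtain ⟨m, rfl⟩ := h
  have : ((2 * m + 1 : ℕ) : R) = 2 * m + 1 := by push_cast; ring
  rw [this, h2, zero_mul, zero_add]


open Classical in
/-- The main criterion. -/
theorem sameBlock_of_table (Sh : G → ℕ) (mate : G → G) (rk : ℕ → ℕ)
    (hSh : ∀ x g, Sh (x * g * x⁻¹) = Sh g)
    (hmS : ∀ z, Sh (mate z) = Sh z)
    (hfib : ∀ z z', Sh z = Sh z' → IsConj z z' ∨ IsConj z (mate z'))
    (hmc : ∀ z z', IsConj z z' → IsConj (mate z) (mate z'))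
    (hmm : ∀ z, IsConj (mate (mate z)) z)
    (hone : ∀ z, Sh z = Sh 1 → z = 1)
    (hconst : ∀ c z z', Sh z = Sh z' →
      (Even (nC (fun x => Sh x = c) z) ↔ Even (nC (fun x => Sh x = c) z')))
    (hpar : ∀ c z, z ≠ 1 → Odd (nC (fun x => Sh x = c) z) → rk (Sh z) < rk c)
    (hT2 : ∀ g z, ¬ IsConj z (mate z) →
      Even (nC (fun x => IsConj x g) z + nC (fun x => IsConj x g) (mate z)))
    (M : Ideal AlgInt) (hM : IsPModular 2 M) (χ ψ : IrrCharacter G) :
    SameBlock M χ.1 ψ.1 := by
  obtain ⟨-, hmax, h2⟩ := hM
  haveI hprime : M.IsPrime := hmax.isPrime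
  have h20 : (2 : AlgInt ⧸ M) = 0 := by
    have := Ideal.Quotient.eq_zero_iff_mem.2 (show (2 : AlgInt) ∈ M from by exact_mod_cast h2)
    rwa [map_ofNat] at this
  let D : G → AlgInt ⧸ M := fun g =>
    Ideal.Quotient.mk M (ccA g χ) + Ideal.Quotient.mk M (ccA g ψ)
  have hDc : ∀ {a b : G}, IsConj a b → D a = D b := by
    intro a b h
    show _ + _ = _ + _
    rw [ccA_conj χ h, ccA_conj ψ h]
  have hD1 : D 1 = 0 := by
    have hone' : ∀ θ : IrrCharacter G, ccA (1 : G) θ = 1 := by
      intro θ
      apply Subtype.ext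
      rw [ccA_coe]
      have hc : Subgroup.centralizer ({1} : Set G) = ⊤ := by
        ext x
        simp [Subgroup.mem_centralizer_iff]
      have := irr_one_ne_zero' θ
      unfold cc centralChar
      rw [hc, Subgroup.index_top]
      simp [this]
    show _ + _ = _
    rw [hone', hone', map_one]
    linear_combination h20
  have hconjSh : ∀ {a b : G}, IsConj a b → Sh a = Sh b := by
    intro a b h
    obtain ⟨x, hx⟩ := isConj_iff.1 h
    rw [← hx, hSh]
  have hmkout : ∀ E : ConjClasses G, ConjClasses.mk E.out = E := fun E => Quot.out_eq E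
  have houtc : ∀ g : G, IsConj (ConjClasses.mk g).out g := fun g =>
    ConjClasses.mk_eq_mk_iff_isConj.1 (hmkout _)
  let ι : ConjClasses G → ConjClasses G := fun E => ConjClasses.mk (mate E.out)
  have hι2 : ∀ E, ι (ι E) = E := by
    intro E
    show ConjClasses.mk (mate (ConjClasses.mk (mate E.out)).out) = E
    conv_rhs => rw [← hmkout E]
    exact ConjClasses.mk_eq_mk_iff_isConj.2 ((hmc _ _ (houtc _)).trans (hmm _))
  have hιSh : ∀ E, Sh (ι E).out = Sh E.out := by
    intro E
    rw [hconjSh (houtc _), hmS]
  -- the fibre of a class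
  have hfibre : ∀ E : ConjClasses G,
      (Finset.univ.filter fun E' : ConjClasses G => Sh E'.out = Sh E.out) = {E, ι E} := by
    intro E
    ext E'
    simp only [Finset.mem_filter, Finset.mem_univ, true_and, Finset.mem_insert,
      Finset.mem_singleton]
    constructor
    · intro h
      rcases hfib _ _ h with h1 | h1
      · left
        rw [← hmkout E', ← hmkout E]
        exact ConjClasses.mk_eq_mk_iff_isConj.2 (by simpa [hmkout] using h1)
      · right
        rw [← hmkout E']
        exact ConjClasses.mk_eq_mk_iff_isConj.2 h1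
    · rintro (h | h)
      · rw [h]
      · rw [h, hιSh]
  let U : ℕ → AlgInt ⧸ M := fun c =>
    ∑ C : ConjClasses G, if Sh C.out = c then D C.out else 0
  have hUfib : ∀ E : ConjClasses G, U (Sh E.out) =
      if ι E = E then D E.out else D E.out + D (ι E).out := by
    intro E
    show (∑ C : ConjClasses G, if Sh C.out = Sh E.out then D C.out else 0) = _
    rw [← Finset.sum_filter, hfibre]
    split_ifs with h
    · rw [h]; simp
    · rw [Finset.sum_pair (Ne.symm h)]
  have hSc : ∀ c x g, (Sh (x * g * x⁻¹) = c) ↔ Sh g = c := by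
    intro c x g
    rw [hSh]
  have hrel : ∀ c, U c ^ 2 = ∑ C : ConjClasses G,
      (nC (fun x => Sh x = c) C.out : AlgInt ⧸ M) * D C.out := by
    intro c
    have := sq_sum_D M h2 (fun x => Sh x = c) (hSc c) χ ψ
    rw [← this]
    congr 1
    refine Finset.sum_congr rfl fun C _ => ?_
    by_cases h : Sh C.out = c
    · rw [if_pos h, if_pos h]
    · rw [if_neg h, if_neg h]
  -- first phase
  have hU : ∀ n c, rk c = n → U c = 0 := by
    intro n
    induction n using Nat.strong_induction_on with
    | _ n ih =>
      intro c hc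
      have hs : U c ^ 2 = 0 := by
        rw [hrel]
        refine Finset.sum_involution (fun E _ => ι E) ?_ ?_ (fun _ _ => Finset.mem_univ _)
          (fun E _ => hι2 E)
        · intro E _
          -- the class and its mate
          by_cases hev : Even (nC (fun x => Sh x = c) E.out)
          · have hev' : Even (nC (fun x => Sh x = c) (ι E).out) :=
              (hconst c _ _ (hιSh E).symm).1 hev
            rw [cast_even h20 hev, cast_even h20 hev']
            ring
          · have hodd := Nat.not_even_iff_odd.1 hev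
            have hodd' : Odd (nC (fun x => Sh x = c) (ι E).out) := by
              have : ¬ Even (nC (fun x => Sh x = c) (ι E).out) := fun h =>
                hev ((hconst c _ _ (hιSh E).symm).2 h)
              exact Nat.not_even_iff_odd.1 this
            rw [cast_odd h20 hodd, cast_odd h20 hodd', one_mul, one_mul]
            by_cases h1 : E.out = 1
            · have h2' : ι E = E := by
                have h3 := hfibre E
                have h4 : ι E ∈ (Finset.univ.filter fun E' : ConjClasses G => Sh E'.out = Sh E.out) := by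
                  rw [h3]; simp
                rw [Finset.mem_filter] at h4
                have h5 : (ι E).out = 1 := hone _ (by rw [h4.2, h1])
                have h6 : ConjClasses.mk (ι E).out = ConjClasses.mk E.out := by rw [h5, h1]
                rwa [hmkout, hmkout] at h6
              rw [h2', h1, hD1]
              ring
            · have hlt := hpar c _ h1 hodd
              have hU0 := ih _ (hc ▸ hlt) (Sh E.out) rfl
              rw [hUfib] at hU0
              split_ifs at hU0 with h2'
              · rw [h2', hU0]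
                ring
              · exact hU0
        · intro E _ hne h3
          apply hne
          have hE : ι E = E := h3
          by_cases hev : Even (nC (fun x => Sh x = c) E.out)
          · rw [cast_even h20 hev, zero_mul]
          · have hodd := Nat.not_even_iff_odd.1 hev
            by_cases h1 : E.out = 1
            · rw [h1, hD1, mul_zero]
            · have hlt := hpar c _ h1 hodd
              have hU0 := ih _ (hc ▸ hlt) (Sh E.out) rfl
              rw [hUfib, if_pos hE] at hU0
              rw [hU0, mul_zero]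
      exact pow_eq_zero_iff (two_ne_zero) |>.1 hs
  have hU' : ∀ c, U c = 0 := fun c => hU _ c rfl
  -- second phase: every class
  have hDz : ∀ g, D g = 0 := by
    intro g
    have hSg : ∀ x a, IsConj (x * a * x⁻¹) g ↔ IsConj a g := by
      intro x a
      have : IsConj (x * a * x⁻¹) a := (isConj_iff.2 ⟨x, rfl⟩).symm
      exact ⟨fun h => this.symm.trans h, fun h => this.trans h⟩
    have hsq := sq_sum_D M h2 (fun x => IsConj x g) hSg χ ψ
    have hsq' : D g ^ 2 = ∑ C : ConjClasses G, (nC (fun x => IsConj x g) C.out : AlgInt ⧸ M) *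
        (Ideal.Quotient.mk M (ccA C.out χ) + Ideal.Quotient.mk M (ccA C.out ψ)) := by
      rw [← hsq]
      congr 1
      rw [Finset.sum_eq_single (ConjClasses.mk g)]
      · rw [if_pos (houtc g)]
        exact (hDc (houtc g)).symm
      · intro C _ hC
        rw [if_neg]
        intro h
        apply hC
        rw [← hmkout C]
        exact ConjClasses.mk_eq_mk_iff_isConj.2 h
      · intro h
        exact absurd (Finset.mem_univ _) h
    have hs : D g ^ 2 = 0 := by
      rw [hsq']
      refine Finset.sum_involution (fun E _ => ι E) ?_ ?_ (fun _ _ => Finset.mem_univ _)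
        (fun E _ => hι2 E)
      · intro E _
        have hU0 := hU' (Sh E.out)
        rw [hUfib] at hU0
        by_cases hE : ι E = E
        · rw [if_pos hE] at hU0
          rw [hE]
          show (_ : AlgInt ⧸ M) * D E.out + _ * D E.out = 0
          rw [hU0]
          ring
        · rw [if_neg hE] at hU0
          have hnc : ¬ IsConj E.out (mate E.out) := by
            intro h
            apply hE
            conv_rhs => rw [← hmkout E]
            exact ConjClasses.mk_eq_mk_iff_isConj.2 h.symm
          have hev := hT2 g E.out hnc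
          have hcj : nC (fun x => IsConj x g) (ι E).out = nC (fun x => IsConj x g) (mate E.out) :=
            nC_conj' _ hSg (houtc _)
          rw [← hcj] at hev
          have h5 : ((nC (fun x => IsConj x g) E.out : AlgInt ⧸ M) +
              nC (fun x => IsConj x g) (ι E).out) = 0 := by
            have := cast_even h20 hev
            rwa [Nat.cast_add] at this
          show (_ : AlgInt ⧸ M) * D E.out + _ * D (ι E).out = 0
          have h6 : D (ι E).out = - D E.out := by
            linear_combination hU0
          rw [h6]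
          have h7 : (nC (fun x => IsConj x g) (ι E).out : AlgInt ⧸ M) =
              - nC (fun x => IsConj x g) E.out := by
            linear_combination h5
          rw [h7]
          linear_combination ((nC (fun x => IsConj x g) E.out : AlgInt ⧸ M) * D E.out) * h20
      · intro E _ hne hE
        apply hne
        have hE' : ι E = E := hE
        have hU0 := hU' (Sh E.out)
        rw [hUfib, if_pos hE'] at hU0
        show (_ : AlgInt ⧸ M) * D E.out = 0
        rw [hU0, mul_zero]
    exact pow_eq_zero_iff (two_ne_zero) |>.1 hs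
  intro g
  have h := hDz g
  have h3 : ccA g χ - ccA g ψ ∈ M := by
    rw [← Ideal.Quotient.eq_zero_iff_mem, map_sub]
    have : (Ideal.Quotient.mk M (ccA g χ)) + Ideal.Quotient.mk M (ccA g ψ) = 0 := h
    linear_combination this - (Ideal.Quotient.mk M (ccA g ψ)) * h20
  have h4 := mli_of_mem (M := M) h3
  have h5 : ((ccA g χ - ccA g ψ : AlgInt) : ℂ) = centralChar χ.1 g - centralChar ψ.1 g := rfl
  rwa [h5] at h4

end Main

end Cfsg.Agent.H13.Frob
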