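import Cfsg.Agent.Lib.H13.FrobBlock
import Cfsg.Agent.Lib.H27.GolayClasses

/-!
# Fast kernel computations with permutation codes: composition, moved points, cycle labels
-/

set_option autoImplicit false
set_option maxRecDepth 100000
set_option linter.unusedSectionVars false

namespace Cfsg.Agent.H13.Frob

open Cfsg Cfsg.Agent.H27.Golay

/-- Composition of codes, unfolded. -/
def pc (t u : ℕ) : ℕ :=
  Nat.lor (Nat.shiftLeft (Nat.land (Nat.shiftRight t (Nat.mul 5 (Nat.land (Nat.shiftRight u 115) 31))) 31) 115) (Nat.lor (Nat.shiftLeft (Nat.land (Nat.shiftRight t (Nat.mul 5 (Nat.land (Nat.shiftRight u 110) 31))) 31) 110) (Nat.lor (Nat.shiftLeft (Nat.land (Nat.shiftRight t (Nat.mul 5 (Nat.land (Nat.shiftRight u 105) 31))) 31) 105) (Nat.lor (Nat.shiftLeft (Nat.land (Nat.shiftRight t (Nat.mul 5 (Nat.land (Nat.shiftRight u 100) 31))) 31) 100) (Nat.lor (Nat.shiftLeft (Nat.land (Nat.shiftRight t (Nat.mul 5 (Nat.land (Nat.shiftRight u 95) 31))) 31) 95) (Nat.lor (Nat.shiftLeft (Nat.land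 (Nat.shiftRight t (Nat.mul 5 (Nat.land (Nat.shiftRight u 90) 31))) 31) 90) (Nat.lor (Nat.shiftLeft (Nat.land (Nat.shiftRight t (Nat.mul 5 (Nat.land (Nat.shiftRight u 85) 31))) 31) 85) (Nat.lor (Nat.shiftLeft (Nat.land (Nat.shiftRight t (Nat.mul 5 (Nat.land (Nat.shiftRight u 80) 31))) 31) 80) (Nat.lor (Nat.shiftLeft (Nat.land (Nat.shiftRight t (Nat.mul 5 (Nat.land (Nat.shiftRight u 75) 31))) 31) 75) (Nat.lor (Nat.shiftLeft (Nat.land (Nat.shiftRight t (Nat.mul 5 (Nat.land (Nat.shiftRight u 70) 31))) 31) 70) (Nat.lor (Nat.shiftLeft (Nat.land (Nat.shiftRight t (Nat.mul 5 (Nat.land (Nat.shiftRight u 65) 31))) 31) 65) (Nat.lor (Nat.shiftLeft (Nat.land (Nat.shiftRight t (Nat.mul 5 (Nat.land (Nat.shiftRight u 60) 31))) 31) 60) (Nat.lor (Nat.shiftLeft (Nat.land (Nat.shiftRight t (Nat.mul 5 (Nat.land (Nat.shiftRight u 55) 31))) 31) 55) (Nat.lor (Nat.shiftLeft (Nat.land (Nat.shiftRight t (Nat.mul 5 (Nat.land (Nat.shiftRight u 50) 31))) 31) 50) (Nat.lor (Nat.shiftLeft (Nat.land (Nat.shiftRight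 t (Nat.mul 5 (Nat.land (Nat.shiftRight u 45) 31))) 31) 45) (Nat.lor (Nat.shiftLeft (Nat.land (Nat.shiftRight t (Nat.mul 5 (Nat.land (Nat.shiftRight u 40) 31))) 31) 40) (Nat.lor (Nat.shiftLeft (Nat.land (Nat.shiftRight t (Nat.mul 5 (Nat.land (Nat.shiftRight u 35) 31))) 31) 35) (Nat.lor (Nat.shiftLeft (Nat.land (Nat.shiftRight t (Nat.mul 5 (Nat.land (Nat.shiftRight u 30) 31))) 31) 30) (Nat.lor (Nat.shiftLeft (Nat.land (Nat.shiftRight t (Nat.mul 5 (Nat.land (Nat.shiftRight u 25) 31))) 31) 25) (Nat.lor (Nat.shiftLeft (Nat.land (Nat.shiftRight t (Nat.mul 5 (Nat.land (Nat.shiftRight u 20) 31))) 31) 20) (Nat.lor (Nat.shiftLeft (Nat.land (Nat.shiftRight t (Nat.mul 5 (Nat.land (Nat.shiftRight u 15) 31))) 31) 15) (Nat.lor (Nat.shiftLeft (Nat.land (Nat.shiftRight t (Nat.mul 5 (Nat.land (Nat.shiftRight u 10) 31))) 31) 10) (Nat.lor (Nat.shiftLeft (Nat.land (Nat.shiftRight t (Nat.mul 5 (Nat.land (Nat.shiftRight u 5) 31))) 31) 5) (Nat.lor (Nat.shiftLeft (Nat.land (Nat.shiftRight t (Nat.mul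 5 (Nat.land (Nat.shiftRight u 0) 31))) 31) 0) (0))))))))))))))))))))))))

theorem pc_eq (t u : ℕ) : pc t u = pcomp t u := rfl

/-- The mask of the low bits of the fields. -/
def Mm : ℕ := 42878322444674705577542163234849825

/-- The number of nonzero fields. -/
def nz (d : ℕ) : ℕ :=
  Nat.mod (Nat.land (Nat.lor d (Nat.lor (Nat.shiftRight d 1) (Nat.lor (Nat.shiftRight d 2)
    (Nat.lor (Nat.shiftRight d 3) (Nat.shiftRight d 4))))) Mm) 31

/-- The number of moved points of a code. -/
def mv (c : ℕ) : ℕ := nz (Nat.xor c 984818244535754528103549039458486304)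


theorem pa_xor (a b i : ℕ) : pa (a ^^^ b) i = pa a i ^^^ pa b i := by
  apply Nat.eq_of_testBit_eq
  intro j
  rw [Nat.testBit_xor, testBit_pa, testBit_pa, testBit_pa, Nat.testBit_xor]
  cases decide (j < 5) <;> simp

theorem or_bits_of_lt32 : ∀ y < 32, (y.testBit 0 || y.testBit 1 || y.testBit 2 || y.testBit 3 || y.testBit 4) =
    decide (y ≠ 0) := by decide

theorem Mm_eq : Mm = enc (fun _ => 1) 24 := by decide +kernel

/-- The indicator of moved points. -/
def gv (c i : ℕ) : ℕ := if pa c i = i then 0 else 1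

theorem gv_lt (c i : ℕ) : gv c i < 32 := by unfold gv; split_ifs <;> norm_num

theorem pa_idCode' {i : ℕ} (hi : i < 24) : pa idCode i = i :=
  Nat.eq_of_beq_eq_true (allBelow_spec pa_idCode i hi)

theorem land_eq_enc (c : ℕ) :
    Nat.land (Nat.lor (c ^^^ idCode) (Nat.lor (Nat.shiftRight (c ^^^ idCode) 1) (Nat.lor (Nat.shiftRight (c ^^^ idCode) 2)
    (Nat.lor (Nat.shiftRight (c ^^^ idCode) 3) (Nat.shiftRight (c ^^^ idCode) 4))))) Mm = enc (gv c) 24 := by
  apply Nat.eq_of_testBit_eq
  intro b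
  show (((c ^^^ idCode) ||| (((c ^^^ idCode) >>> 1) ||| (((c ^^^ idCode) >>> 2) ||| (((c ^^^ idCode) >>> 3) ||| ((c ^^^ idCode) >>> 4))))) &&& Mm).testBit b = _
  rw [Nat.testBit_and, Nat.testBit_or, Nat.testBit_or, Nat.testBit_or, Nat.testBit_or,
    Nat.testBit_shiftRight, Nat.testBit_shiftRight, Nat.testBit_shiftRight, Nat.testBit_shiftRight, Mm_eq]
  by_cases hb : 5 * 24 ≤ b
  · rw [testBit_enc_high _ (fun _ => by norm_num) 24 b hb, testBit_enc_high _ (gv_lt c) 24 b hb]
    simp
  · have hk : b / 5 < 24 := by omega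
    have hj : b % 5 < 5 := Nat.mod_lt _ (by norm_num)
    have hbe : b = 5 * (b / 5) + b % 5 := (Nat.div_add_mod b 5).symm
    generalize b / 5 = k at hk hbe
    generalize b % 5 = j at hj hbe
    subst hbe
    rw [testBit_enc _ (fun _ => by norm_num) 24 k j hk hj, testBit_enc _ (gv_lt c) 24 k j hk hj]
    have hg : gv c k = 0 ∨ gv c k = 1 := by unfold gv; split_ifs <;> simp
    have t1 : Nat.testBit 1 1 = false := by decide
    have t2 : Nat.testBit 1 2 = false := by decide
    have t3 : Nat.testBit 1 3 = false := by decide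
    have t4 : Nat.testBit 1 4 = false := by decide
    interval_cases j
    · -- the main case
      have h0 : ∀ j', j' < 5 → (c ^^^ idCode).testBit (5 * k + j') = (pa (c ^^^ idCode) k).testBit j' := by
        intro j' hj'
        rw [testBit_pa]
        simp [hj']
      have e1 := h0 0 (by norm_num)
      have e2 := h0 1 (by norm_num)
      have e3 := h0 2 (by norm_num)
      have e4 := h0 3 (by norm_num)
      have e5 := h0 4 (by norm_num)
      have hy : pa (c ^^^ idCode) k < 32 := pa_lt_32 _ _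
      have h6 := or_bits_of_lt32 _ hy
      have e0 : (1 : ℕ).testBit 0 = true := by decide
      simp only [Nat.add_zero] at e1 ⊢
      have a1 : 1 + (5 * k + 0) = 5 * k + 1 := by ring
      have a2 : 2 + (5 * k + 0) = 5 * k + 2 := by ring
      have a3 : 3 + (5 * k + 0) = 5 * k + 3 := by ring
      have a4 : 4 + (5 * k + 0) = 5 * k + 4 := by ring
      have a1' : 1 + (5 * k) = 5 * k + 1 := by ring
      have a2' : 2 + (5 * k) = 5 * k + 2 := by ring
      have a3' : 3 + (5 * k) = 5 * k + 3 := by ring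
      have a4' : 4 + (5 * k) = 5 * k + 4 := by ring
      simp only [a1', a2', a3', a4', e2, e3, e4, e5, e1, e0, Bool.and_true]
      have hxor : pa (c ^^^ idCode) k = pa c k ^^^ k := by
        rw [pa_xor, pa_idCode' hk]
      have h7 : (pa (c ^^^ idCode) k ≠ 0) ↔ pa c k ≠ k := by
        rw [hxor]
        constructor
        · intro h h'
          apply h
          rw [h']
          simp
        · intro h h'
          apply h
          exact Nat.xor_eq_zero_iff.1 h'
      have h8 : (gv c k).testBit 0 = decide (pa c k ≠ k) := by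
        unfold gv
        by_cases h : pa c k = k <;> simp [h]
      rw [h8]
      have h9 := h6
      simp only [Bool.or_assoc] at h9 ⊢
      rw [h9]
      simp only [h7]
    all_goals
      rcases hg with hg | hg <;> rw [hg] <;> simp [t1, t2, t3, t4]

theorem enc_mod31 (g : ℕ → ℕ) (hg : ∀ i, g i ≤ 1) (n : ℕ) :
    enc g n < 2 ^ (5 * n) ∧ enc g n % 31 = (∑ i ∈ Finset.range n, g i) % 31 := by
  induction n with
  | zero => simp [enc]
  | succ n ih =>
    have hlt := ih.1
    have hstep : enc g (n + 1) = g n * 2 ^ (5 * n) + enc g n := by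
      rw [enc_succ, ← Nat.shiftLeft_add_eq_or_of_lt hlt, Nat.shiftLeft_eq]
    rw [hstep, Finset.sum_range_succ]
    constructor
    · have h1 : g n * 2 ^ (5 * n) ≤ 1 * 2 ^ (5 * n) := Nat.mul_le_mul_right _ (hg n)
      have h2 : 2 ^ (5 * (n + 1)) = 32 * 2 ^ (5 * n) := by
        rw [show 5 * (n + 1) = 5 + 5 * n by ring, pow_add]; norm_num
      rw [h2]
      omega
    · have h3 : 2 ^ (5 * n) % 31 = 1 := by
        rw [pow_mul, Nat.pow_mod]
        norm_num
      rw [Nat.add_mod, Nat.mul_mod, h3, ih.2, mul_one, Nat.mod_mod, ← Nat.add_mod, add_comm]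

theorem mv_eq_card (c : ℕ) : mv c = ((Finset.range 24).filter fun i => pa c i ≠ i).card := by
  have h1 : mv c = (enc (gv c) 24) % 31 := by
    show Nat.mod (Nat.land _ Mm) 31 = _
    rw [show Nat.xor c 984818244535754528103549039458486304 = c ^^^ idCode from rfl, land_eq_enc]
    rfl
  have h2 := (enc_mod31 (gv c) (fun i => by unfold gv; split_ifs <;> simp) 24).2
  have h3 : ∑ i ∈ Finset.range 24, gv c i = ((Finset.range 24).filter fun i => pa c i ≠ i).card := by
    rw [Finset.card_filter]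
    refine Finset.sum_congr rfl fun i _ => ?_
    unfold gv
    by_cases h : pa c i = i <;> simp [h]
  have h4 : ((Finset.range 24).filter fun i => pa c i ≠ i).card ≤ 24 := by
    refine (Finset.card_filter_le _ _).trans ?_
    simp
  rw [h1, h2, h3, Nat.mod_eq_of_lt (by omega)]

/-- The number of moved points of a permutation. -/
def mvC (g : Equiv.Perm GolayPt) : ℕ := (Finset.univ.filter fun p => g p ≠ p).card

theorem mvC_P {c : ℕ} (hc : permOK c = true) : mvC (P c) = mv c := by
  rw [mv_eq_card]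
  unfold mvC
  refine Finset.card_bij (fun p _ => idx p) ?_ ?_ ?_
  · intro p hp
    rw [Finset.mem_filter] at hp ⊢
    refine ⟨Finset.mem_range.2 (idx_lt p), ?_⟩
    intro h
    apply hp.2
    rw [P_apply hc, h, pt_idx]
  · intro a _ b _ hab
    exact idx_injective hab
  · intro i hi
    rw [Finset.mem_filter, Finset.mem_range] at hi
    refine ⟨pt i, ?_, idx_pt' hi.1⟩
    rw [Finset.mem_filter]
    refine ⟨Finset.mem_univ _, ?_⟩
    intro h
    apply hi.2
    rw [P_pt hc hi.1] at h
    have h2 := congrArg idx h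
    rwa [idx_pt' (pa_lt hc hi.1), idx_pt' hi.1] at h2

theorem mvC_conj (g k : Equiv.Perm GolayPt) : mvC (k * g * k⁻¹) = mvC g := by
  unfold mvC
  have h : ∀ x : Equiv.Perm GolayPt, (Finset.univ.filter fun p => x p ≠ p).card =
      24 - (Finset.univ.filter fun p => x p = p).card := by
    intro x
    have h2 : (Finset.univ : Finset GolayPt).card = 24 := by decide
    have h1 : (Finset.univ.filter fun p => x p = p).card + (Finset.univ.filter fun p => x p ≠ p).card = 24 := by
      rw [← h2]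
      exact Finset.card_filter_add_card_filter_not _
    omega
  rw [h, h, card_fix_conj]

theorem mvC_inv (g : Equiv.Perm GolayPt) : mvC g⁻¹ = mvC g := by
  unfold mvC
  congr 1
  ext p
  simp only [Finset.mem_filter, Finset.mem_univ, true_and, ne_eq, Equiv.Perm.inv_eq_iff_eq]
  exact not_congr eq_comm

/-- The label of a permutation (separating the cycle shapes of `M24`). -/
noncomputable def ShP (g : Equiv.Perm GolayPt) : ℕ :=
  if (mvC g = 24 ∧ mvC (g ^ 2) = 24) ∨ (mvC g = 23 ∧ mvC (g ^ 2) = 23) then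
    (if mvC g = 24 ∧ mvC (g ^ 3) = 24 then 15625 + mvC (g ^ 4) + 25 * mvC (g ^ 6)
    else mvC g + 25 * mvC (g ^ 2) + 625 * mvC (g ^ 3))
  else mvC g + 25 * mvC (g ^ 2)

theorem ShP_conj (g k : Equiv.Perm GolayPt) : ShP (k * g * k⁻¹) = ShP g := by
  unfold ShP
  have h : ∀ n : ℕ, (k * g * k⁻¹) ^ n = k * g ^ n * k⁻¹ := by
    intro n
    exact conj_pow
  simp only [h, mvC_conj]

theorem ShP_inv (g : Equiv.Perm GolayPt) : ShP g⁻¹ = ShP g := by
  unfold ShP
  simp only [inv_pow, mvC_inv]

/-- The second stage of the label. -/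
def lab1 (c c2 c3 m1 m2 m3 : ℕ) : ℕ :=
  Bool.rec (Nat.add m1 (Nat.add (Nat.mul 25 m2) (Nat.mul 625 m3)))
    (Nat.add 15625 (Nat.add (mv (pc c2 c2)) (Nat.mul 25 (mv (pc c3 c3)))))
    (Bool.and (Nat.beq m1 24) (Nat.beq m3 24))

/-- The first stage of the label. -/
def lab0 (c c2 m1 m2 : ℕ) : ℕ :=
  Bool.rec (Nat.add m1 (Nat.mul 25 m2)) (lab1 c c2 (pc c2 c) m1 m2 (mv (pc c2 c)))
    (Bool.or (Bool.and (Nat.beq m1 24) (Nat.beq m2 24)) (Bool.and (Nat.beq m1 23) (Nat.beq m2 23)))

/-- The label of a code. -/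
def shC (c : ℕ) : ℕ := lab0 c (pc c c) (mv c) (mv (pc c c))

theorem permOK_pc {a b : ℕ} (ha : permOK a = true) (hb : permOK b = true) : permOK (pc a b) = true := by
  rw [pc_eq]; exact permOK_pcomp ha hb

theorem P_pc {a b : ℕ} (ha : permOK a = true) (hb : permOK b = true) : P (pc a b) = P a * P b := by
  rw [pc_eq]; exact P_pcomp ha hb

theorem shC_eq {c : ℕ} (hc : permOK c = true) : shC c = ShP (P c) := by
  have h2 : permOK (pc c c) = true := permOK_pc hc hc
  have h3 : permOK (pc (pc c c) c) = true := permOK_pc h2 hc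
  have h4 : permOK (pc (pc c c) (pc c c)) = true := permOK_pc h2 h2
  have h6 : permOK (pc (pc (pc c c) c) (pc (pc c c) c)) = true := permOK_pc h3 h3
  have e2 : P c ^ 2 = P (pc c c) := by rw [P_pc hc hc, pow_two]
  have e3 : P c ^ 3 = P (pc (pc c c) c) := by rw [P_pc h2 hc, P_pc hc hc, pow_succ, pow_two]
  have e4 : P c ^ 4 = P (pc (pc c c) (pc c c)) := by
    rw [P_pc h2 h2, P_pc hc hc, show 4 = 2 + 2 from rfl, pow_add, pow_two]
  have e6 : P c ^ 6 = P (pc (pc (pc c c) c) (pc (pc c c) c)) := by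
    rw [P_pc h3 h3, P_pc h2 hc, P_pc hc hc, show 6 = 3 + 3 from rfl, pow_add, pow_succ, pow_two]
  unfold ShP
  rw [e2, e3, e4, e6, mvC_P hc, mvC_P h2, mvC_P h3, mvC_P h4, mvC_P h6]
  unfold shC lab0 lab1
  generalize mv c = m1
  generalize mv (pc c c) = m2
  generalize mv (pc (pc c c) c) = m3
  generalize mv (pc (pc c c) (pc c c)) = m4
  generalize mv (pc (pc (pc c c) c) (pc (pc c c) c)) = m6
  have hbq : ∀ a b : ℕ, Nat.beq a b = decide (a = b) := by
    intro a b
    by_cases h : a = b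
    · subst h; simp
    · rw [decide_eq_false h]
      cases hx : Nat.beq a b with
      | false => rfl
      | true => exact absurd (Nat.eq_of_beq_eq_true hx) h
  simp only [hbq]
  by_cases H : (m1 = 24 ∧ m2 = 24) ∨ (m1 = 23 ∧ m2 = 23)
  · rw [if_pos H]
    have e : (Bool.or (Bool.and (decide (m1 = 24)) (decide (m2 = 24)))
        (Bool.and (decide (m1 = 23)) (decide (m2 = 23)))) = true := by
      simpa using H
    rw [e]
    by_cases H2 : m1 = 24 ∧ m3 = 24
    · rw [if_pos H2]
      have e' : (Bool.and (decide (m1 = 24)) (decide (m3 = 24))) = true := by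
        simpa using H2
      rw [e']
      show Nat.add 15625 (Nat.add m4 (Nat.mul 25 m6)) = _
      show 15625 + (m4 + 25 * m6) = _
      ring
    · rw [if_neg H2]
      have e' : (Bool.and (decide (m1 = 24)) (decide (m3 = 24))) = false := by
        simpa using H2
      rw [e']
      show m1 + (25 * m2 + 625 * m3) = _
      ring
  · rw [if_neg H]
    have e : (Bool.or (Bool.and (decide (m1 = 24)) (decide (m2 = 24)))
        (Bool.and (decide (m1 = 23)) (decide (m2 = 23)))) = false := by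
      simpa using H
    rw [e]
    rfl

end Cfsg.Agent.H13.Frob
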