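import Cfsg.Agent.Lib.H22.Central

/-!
# Squares of class sums modulo two

For a conjugation-invariant subset `S` of a finite group let `nC S z` be the number of ways to
write `z` as a product of two elements of `S`.  Modulo two this number is the number of `y` with
`y ^ 2 = w` and `y * u ∈ S`, for every decomposition `z = w * u ^ 2` where `w` and `u` commute and
`w` has order a power of two.
-/

set_option autoImplicit false
set_option linter.unusedSectionVars false

namespace Cfsg.Agent.H13.Frob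

open Cfsg Cfsg.Agent.H22

universe u

variable {G : Type u} [Group G] [Fintype G]

open Classical in
/-- The number of ways to write `z` as a product of two elements of `S`. -/
noncomputable def nC (S : G → Prop) (z : G) : ℕ :=
  (Finset.univ.filter fun h : G => S h ∧ S (h⁻¹ * z)).card

open Classical in
/-- The number of square roots `y` of `w` with `y * u ∈ S`. -/
noncomputable def rootC (S : G → Prop) (w u : G) : ℕ :=
  (Finset.univ.filter fun y : G => y ^ 2 = w ∧ S (y * u)).card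

theorem alg_e4 {w u : G} (hc : Commute w u) : u⁻¹ * (w * u ^ 2) = w * u := by
  have e3 : u⁻¹ * w = w * u⁻¹ := (hc.inv_right).eq.symm
  rw [← mul_assoc, e3, pow_two]
  group

theorem alg_tau2 {w u : G} (hc : Commute w u) (v : G) :
    u⁻¹ * (w * u ^ 2) * (u⁻¹ * (w * u ^ 2) * v⁻¹ * u)⁻¹ * u = w * v * w⁻¹ := by
  rw [alg_e4 hc]
  have e6 : u⁻¹ * w⁻¹ * u = w⁻¹ := by
    have h : Commute u⁻¹ w⁻¹ := hc.symm.inv_inv
    rw [h.eq, mul_assoc, inv_mul_cancel, mul_one]
  calc w * u * (w * u * v⁻¹ * u)⁻¹ * u = w * v * (u⁻¹ * w⁻¹ * u) := by group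
    _ = _ := by rw [e6]

theorem alg_e1 {w u : G} (hc : Commute w u) : u⁻¹ * (w * u ^ 2) * u⁻¹ = w := by
  rw [alg_e4 hc]; group

theorem nC_modEq (S : G → Prop) (hS : ∀ x g, S g → S (x * g * x⁻¹)) {z w u : G}
    (hz : z = w * u ^ 2) (hc : Commute w u) {a : ℕ} (hw : w ^ 2 ^ a = 1) :
    nC S z ≡ rootC S w u [MOD 2] := by
  classical
  subst hz
  have huz : Commute u (w * u ^ 2) :=
    hc.symm.mul_right (Commute.pow_right (Commute.refl u) 2)
  -- the set of products
  let X := {h : G // S h ∧ S (h⁻¹ * (w * u ^ 2))}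
  have hmem : ∀ g : X, S (u⁻¹ * (w * u ^ 2) * (g.1)⁻¹ * u) ∧
      S ((u⁻¹ * (w * u ^ 2) * (g.1)⁻¹ * u)⁻¹ * (w * u ^ 2)) := by
    rintro ⟨g, h1, h2⟩
    constructor
    · have h3 := hS g _ h2
      have h4 := hS u⁻¹ _ h3
      have e : u⁻¹ * (g * (g⁻¹ * (w * u ^ 2)) * g⁻¹) * u⁻¹⁻¹ = u⁻¹ * (w * u ^ 2) * g⁻¹ * u := by
        group
      rwa [e] at h4
    · have h3 := hS u⁻¹ _ h1
      have e : u⁻¹ * g * u⁻¹⁻¹ = (u⁻¹ * (w * u ^ 2) * g⁻¹ * u)⁻¹ * (w * u ^ 2) := by
        have hzu : (w * u ^ 2)⁻¹ * u * (w * u ^ 2) = u := by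
          rw [mul_assoc, huz.eq, ← mul_assoc, inv_mul_cancel, one_mul]
        calc u⁻¹ * g * u⁻¹⁻¹ = u⁻¹ * g * ((w * u ^ 2)⁻¹ * u * (w * u ^ 2)) := by rw [hzu]; group
          _ = _ := by group
      rwa [e] at h3
  let τ : Function.End X := fun g => ⟨_, hmem g⟩
  have hτ2 : ∀ g : X, ((τ (τ g) : X) : G) = w * g.1 * w⁻¹ := by
    intro g
    show u⁻¹ * (w * u ^ 2) * (u⁻¹ * (w * u ^ 2) * (g.1)⁻¹ * u)⁻¹ * u = w * g.1 * w⁻¹
    exact alg_tau2 hc g.1
  have hτpow : ∀ n : ℕ, ∀ g : X, ((τ^[2 * n] g : X) : G) = w ^ n * g.1 * (w ^ n)⁻¹ := by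
    intro n
    induction n with
    | zero => intro g; simp; rfl
    | succ n ih =>
      intro g
      have e : 2 * (n + 1) = 2 * n + 2 := by ring
      rw [e, Function.iterate_add_apply]
      rw [ih]
      show w ^ n * ((τ (τ g) : X) : G) * (w ^ n)⁻¹ = _
      rw [hτ2, pow_succ w n]
      group
  have hτ1 : (τ : Function.End X) ^ 2 ^ (a + 1) = 1 := by
    funext g
    apply Subtype.ext
    have e : 2 ^ (a + 1) = 2 * 2 ^ a := by ring
    have : ((τ : Function.End X) ^ 2 ^ (a + 1)) g = τ^[2 * 2 ^ a] g := by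
      rw [← e]
      exact congrFun (hom_coe_pow (fun g : Function.End X ↦ g) rfl (fun g h ↦ rfl) τ _) g
    rw [this, hτpow, hw]
    simp
    rfl
  haveI : Fact (Nat.Prime 2) := ⟨Nat.prime_two⟩
  have h := Equiv.Perm.card_fixedPoints_modEq (f := τ) (p := 2) (n := a + 1) hτ1
  have hcard1 : Fintype.card X = nC S (w * u ^ 2) := by
    unfold nC
    rw [Fintype.card_subtype]
  have hcard2 : Fintype.card (Function.fixedPoints τ) = rootC S w u := by
    unfold rootC
    rw [← Fintype.card_coe (Finset.univ.filter fun y : G => y ^ 2 = w ∧ S (y * u))]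
    refine Fintype.card_congr ?_
    have hfix : ∀ g : X, τ g = g ↔ (g.1 * u⁻¹) ^ 2 = w := by
      intro g
      have e1 := alg_e1 hc
      constructor
      · intro hg
        have e := congrArg Subtype.val hg
        have e' : u⁻¹ * (w * u ^ 2) * (g.1)⁻¹ * u = g.1 := e
        have : g.1 * u⁻¹ * (g.1 * u⁻¹) = w := by
          calc g.1 * u⁻¹ * (g.1 * u⁻¹)
              = (u⁻¹ * (w * u ^ 2) * (g.1)⁻¹ * u) * u⁻¹ * (g.1 * u⁻¹) := by rw [e']
            _ = u⁻¹ * (w * u ^ 2) * u⁻¹ := by group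
            _ = w := e1
        rwa [pow_two]
      · intro hg
        apply Subtype.ext
        show u⁻¹ * (w * u ^ 2) * (g.1)⁻¹ * u = g.1
        rw [pow_two] at hg
        rw [alg_e4 hc]
        calc w * u * (g.1)⁻¹ * u = w * (g.1 * u⁻¹)⁻¹ * u := by group
          _ = g.1 * u⁻¹ * (g.1 * u⁻¹) * (g.1 * u⁻¹)⁻¹ * u := by rw [hg]
          _ = g.1 := by group
    have hy_e : ∀ y₀ : G, y₀ ^ 2 = w →
        u⁻¹ * (y₀ * u) * u⁻¹⁻¹ = (y₀ * u)⁻¹ * (w * u ^ 2) := by
      intro y₀ h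
      rw [← h]
      simp only [pow_two]
      group
    refine
      { toFun := fun g => ⟨g.1.1 * u⁻¹, ?_⟩
        invFun := fun y => ⟨⟨y.1 * u, ?_⟩, ?_⟩
        left_inv := ?_
        right_inv := ?_ }
    · have hg : τ g.1 = g.1 := g.2
      rw [Finset.mem_filter]
      refine ⟨Finset.mem_univ _, (hfix g.1).1 hg, ?_⟩
      simpa using g.1.2.1
    · have hy := y.2
      rw [Finset.mem_filter] at hy
      refine ⟨hy.2.2, ?_⟩
      have h3 := hS u⁻¹ _ hy.2.2
      rwa [hy_e y.1 hy.2.1] at h3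
    · have hy := y.2
      rw [Finset.mem_filter] at hy
      show τ _ = _
      rw [hfix]
      simpa using hy.2.1
    · intro g
      apply Subtype.ext
      apply Subtype.ext
      simp
    · intro y
      apply Subtype.ext
      simp
  rw [hcard1, hcard2] at h
  exact h

end Cfsg.Agent.H13.Frob
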