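import Cfsg.Agent.Lib.H13.FrobTree
import Cfsg.Agent.Lib.H21.CharBasis

/-!
# Class counts and parity certificates for subgroups `fixG l` of `M24`
-/

set_option autoImplicit false
set_option maxRecDepth 100000
set_option linter.unusedSectionVars false
set_option linter.style.haveILetI false

namespace Cfsg.Agent.H13.Frob

open Cfsg Cfsg.Agent.H27.Golay

/-! ### Covering by conjugacy classes -/

section Cover

variable {G : Type*} [Group G] [Finite G]

theorem list_sum_eq_of_le {α : Type*} (l : List α) (f g : α → ℕ) (h : ∀ x ∈ l, g x ≤ f x)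
    (hs : (l.map f).sum ≤ (l.map g).sum) : ∀ x ∈ l, f x = g x := by
  induction l with
  | nil => simp
  | cons y l ih =>
    simp only [List.map_cons, List.sum_cons] at hs
    have h1 : g y ≤ f y := h y (by simp)
    have h2 : (l.map g).sum ≤ (l.map f).sum := List.sum_le_sum (fun x hx => h x (by simp [hx]))
    intro x hx
    rcases List.mem_cons.1 hx with rfl | hx
    · omega
    · exact ih (fun z hz => h z (by simp [hz])) (by omega) x hx

open Classical in
theorem cover_classes (R : List (G × ℕ)) (hnd : R.Pairwise (fun a b => ¬ IsConj a.1 b.1))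
    (hC : ∀ p ∈ R, Nat.card (Subgroup.centralizer ({p.1} : Set G)) ≤ p.2)
    (hsum : Nat.card G ≤ (R.map fun p => Nat.card G / p.2).sum) :
    (∀ g : G, ∃ p ∈ R, IsConj g p.1) ∧
      ∀ p ∈ R, Nat.card {x : G // IsConj x p.1} = Nat.card G / p.2 := by
  haveI := Fintype.ofFinite G
  haveI : Fintype (IrrCharacter G) := Fintype.ofFinite _
  let f : G × ℕ → ℕ := fun p => Nat.card {x : G // IsConj x p.1}
  have hf : ∀ p, f p = (Finset.univ.filter fun x : G => IsConj x p.1).card := by
    intro p
    show Nat.card _ = _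
    rw [Nat.card_eq_fintype_card, Fintype.card_subtype]
  have hge : ∀ p ∈ R, Nat.card G / p.2 ≤ f p := by
    intro p hp
    show _ ≤ Nat.card _
    rw [Cfsg.Agent.H21.card_isConj_eq_index]
    have h1 := Cfsg.Agent.H21.index_mul_card_centralizer p.1
    have hpos : 0 < Nat.card (Subgroup.centralizer ({p.1} : Set G)) := Nat.card_pos
    have h2 : (Subgroup.centralizer ({p.1} : Set G)).index =
        Nat.card G / Nat.card (Subgroup.centralizer ({p.1} : Set G)) := by
      rw [← h1, Nat.mul_div_cancel _ hpos]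
    rw [h2]
    exact Nat.div_le_div_left (hC p hp) hpos
  -- the union of the classes
  have hunion : ∀ R : List (G × ℕ), R.Pairwise (fun a b => ¬ IsConj a.1 b.1) →
      (R.map f).sum = (Finset.univ.filter fun g : G => ∃ p ∈ R, IsConj g p.1).card := by
    intro R
    induction R with
    | nil =>
      intro _
      simp
    | cons r R ih =>
      intro h
      rw [List.pairwise_cons] at h
      rw [List.map_cons, List.sum_cons, ih h.2, hf]
      have hset : (Finset.univ.filter fun g : G => ∃ s ∈ r :: R, IsConj g s.1) =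
          (Finset.univ.filter fun x : G => IsConj x r.1) ∪
          (Finset.univ.filter fun g : G => ∃ s ∈ R, IsConj g s.1) := by
        ext g
        simp only [Finset.mem_filter, Finset.mem_univ, true_and, Finset.mem_union, List.mem_cons]
        constructor
        · rintro ⟨s, rfl | hs, h1⟩
          · exact Or.inl h1
          · exact Or.inr ⟨s, hs, h1⟩
        · rintro (h1 | ⟨s, hs, h1⟩)
          · exact ⟨r, Or.inl rfl, h1⟩
          · exact ⟨s, Or.inr hs, h1⟩
      rw [hset, Finset.card_union_of_disjoint]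
      rw [Finset.disjoint_left]
      intro g h1 h2
      simp only [Finset.mem_filter, Finset.mem_univ, true_and] at h1 h2
      obtain ⟨s, hs, h3⟩ := h2
      exact h.1 s hs (h1.symm.trans h3)
  have hle : (R.map f).sum ≤ Nat.card G := by
    rw [hunion R hnd, Nat.card_eq_fintype_card]
    exact Finset.card_le_univ _
  have hsumle : (R.map fun p => Nat.card G / p.2).sum ≤ (R.map f).sum :=
    List.sum_le_sum hge
  constructor
  · intro g
    have h1 : (Finset.univ.filter fun g : G => ∃ p ∈ R, IsConj g p.1).card = Fintype.card G := by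
      rw [← hunion R hnd, ← Nat.card_eq_fintype_card]
      omega
    have h2 := Finset.eq_univ_of_card _ h1
    have h3 : g ∈ (Finset.univ.filter fun g : G => ∃ p ∈ R, IsConj g p.1) := by
      rw [h2]; exact Finset.mem_univ g
    rw [Finset.mem_filter] at h3
    exact h3.2
  · exact list_sum_eq_of_le R f _ hge (by omega)

open Classical in
/-- A list of solutions of `y ^ 2 = 1` with the right number of elements is complete. -/
theorem complete_of_card (I : List (G × ℕ)) (L : Finset G) (hL : ∀ y ∈ L, y ^ 2 = 1)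
    (hcov : ∀ y : G, y ^ 2 = 1 → ∃ p ∈ I, IsConj y p.1)
    (hsize : ∀ p ∈ I, Nat.card {x : G // IsConj x p.1} = Nat.card G / p.2)
    (hcard : (I.map fun p => Nat.card G / p.2).sum ≤ L.card) :
    ∀ y : G, y ^ 2 = 1 → y ∈ L := by
  haveI := Fintype.ofFinite G
  have hsub : (Finset.univ.filter fun y : G => y ^ 2 = 1) ⊆
      I.toFinset.biUnion fun p => Finset.univ.filter fun x : G => IsConj x p.1 := by
    intro y hy
    rw [Finset.mem_filter] at hy
    obtain ⟨p, hp, h⟩ := hcov y hy.2
    rw [Finset.mem_biUnion]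
    refine ⟨p, List.mem_toFinset.2 hp, ?_⟩
    rw [Finset.mem_filter]
    exact ⟨Finset.mem_univ _, h⟩
  have hbound : ∀ I : List (G × ℕ), (∀ p ∈ I, Nat.card {x : G // IsConj x p.1} = Nat.card G / p.2) →
      (I.toFinset.biUnion fun p => Finset.univ.filter fun x : G => IsConj x p.1).card ≤
        (I.map fun p => Nat.card G / p.2).sum := by
    intro I
    induction I with
    | nil => intro _; simp
    | cons a I ih =>
      intro h
      rw [List.toFinset_cons, Finset.biUnion_insert, List.map_cons, List.sum_cons]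
      refine (Finset.card_union_le _ _).trans ?_
      have h1 := ih (fun p hp => h p (by simp [hp]))
      have h2 := h a (by simp)
      rw [Nat.card_eq_fintype_card, Fintype.card_subtype] at h2
      omega
  have hLA : L ⊆ (Finset.univ.filter fun y : G => y ^ 2 = 1) := by
    intro y hy
    rw [Finset.mem_filter]
    exact ⟨Finset.mem_univ _, hL y hy⟩
  have hcardA : (Finset.univ.filter fun y : G => y ^ 2 = 1).card ≤ L.card :=
    (Finset.card_le_card hsub).trans ((hbound I hsize).trans hcard)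
  have heq := Finset.eq_of_subset_of_card_le hLA hcardA
  intro y hy
  rw [heq, Finset.mem_filter]
  exact ⟨Finset.mem_univ _, hy⟩

end Cover

/-! ### The groups -/

noncomputable instance fintypeFixG (l : List ℕ) : Fintype ↥(fixG l : Subgroup (Equiv.Perm GolayPt)) :=
  Fintype.ofFinite _

/-- The group. -/
abbrev GG (l : List ℕ) : Type := ↥(fixG l : Subgroup (Equiv.Perm GolayPt))

open Classical in
/-- The element with a given code. -/
noncomputable def elt (l : List ℕ) (c : ℕ) : GG l := if h : P c ∈ fixG l then ⟨P c, h⟩ else 1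

theorem elt_coe {l : List ℕ} {c : ℕ} (h : P c ∈ fixG l) : ((elt l c : GG l) : Equiv.Perm GolayPt) = P c := by
  unfold elt
  rw [dif_pos h]

/-- The label on the group. -/
noncomputable def ShG (l : List ℕ) (g : GG l) : ℕ := ShP (g : Equiv.Perm GolayPt)

theorem ShG_conj (l : List ℕ) (x g : GG l) : ShG l (x * g * x⁻¹) = ShG l g := by
  unfold ShG
  push_cast
  exact ShP_conj _ _

theorem ShG_inv (l : List ℕ) (g : GG l) : ShG l g⁻¹ = ShG l g := by
  unfold ShG
  push_cast
  exact ShP_inv _

theorem ShG_isConj {l : List ℕ} {a b : GG l} (h : IsConj a b) : ShG l a = ShG l b := by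
  obtain ⟨x, hx⟩ := isConj_iff.1 h
  rw [← hx, ShG_conj]

theorem isFix_permOK {l : List ℕ} {c : ℕ} (h : isFix l c = true) : permOK c = true :=
  isM24_permOK (isFix_isM24 h)

/-! ### Parity from lists -/

theorem mem_filter_of {α : Type*} [Fintype α] {p : α → Prop} {inst : DecidablePred p} {a : α} :
    a ∈ @Finset.filter α p inst Finset.univ ↔ p a := by
  rw [Finset.mem_filter]
  simp

open Classical in
theorem rootC_list {l : List ℕ} (c uc : ℕ) (w u : GG l) (hu : (u : Equiv.Perm GolayPt) = P uc)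
    (huok : permOK uc = true) (Y : List ℕ)
    (hY : ∀ e ∈ Y, permOK e = true ∧ P e ∈ fixG l ∧ (P e) ^ 2 = (w : Equiv.Perm GolayPt) ∧ e < 2 ^ 120)
    (hnd : Y.Pairwise (· < ·))
    (hcomp : ∀ y : GG l, y ^ 2 = w → ∃ e ∈ Y, (y : Equiv.Perm GolayPt) = P e) :
    rootC (fun x : GG l => ShG l x = c) w u = (Y.filter fun e => Nat.beq (shC (pc e uc)) c).length := by
  have hnd2 : (Y.filter fun e => Nat.beq (shC (pc e uc)) c).Nodup := by
    apply List.Pairwise.filter
    exact hnd.imp (fun h => Nat.ne_of_lt h)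
  rw [← List.toFinset_card_of_nodup hnd2]
  unfold rootC
  symm
  refine Finset.card_bij (fun e _ => elt l e) ?_ ?_ ?_
  · intro e he
    rw [List.mem_toFinset, List.mem_filter] at he
    obtain ⟨he1, he2⟩ := he
    obtain ⟨h1, h2, h3, _⟩ := hY e he1
    refine mem_filter_of.2 ⟨?_, ?_⟩
    · apply Subtype.ext
      push_cast
      rw [elt_coe h2, h3]
    · have h4 : shC (pc e uc) = c := Nat.eq_of_beq_eq_true he2
      rw [← h4, shC_eq (permOK_pc h1 huok), P_pc h1 huok]
      unfold ShG
      push_cast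
      rw [elt_coe h2, hu]
  · intro a ha b hb hab
    rw [List.mem_toFinset, List.mem_filter] at ha hb
    obtain ⟨h1, h2, _, h4⟩ := hY a ha.1
    obtain ⟨h1', h2', _, h4'⟩ := hY b hb.1
    have h5 := congrArg (fun x : GG l => (x : Equiv.Perm GolayPt)) hab
    simp only [elt_coe h2, elt_coe h2'] at h5
    exact code_inj h1 h1' h4 h4' h5
  · intro y hy
    obtain ⟨hy1, hy2⟩ := mem_filter_of.1 hy
    obtain ⟨e, he, hye⟩ := hcomp y hy1
    obtain ⟨h1, h2, _, _⟩ := hY e he
    refine ⟨e, ?_, ?_⟩
    · rw [List.mem_toFinset, List.mem_filter]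
      refine ⟨he, ?_⟩
      have h3 : shC (pc e uc) = c := by
        rw [shC_eq (permOK_pc h1 huok), P_pc h1 huok, ← hye, ← hu, ← hy2]
        rfl
      rw [h3]
      simp
    · apply Subtype.ext
      rw [elt_coe h2, hye]

/-- The parity of the structure constants, for a decomposition of the element. -/
theorem nC_par {l : List ℕ} (rp wc uc a : ℕ) (Y : List ℕ)
    (hr : P rp ∈ fixG l) (hw : P wc ∈ fixG l) (hu : P uc ∈ fixG l)
    (hwok : permOK wc = true) (huok : permOK uc = true)
    (h1 : P rp = P wc * (P uc) ^ 2) (h2 : P wc * P uc = P uc * P wc)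
    (h3 : (P wc) ^ 2 ^ a = 1)
    (hY : ∀ e ∈ Y, permOK e = true ∧ P e ∈ fixG l ∧ (P e) ^ 2 = P wc ∧ e < 2 ^ 120)
    (hnd : Y.Pairwise (· < ·))
    (hcomp : ∀ y : Equiv.Perm GolayPt, y ∈ fixG l → y ^ 2 = P wc → ∃ e ∈ Y, y = P e) (c : ℕ) :
    Odd (nC (fun x : GG l => ShG l x = c) (elt l rp)) ↔
      (Y.foldl (rootStep uc) 0).testBit c = true := by
  classical
  have hS : ∀ (x g : GG l), ShG l g = c → ShG l (x * g * x⁻¹) = c := by
    intro x g h
    rw [ShG_conj, h]
  have hz : elt l rp = elt l wc * (elt l uc) ^ 2 := by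
    apply Subtype.ext
    push_cast
    rw [elt_coe hr, elt_coe hw, elt_coe hu, h1]
  have hc : Commute (elt l wc) (elt l uc) := by
    apply Subtype.ext
    push_cast
    rw [elt_coe hw, elt_coe hu, h2]
  have hpw : (elt l wc) ^ 2 ^ a = 1 := by
    apply Subtype.ext
    push_cast
    rw [elt_coe hw, h3]
  have hm := nC_modEq (fun x : GG l => ShG l x = c) hS hz hc hpw
  have hlist := rootC_list c uc (elt l wc) (elt l uc) (elt_coe hu) huok Y
    (fun e he => by
      obtain ⟨h4, h5, h6, h7⟩ := hY e he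
      exact ⟨h4, h5, by rw [elt_coe hw, h6], h7⟩) hnd
    (fun y hy => hcomp y y.2 (by
      have := congrArg (fun x : GG l => (x : Equiv.Perm GolayPt)) hy
      simp only [elt_coe hw] at this
      exact_mod_cast this))
  rw [rootFold]
  simp only [Nat.zero_testBit, Bool.false_bne, decide_eq_true_eq]
  rw [← hlist]
  rw [Nat.odd_iff, Nat.odd_iff]
  exact Eq.congr_left hm

/-! ### Searching -/

theorem mem_tgo_of_intertwine {l : List ℕ} {lv : List (ℕ × List ℕ × List ℕ)} (hC : ChainP l lv)
    {r r' : ℕ} (hr : permOK r = true) (hr' : permOK r' = true) (hq : qv r l lv = true)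
    {x : Equiv.Perm GolayPt} (hx : x ∈ fixG l) (hxr : x * P r = P r' * x) :
    ∃ e ∈ tgo r r' lv idCode, permOK e = true ∧ x = P e := by
  have hid : permOK idCode = true := isM24_permOK idCode_spec
  exact tgo_complete hr hr' hxr lv l idCode x hC hq hid hx (by rw [P_idCode, one_mul])

theorem card_centralizer_le {l : List ℕ} {lv : List (ℕ × List ℕ × List ℕ)} (hC : ChainP l lv)
    {r : ℕ} (hr : permOK r = true) (hrm : P r ∈ fixG l) (hq : qv r l lv = true) :
    Nat.card (Subgroup.centralizer ({elt l r} : Set (GG l))) ≤ (tgo r r lv idCode).length := by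
  classical
  have key : ∀ x : Subgroup.centralizer ({elt l r} : Set (GG l)),
      ∃ e : (tgo r r lv idCode).toFinset, ((x : GG l) : Equiv.Perm GolayPt) = P e := by
    intro x
    have h1 : x.1 * elt l r = elt l r * x.1 := by
      have := (Subgroup.mem_centralizer_iff.1 x.2) (elt l r) (by simp)
      exact this.symm
    have h2 : (x.1 : Equiv.Perm GolayPt) * P r = P r * x.1 := by
      have := congrArg (fun y : GG l => (y : Equiv.Perm GolayPt)) h1
      simp only [Subgroup.coe_mul, elt_coe hrm] at this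
      exact this
    obtain ⟨e, he, _, h3⟩ := mem_tgo_of_intertwine hC hr hr hq x.1.2 h2
    exact ⟨⟨e, List.mem_toFinset.2 he⟩, h3⟩
  choose F hF using key
  have hinj : Function.Injective F := by
    intro a b hab
    apply Subtype.ext
    apply Subtype.ext
    rw [hF a, hF b, hab]
  have h1 := Nat.card_le_card_of_injective F hinj
  rw [Nat.card_eq_fintype_card (α := (tgo r r lv idCode).toFinset), Fintype.card_coe] at h1
  exact h1.trans (List.toFinset_card_le _)

theorem not_isConj_of_tgo {l : List ℕ} {lv : List (ℕ × List ℕ × List ℕ)} (hC : ChainP l lv)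
    {r r' : ℕ} (hr : permOK r = true) (hr' : permOK r' = true) (hrm : P r ∈ fixG l)
    (hrm' : P r' ∈ fixG l) (hq : qv r l lv = true) (h : tgo r r' lv idCode = []) :
    ¬ IsConj (elt l r) (elt l r') := by
  intro hc
  obtain ⟨x, hx⟩ := isConj_iff.1 hc
  have h1 : (x : Equiv.Perm GolayPt) * P r = P r' * x := by
    have := congrArg (fun y : GG l => (y : Equiv.Perm GolayPt)) hx
    simp only [Subgroup.coe_mul, elt_coe hrm, elt_coe hrm', InvMemClass.coe_inv] at this
    rw [← this]
    group
  obtain ⟨e, he, _, _⟩ := mem_tgo_of_intertwine hC hr hr' hq x.2 h1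
  rw [h] at he
  simp at he

/-- The complete chain, with test points. -/
abbrev lv24 (Q1 Q2 Q3 Q4 Q5 Q6 Q7 : List ℕ) : List (ℕ × List ℕ × List ℕ) :=
  [(23, T1, Q1), (0, T2, Q2), (1, T3, Q3), (2, T4, Q4), (3, T5, Q5), (5, T6, Q6), (4, T7, Q7)]

/-- The chain of `M22`, with test points. -/
abbrev lv22 (Q3 Q4 Q5 Q6 Q7 : List ℕ) : List (ℕ × List ℕ × List ℕ) :=
  [(1, T3, Q3), (2, T4, Q4), (3, T5, Q5), (5, T6, Q6), (4, T7, Q7)]

theorem chain22 (Q3 Q4 Q5 Q6 Q7 : List ℕ) : ChainP [0, 23] (lv22 Q3 Q4 Q5 Q6 Q7) :=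
  ⟨⟨_, level3⟩, ⟨_, level4⟩, ⟨_, level5⟩, ⟨_, level6⟩, ⟨_, level7⟩, fix_base_trivial⟩

theorem chain24 (Q1 Q2 Q3 Q4 Q5 Q6 Q7 : List ℕ) : ChainP [] (lv24 Q1 Q2 Q3 Q4 Q5 Q6 Q7) :=
  ⟨⟨_, level1⟩, ⟨_, level2⟩, chain22 Q3 Q4 Q5 Q6 Q7⟩


/-! ### Lists of square roots -/

/-- The test on the elements of a list of square roots. -/
def tstY (l : List ℕ) (wc e : ℕ) : Bool :=
  Bool.and (isFix l e) (Bool.and (Nat.beq (pc e e) wc) (Nat.blt e 1329227995784915872903807060280344576))

theorem hY_of_fold {l : List ℕ} (hl : ∀ i ∈ l, i < 24) {wc : ℕ} {Y : List ℕ}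
    (hf : Y.foldl (goodStep (tstY l wc)) 1 ≠ 0) :
    (∀ e ∈ Y, permOK e = true ∧ P e ∈ fixG l ∧ (P e) ^ 2 = P wc ∧ e < 2 ^ 120) ∧
      Y.Pairwise (· < ·) := by
  obtain ⟨-, h2, h3⟩ := goodFold _ Y 1 hf
  refine ⟨fun e he => ?_, h3⟩
  have h4 := (h2 e he).1
  have h5 : isFix l e = true ∧ Nat.beq (pc e e) wc = true ∧
      Nat.blt e 1329227995784915872903807060280344576 = true := by
    simpa only [tstY, Bool.and_eq_true] using h4
  obtain ⟨h6, h7, h8⟩ := h5
  have hok := isFix_permOK h6
  refine ⟨hok, P_mem_fixG hl h6, ?_, ?_⟩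
  · rw [pow_two, ← P_pc hok hok, Nat.eq_of_beq_eq_true h7]
  · have : e + 1 ≤ 1329227995784915872903807060280344576 := Nat.le_of_ble_eq_true h8
    have h9 : (2 : ℕ) ^ 120 = 1329227995784915872903807060280344576 := by norm_num
    omega

theorem hcomp_tree {l : List ℕ} {lv : List (ℕ × List ℕ × List ℕ)} (hC : ChainP l lv) {wc : ℕ}
    (hw : permOK wc = true) (hq : qv wc l lv = true) (hwlt : wc < 2 ^ 120) :
    ∀ y : Equiv.Perm GolayPt, y ∈ fixG l → y ^ 2 = P wc →
      ∃ e ∈ (tgo wc wc lv idCode).filter (fun e => Nat.beq (pc e e) wc), y = P e := by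
  intro y hy h2
  have hxr : y * P wc = P wc * y := by
    rw [← h2, pow_two, mul_assoc]
  obtain ⟨e, he, hok, hye⟩ := mem_tgo_of_intertwine hC hw hw hq hy hxr
  refine ⟨e, List.mem_filter.2 ⟨he, ?_⟩, hye⟩
  have h3 : P (pc e e) = P wc := by
    rw [P_pc hok hok, ← hye, ← h2, pow_two]
  have h4 := code_inj (permOK_pc hok hok) hw (pc_lt e e) hwlt h3
  rw [h4]
  simp

/-! ### Inverses -/

section Inv

variable {G : Type*} [Group G] [Fintype G]

theorem isConj_inv' {a b : G} (h : IsConj a b) : IsConj a⁻¹ b⁻¹ := by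
  obtain ⟨c, hc⟩ := isConj_iff.1 h
  refine isConj_iff.2 ⟨c, ?_⟩
  rw [← hc]
  group

theorem even_add_inv (Sh : G → ℕ)
    (hfibInv : ∀ g : G, ¬ IsConj g g⁻¹ → ∀ x, Sh x = Sh g ↔ (IsConj x g ∨ IsConj x g⁻¹))
    (hev : ∀ g : G, ¬ IsConj g g⁻¹ → ∀ z : G, Even (nC (fun x => Sh x = Sh g) z)) (g z : G) :
    Even (nC (fun x => IsConj x g) z + nC (fun x => IsConj x g) z⁻¹) := by
  have hinv : nC (fun x => IsConj x g) z⁻¹ = nC (fun x => IsConj x g⁻¹) z := by
    rw [← nC_invS]
    congr 1
    funext x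
    apply propext
    constructor
    · intro h
      have := isConj_inv' h
      simpa using this
    · intro h
      have := isConj_inv' h
      simpa using this
  rw [hinv]
  by_cases hg : IsConj g g⁻¹
  · have : (fun x => IsConj x g⁻¹) = (fun x => IsConj x g) := by
      funext x
      apply propext
      exact ⟨fun h => h.trans hg.symm, fun h => h.trans hg⟩
    rw [this]
    exact ⟨_, rfl⟩
  · have hcA : ∀ x a : G, IsConj (x * a * x⁻¹) g ↔ IsConj a g := by
      intro x a
      have : IsConj (x * a * x⁻¹) a := (isConj_iff.2 ⟨x, rfl⟩).symm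
      exact ⟨fun h => this.symm.trans h, fun h => this.trans h⟩
    have hcB : ∀ x a : G, IsConj (x * a * x⁻¹) g⁻¹ ↔ IsConj a g⁻¹ := by
      intro x a
      have : IsConj (x * a * x⁻¹) a := (isConj_iff.2 ⟨x, rfl⟩).symm
      exact ⟨fun h => this.symm.trans h, fun h => this.trans h⟩
    obtain ⟨m, hm⟩ := nC_union (fun x => IsConj x g) (fun x => IsConj x g⁻¹) hcA hcB
      (fun a h1 h2 => hg (h1.symm.trans h2)) z
    have h1 : (fun x => IsConj x g ∨ IsConj x g⁻¹) = (fun x => Sh x = Sh g) := by
      funext x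
      exact propext (hfibInv g hg x).symm
    rw [h1] at hm
    have h2 := hev g hg z
    rw [hm] at h2
    have h3 : Even (2 * m) := even_two_mul m
    exact (Nat.even_add.1 h2).2 h3 |> fun h => by
      have := (Nat.even_add.1 h2)
      tauto

end Inv

end Cfsg.Agent.H13.Frob
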