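import Cfsg.Agent.Lib.H13.FrobM22Data

/-!
# All characters of `M22` lie in one 2-block
-/

set_option autoImplicit false
set_option maxRecDepth 100000
set_option linter.unusedSectionVars false
set_option linter.style.haveILetI false
set_option maxHeartbeats 0

namespace Cfsg.Agent.H13.Frob.M22D

open Cfsg Cfsg.Agent.H27.Golay Cfsg.Agent.H22

/-- The group. -/
abbrev l22 : List ℕ := [0, 23]

theorem hl22 : ∀ i ∈ l22, i < 24 := by decide

theorem card22 : Nat.card (GG l22) = 443520 := card_fix2

/-- The entries with their levels. -/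
def toE (p : ℕ × ℕ × List ℕ × List ℕ × List ℕ × List ℕ × List ℕ) : ℕ × ℕ × Lv :=
  (p.1, p.2.1, lv22 p.2.2.1 p.2.2.2.1 p.2.2.2.2.1 p.2.2.2.2.2.1 p.2.2.2.2.2.2)

/-- The entries. -/
def RE : List (ℕ × ℕ × Lv) := R.map toE

theorem t_fix : (RE.all fun p => isFix l22 p.1) = true := by decide +kernel

theorem t_q : (RE.all fun p => qv p.1 l22 p.2.2) = true := by decide +kernel

theorem t_len : (RE.all fun p => Nat.beq (tgo p.1 p.1 p.2.2 idCode).length p.2.1) = true := by
  decide +kernel

theorem t_sep : pwB sepE RE = true := by decide +kernel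

theorem t_lab : (RE.all fun p => Bool.not (Nat.beq (shC p.1) (shC idCode))) = true := by decide +kernel

/-- The classes. -/
def RP : List (ℕ × ℕ) := (idCode, 443520) :: RE.map fun p => (p.1, p.2.1)

/-- The class representatives. -/
def RC : List ℕ := RP.map Prod.fst

theorem t_chain : ∀ p ∈ RE, ChainP l22 p.2.2 := by
  intro p hp
  obtain ⟨q, -, rfl⟩ := List.mem_map.1 hp
  exact chain22 _ _ _ _ _

theorem main_cover :
    (∀ g : GG l22, ∃ p ∈ RP, IsConj g (elt l22 p.1)) ∧
    (∀ p ∈ RP, Nat.card {x : GG l22 // IsConj x (elt l22 p.1)} = 443520 / p.2) ∧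
    (∀ p ∈ RP, ∀ p' ∈ RP, IsConj (elt l22 p.1) (elt l22 p'.1) → p.1 = p'.1) := by
  refine cover_of_trees hl22 card22 RE t_chain (List.all_eq_true.1 t_fix) (List.all_eq_true.1 t_q)
    ?_ t_sep ?_ ?_
  · intro p hp
    exact Nat.eq_of_beq_eq_true (List.all_eq_true.1 t_len p hp)
  · intro p hp
    have := List.all_eq_true.1 t_lab p hp
    cases h : Nat.beq (shC p.1) (shC idCode) with
    | false => rfl
    | true => rw [h] at this; exact absurd this (by decide)
  · decide +kernel

theorem hfixRP : ∀ p ∈ RP, isFix l22 p.1 = true := by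
  have h : (RP.all fun p => isFix l22 p.1) = true := by decide +kernel
  exact List.all_eq_true.1 h

/-- Counting the solutions of `y ^ 2 = 1`. -/
theorem hcompInv : ∀ y : Equiv.Perm GolayPt, y ∈ fixG l22 → y ^ 2 = P idCode → ∃ e ∈ Inv, y = P e :=
  hcomp_of_inv hl22 card22 RP hfixRP main_cover.1 main_cover.2.1
    (by decide +kernel) (by decide +kernel)

/-- The parity vectors by labels. -/
def V (s : ℕ) : ℕ := Bool.rec (Bool.rec 0 v110 (Nat.beq s 572)) v50 (Nat.beq s 520)

/-- The rank. -/
def rk (s : ℕ) : ℕ := rkL Lm 0 s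

section Rows

variable (c : ℕ)

/-- The statement for a row. -/
abbrev Row (r : ℕ) : Prop :=
  Odd (nC (fun x : GG l22 => ShG l22 x = c) (elt l22 r)) ↔ (V (shC r)).testBit c = true

theorem row_of {rp wc uc a : ℕ} (h : rowCheap l22 rp wc uc a = true) {Y : List ℕ}
    (hf : Y.foldl (goodStep (tstY l22 wc)) 1 ≠ 0)
    (hcomp : ∀ y : Equiv.Perm GolayPt, y ∈ fixG l22 → y ^ 2 = P wc → ∃ e ∈ Y, y = P e)
    (hv : Y.foldl (rootStep uc) 0 = V (shC rp)) : Row c rp := by
  have := nC_row hl22 h hf hcomp c
  rwa [hv] at this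

theorem row_tree {rp wc uc a : ℕ} (h : rowCheap l22 rp wc uc a = true) {Y : List ℕ}
    {lv : List (ℕ × List ℕ × List ℕ)} (hC : ChainP l22 lv) (hq : qv wc l22 lv = true)
    (hlt : Nat.blt wc 1329227995784915872903807060280344576 = true)
    (hf : Y.foldl (goodStep (tstY l22 wc)) 1 ≠ 0)
    (hsub : treeSub wc (tgo wc wc lv idCode) Y = true)
    (hv : Y.foldl (rootStep uc) 0 = V (shC rp)) : Row c rp := by
  refine row_of c h hf ?_ hv
  have h' : isFix l22 rp = true ∧ isFix l22 wc = true ∧ isFix l22 uc = true ∧
      Nat.beq (pc wc (pc uc uc)) rp = true ∧ Nat.beq (pc wc uc) (pc uc wc) = true ∧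
      Nat.beq (sqIter a wc) idCode = true := by
    simpa only [rowCheap, Bool.and_eq_true] using h
  have hlt' : wc + 1 ≤ 1329227995784915872903807060280344576 := Nat.le_of_ble_eq_true hlt
  have h9 : (2 : ℕ) ^ 120 = 1329227995784915872903807060280344576 := by norm_num
  exact hcomp_of_tree hC (isFix_permOK h'.2.1) hq (by omega) hsub

theorem row20 : Row c r20 :=
  row_tree c (wc := w20) (uc := u20) (a := 1) (by decide +kernel) (Y := Y20) (chain22 _ _ _ _ _)
    (lv := lv20) (by decide +kernel) (by decide +kernel) (by decide +kernel) (by decide +kernel)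
    (by decide +kernel)

theorem row30 : Row c r30 :=
  row_of c (wc := w30) (uc := u30) (a := 0) (by decide +kernel) (Y := Inv) (by decide +kernel) hcompInv
    (by decide +kernel)

theorem row40 : Row c r40 :=
  row_tree c (wc := w40) (uc := u40) (a := 2) (by decide +kernel) (Y := Y40) (chain22 _ _ _ _ _)
    (lv := lv40) (by decide +kernel) (by decide +kernel) (by decide +kernel) (by decide +kernel)
    (by decide +kernel)

theorem row41 : Row c r41 :=
  row_tree c (wc := w41) (uc := u41) (a := 2) (by decide +kernel) (Y := Y41) (chain22 _ _ _ _ _)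
    (lv := lv41) (by decide +kernel) (by decide +kernel) (by decide +kernel) (by decide +kernel)
    (by decide +kernel)

theorem row50 : Row c r50 :=
  row_of c (wc := w50) (uc := u50) (a := 0) (by decide +kernel) (Y := Inv) (by decide +kernel) hcompInv
    (by decide +kernel)

theorem row60 : Row c r60 :=
  row_tree c (wc := w60) (uc := u60) (a := 1) (by decide +kernel) (Y := Y60) (chain22 _ _ _ _ _)
    (lv := lv60) (by decide +kernel) (by decide +kernel) (by decide +kernel) (by decide +kernel)
    (by decide +kernel)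

theorem row70 : Row c r70 :=
  row_of c (wc := w70) (uc := u70) (a := 0) (by decide +kernel) (Y := Inv) (by decide +kernel) hcompInv
    (by decide +kernel)

theorem row80 : Row c r80 :=
  row_tree c (wc := w80) (uc := u80) (a := 3) (by decide +kernel) (Y := Y80) (chain22 _ _ _ _ _)
    (lv := lv80) (by decide +kernel) (by decide +kernel) (by decide +kernel) (by decide +kernel)
    (by decide +kernel)

theorem row110 : Row c r110 :=
  row_of c (wc := w110) (uc := u110) (a := 0) (by decide +kernel) (Y := Inv) (by decide +kernel) hcompInv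
    (by decide +kernel)

theorem row_inv {a b : ℕ} (ha : isFix l22 a = true) (hb : isFix l22 b = true)
    (h : pc a b = idCode) (hs : shC a = shC b) (hr : Row c a) : Row c b := by
  unfold Row at hr ⊢
  rw [nC_row_inv hl22 ha hb h, ← hs]
  exact hr

theorem row70i : Row c r70i :=
  row_inv c (a := r70) (by decide +kernel) (by decide +kernel) (by decide +kernel) (by decide +kernel)
    (row70 c)

theorem row110i : Row c r110i :=
  row_inv c (a := r110) (by decide +kernel) (by decide +kernel) (by decide +kernel) (by decide +kernel)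
    (row110 c)

end Rows

/-- The mates. -/
def mateC (r : ℕ) : ℕ :=
  Bool.rec (Bool.rec (Bool.rec (Bool.rec (Bool.rec (Bool.rec r r110 (Nat.beq r r110i)) r110i (Nat.beq r r110))
    r70 (Nat.beq r r70i)) r70i (Nat.beq r r70)) r40 (Nat.beq r r41)) r41 (Nat.beq r r40)

theorem RC_eq : RC = [idCode, r20, r30, r40, r41, r50, r60, r70, r70i, r80, r110, r110i] := by
  decide +kernel

theorem hV_all : ∀ r ∈ RC, r ≠ idCode → ∀ c,
    (Odd (nC (fun x : GG l22 => ShG l22 x = c) (elt l22 r)) ↔ (V (shC r)).testBit c = true) := by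
  intro r hr hne c
  rw [RC_eq] at hr
  simp only [List.mem_cons, List.not_mem_nil, or_false] at hr
  rcases hr with rfl | rfl | rfl | rfl | rfl | rfl | rfl | rfl | rfl | rfl | rfl | rfl
  · exact absurd rfl hne
  · exact row20 c
  · exact row30 c
  · exact row40 c
  · exact row41 c
  · exact row50 c
  · exact row60 c
  · exact row70 c
  · exact row70i c
  · exact row80 c
  · exact row110 c
  · exact row110i c

/-- The context. -/
theorem ctx : RepCtx l22 RC mateC V rk where
  hl := hl22
  hfix := by
    intro r hr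
    obtain ⟨p, hp, rfl⟩ := List.mem_map.1 hr
    exact hfixRP p hp
  hcover := by
    intro g
    obtain ⟨p, hp, h⟩ := main_cover.1 g
    exact ⟨p.1, List.mem_map.2 ⟨p, hp, rfl⟩, h⟩
  hsep := by
    intro r hr r' hr' h
    obtain ⟨p, hp, rfl⟩ := List.mem_map.1 hr
    obtain ⟨p', hp', rfl⟩ := List.mem_map.1 hr'
    exact main_cover.2.2 p hp p' hp' h
  hmate := by
    have h : (RC.all fun r => Bool.and (memB (mateC r) RC) (Bool.and (Nat.beq (mateC (mateC r)) r)
        (Nat.beq (shC (mateC r)) (shC r)))) = true := by decide +kernel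
    intro r hr
    have h1 := List.all_eq_true.1 h r hr
    simp only [Bool.and_eq_true] at h1
    exact ⟨memB_spec h1.1, Nat.eq_of_beq_eq_true h1.2.1, Nat.eq_of_beq_eq_true h1.2.2⟩
  hlab := by
    have h : (RC.all fun r => RC.all fun r' => Bool.rec true (Bool.or (Nat.beq r' r) (Nat.beq r' (mateC r)))
        (Nat.beq (shC r) (shC r'))) = true := by decide +kernel
    intro r hr r' hr' hs
    have h1 := List.all_eq_true.1 (List.all_eq_true.1 h r hr) r' hr'
    rw [hs] at h1
    simp only [Nat.beq_refl] at h1
    simp only [Bool.or_eq_true] at h1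
    rcases h1 with h2 | h2
    · exact Or.inl (Nat.eq_of_beq_eq_true h2)
    · exact Or.inr (Nat.eq_of_beq_eq_true h2)
  hid := by decide +kernel
  hmid := by decide +kernel
  hV := hV_all
  hrk := by
    have h : (RC.all fun r => Bool.rec (rkOK Lm 0 (V (shC r)) (shC r)) true (Nat.beq r idCode)) = true := by
      decide +kernel
    intro r hr hne c hc
    have h1 := List.all_eq_true.1 h r hr
    have h2 : Nat.beq r idCode = false := by
      cases h3 : Nat.beq r idCode with
      | false => rfl
      | true => exact absurd (Nat.eq_of_beq_eq_true h3) hne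
    rw [h2] at h1
    exact rkOK_spec (by decide +kernel) h1 c hc
  hreal := by
    have h : (RC.all fun r => Bool.rec (Bool.or (Nat.beq (rk (shC r)) 0) (Bool.or (Nat.beq r r40) (Nat.beq r r41)))
        true (Nat.beq (mateC r) r)) = true := by decide +kernel
    intro r hr hne
    have h1 := List.all_eq_true.1 h r hr
    have h2 : Nat.beq (mateC r) r = false := by
      cases h3 : Nat.beq (mateC r) r with
      | false => rfl
      | true => exact absurd (Nat.eq_of_beq_eq_true h3) hne
    rw [h2] at h1
    simp only [Bool.or_eq_true] at h1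
    rcases h1 with h3 | h3 | h3
    · exact Or.inl (Nat.eq_of_beq_eq_true h3)
    · rw [Nat.eq_of_beq_eq_true h3]
      exact Or.inr (isConj_inv_of_wit hl22 (x := x40) (by decide +kernel) (by decide +kernel)
        (by decide +kernel))
    · rw [Nat.eq_of_beq_eq_true h3]
      exact Or.inr (isConj_inv_of_wit hl22 (x := x41) (by decide +kernel) (by decide +kernel)
        (by decide +kernel))

theorem hT2_all : ∀ r ∈ RC, mateC r ≠ r → ∀ g : GG l22,
    Even (nC (fun x => IsConj x g) (elt l22 r) + nC (fun x => IsConj x g) (elt l22 (mateC r))) := by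
  have h : (RC.all fun r => Bool.rec (Bool.or (Nat.beq (pc r (mateC r)) idCode)
      (Bool.or (Nat.beq r r40) (Nat.beq r r41))) true (Nat.beq (mateC r) r)) = true := by
    decide +kernel
  have hs : (RC.all fun r0 => Bool.rec true (Nat.beq (shC r0) 522) (Nat.beq (shC (pc r0 r0)) (shC r40))) = true := by
    decide +kernel
  have hs' : ∀ r0 ∈ RC, shC (pc r0 r0) = shC r40 → shC r0 = 522 := by
    intro r0 hr0 h1
    have h2 := List.all_eq_true.1 hs r0 hr0
    rw [h1] at h2
    simp only [Nat.beq_refl] at h2
    exact Nat.eq_of_beq_eq_true h2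
  have hsg : (RC.all fun r0 => Bool.rec true (Nat.beq (mateC r0) r0) (Nat.beq (shC r0) 522)) = true := by
    decide +kernel
  have hsg' : ∀ r0 ∈ RC, shC r0 = 522 → mateC r0 = r0 := by
    intro r0 hr0 h1
    have h2 := List.all_eq_true.1 hsg r0 hr0
    rw [h1] at h2
    simp only [Nat.beq_refl] at h2
    exact Nat.eq_of_beq_eq_true h2
  have e41 : shC r41 = shC r40 := by decide +kernel
  have e40 : ∀ g : GG l22, Even (nC (fun x => IsConj x g) (elt l22 r40)) :=
    ctx.even_of_root (r := r40) (s := 522) (a := 2) (by decide +kernel) (by decide +kernel)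
      (by decide +kernel) (elt_pow_of_sqIter hl22 (by decide +kernel) (by decide +kernel)) hs' hsg'
  have e41' : ∀ g : GG l22, Even (nC (fun x => IsConj x g) (elt l22 r41)) :=
    ctx.even_of_root (r := r41) (s := 522) (a := 2) (by decide +kernel) (by decide +kernel)
      (by decide +kernel) (elt_pow_of_sqIter hl22 (by decide +kernel) (by decide +kernel))
      (by rw [e41]; exact hs') hsg'
  intro r hr hne g
  have h1 := List.all_eq_true.1 h r hr
  have h2 : Nat.beq (mateC r) r = false := by
    cases h3 : Nat.beq (mateC r) r with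
    | false => rfl
    | true => exact absurd (Nat.eq_of_beq_eq_true h3) hne
  rw [h2] at h1
  simp only [Bool.or_eq_true] at h1
  rcases h1 with h3 | h3 | h3
  · have hr1 := ctx.hfix r hr
    have hr2 := ctx.hfix _ (ctx.hmate r hr).1
    exact ctx.T2_inv (elt_inv_of hl22 hr1 hr2 (Nat.eq_of_beq_eq_true h3)) g
  · rw [Nat.eq_of_beq_eq_true h3]
    have : mateC r40 = r41 := by decide +kernel
    rw [this]
    exact (e40 g).add (e41' g)
  · rw [Nat.eq_of_beq_eq_true h3]
    have : mateC r41 = r40 := by decide +kernel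
    rw [this]
    exact (e41' g).add (e40 g)

/-- The theorem. -/
theorem sameBlock22 (M : Ideal AlgInt) (hM : IsPModular 2 M) (χ ψ : IrrCharacter (GG l22)) :
    SameBlock M χ.1 ψ.1 := by
  haveI : Fintype (IrrCharacter (GG l22)) := Fintype.ofFinite _
  haveI : Fintype (ConjClasses (GG l22)) := Fintype.ofFinite _
  exact sameBlock_of_reps ctx hT2_all M hM χ ψ

end Cfsg.Agent.H13.Frob.M22D
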