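import Cfsg.Agent.Lib.H13.FrobM24Cover

/-! Parity vectors of the classes of odd order in `M24` (generated). -/

set_option autoImplicit false
set_option maxRecDepth 100000
set_option maxHeartbeats 0
set_option linter.unusedSectionVars false
set_option linter.style.haveILetI false

namespace Cfsg.Agent.H13.Frob.M24D

open Cfsg Cfsg.Agent.H27.Golay

theorem vec11A : scanFL (rootStep u11A) 64 IA 0 = V (shC r11A) := by decide +kernel

theorem row11A (c : ℕ) : RowG l24 V c r11A :=
  rowG_of hl24 V c (wc := idCode) (uc := u11A) (a := 0) (by decide +kernel) (Y := flat 64 IA) hfInv hcompInv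
    (by rw [← scanFL_eq]; exact vec11A)

theorem vec15A : scanFL (rootStep u15A) 64 IA 0 = V (shC r15A) := by decide +kernel

theorem row15A (c : ℕ) : RowG l24 V c r15A :=
  rowG_of hl24 V c (wc := idCode) (uc := u15A) (a := 0) (by decide +kernel) (Y := flat 64 IA) hfInv hcompInv
    (by rw [← scanFL_eq]; exact vec15A)

theorem vec21A : scanFL (rootStep u21A) 64 IA 0 = V (shC r21A) := by decide +kernel

theorem row21A (c : ℕ) : RowG l24 V c r21A :=
  rowG_of hl24 V c (wc := idCode) (uc := u21A) (a := 0) (by decide +kernel) (Y := flat 64 IA) hfInv hcompInv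
    (by rw [← scanFL_eq]; exact vec21A)

theorem vec23A : scanFL (rootStep u23A) 64 IA 0 = V (shC r23A) := by decide +kernel

theorem row23A (c : ℕ) : RowG l24 V c r23A :=
  rowG_of hl24 V c (wc := idCode) (uc := u23A) (a := 0) (by decide +kernel) (Y := flat 64 IA) hfInv hcompInv
    (by rw [← scanFL_eq]; exact vec23A)


end Cfsg.Agent.H13.Frob.M24D
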