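import Cfsg.Agent.Lib.H13.FrobM24O1
import Cfsg.Agent.Lib.H13.FrobM24O2

/-! All characters of `M24` lie in one 2-block (generated). -/

set_option autoImplicit false
set_option maxRecDepth 100000
set_option maxHeartbeats 0
set_option linter.unusedSectionVars false
set_option linter.style.haveILetI false

namespace Cfsg.Agent.H13.Frob.M24D

open Cfsg Cfsg.Agent.H27.Golay

section Rows

variable (c : ℕ)

theorem row2A : RowG l24 V c r2A :=
  rowG_tree hl24 V c (wc := r2A) (uc := u2A) (a := 1) (by decide +kernel) (Y := Y2A) (lv := lv2A)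
    (chain24 _ _ _ _ _ _ _) (by decide +kernel) (by decide +kernel) (by decide +kernel) sub2A (by decide +kernel)

theorem row2B : RowG l24 V c r2B :=
  rowG_tree hl24 V c (wc := r2B) (uc := u2B) (a := 1) (by decide +kernel) (Y := Y2B) (lv := lv2B)
    (chain24 _ _ _ _ _ _ _) (by decide +kernel) (by decide +kernel) (by decide +kernel) sub2B (by decide +kernel)

theorem row4A : RowG l24 V c r4A :=
  rowG_tree hl24 V c (wc := r4A) (uc := u4A) (a := 2) (by decide +kernel) (Y := Y4A) (lv := lv4A)
    (chain24 _ _ _ _ _ _ _) (by decide +kernel) (by decide +kernel) (by decide +kernel) sub4A (by decide +kernel)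

theorem row4B : RowG l24 V c r4B :=
  rowG_tree hl24 V c (wc := r4B) (uc := u4B) (a := 2) (by decide +kernel) (Y := []) (lv := lv4B)
    (chain24 _ _ _ _ _ _ _) (by decide +kernel) (by decide +kernel) (by decide +kernel) sub4B (by decide +kernel)

theorem row4C : RowG l24 V c r4C :=
  rowG_tree hl24 V c (wc := r4C) (uc := u4C) (a := 2) (by decide +kernel) (Y := []) (lv := lv4C)
    (chain24 _ _ _ _ _ _ _) (by decide +kernel) (by decide +kernel) (by decide +kernel) sub4C (by decide +kernel)

theorem row8A : RowG l24 V c r8A :=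
  rowG_tree hl24 V c (wc := r8A) (uc := u8A) (a := 3) (by decide +kernel) (Y := []) (lv := lv8A)
    (chain24 _ _ _ _ _ _ _) (by decide +kernel) (by decide +kernel) (by decide +kernel) sub8A (by decide +kernel)

theorem rowP6A : RowG l24 V c p6A :=
  rowG_tree hl24 V c (wc := r2A) (uc := u6A) (a := 1) (by decide +kernel) (Y := Y2A) (lv := lv2A)
    (chain24 _ _ _ _ _ _ _) (by decide +kernel) (by decide +kernel) (by decide +kernel) sub2A (by decide +kernel)

theorem row6A : RowG l24 V c r6A :=
  rowG_conj hl24 V c (x := x6A) (r' := p6A) (by decide +kernel) (by decide +kernel) (by decide +kernel)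
    (by decide +kernel) (by decide +kernel) (rowP6A c)

theorem rowP6B : RowG l24 V c p6B :=
  rowG_tree hl24 V c (wc := r2B) (uc := u6B) (a := 1) (by decide +kernel) (Y := Y2B) (lv := lv2B)
    (chain24 _ _ _ _ _ _ _) (by decide +kernel) (by decide +kernel) (by decide +kernel) sub2B (by decide +kernel)

theorem row6B : RowG l24 V c r6B :=
  rowG_conj hl24 V c (x := x6B) (r' := p6B) (by decide +kernel) (by decide +kernel) (by decide +kernel)
    (by decide +kernel) (by decide +kernel) (rowP6B c)

theorem rowP10A : RowG l24 V c p10A :=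
  rowG_tree hl24 V c (wc := r2B) (uc := u10A) (a := 1) (by decide +kernel) (Y := Y2B) (lv := lv2B)
    (chain24 _ _ _ _ _ _ _) (by decide +kernel) (by decide +kernel) (by decide +kernel) sub2B (by decide +kernel)

theorem row10A : RowG l24 V c r10A :=
  rowG_conj hl24 V c (x := x10A) (r' := p10A) (by decide +kernel) (by decide +kernel) (by decide +kernel)
    (by decide +kernel) (by decide +kernel) (rowP10A c)

theorem rowP14A : RowG l24 V c p14A :=
  rowG_tree hl24 V c (wc := r2A) (uc := u14A) (a := 1) (by decide +kernel) (Y := Y2A) (lv := lv2A)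
    (chain24 _ _ _ _ _ _ _) (by decide +kernel) (by decide +kernel) (by decide +kernel) sub2A (by decide +kernel)

theorem row14A : RowG l24 V c r14A :=
  rowG_conj hl24 V c (x := x14A) (r' := p14A) (by decide +kernel) (by decide +kernel) (by decide +kernel)
    (by decide +kernel) (by decide +kernel) (rowP14A c)

theorem rowP12A : RowG l24 V c p12A :=
  rowG_tree hl24 V c (wc := r4B) (uc := u12A) (a := 2) (by decide +kernel) (Y := []) (lv := lv4B)
    (chain24 _ _ _ _ _ _ _) (by decide +kernel) (by decide +kernel) (by decide +kernel) sub4B (by decide +kernel)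

theorem row12A : RowG l24 V c r12A :=
  rowG_conj hl24 V c (x := x12A) (r' := p12A) (by decide +kernel) (by decide +kernel) (by decide +kernel)
    (by decide +kernel) (by decide +kernel) (rowP12A c)

theorem rowP12B : RowG l24 V c p12B :=
  rowG_tree hl24 V c (wc := r4C) (uc := u12B) (a := 2) (by decide +kernel) (Y := []) (lv := lv4C)
    (chain24 _ _ _ _ _ _ _) (by decide +kernel) (by decide +kernel) (by decide +kernel) sub4C (by decide +kernel)

theorem row12B : RowG l24 V c r12B :=
  rowG_conj hl24 V c (x := x12B) (r' := p12B) (by decide +kernel) (by decide +kernel) (by decide +kernel)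
    (by decide +kernel) (by decide +kernel) (rowP12B c)

theorem row7B : RowG l24 V c r7B :=
  rowG_inv hl24 V c (a := r7A) (by decide +kernel) (by decide +kernel) (by decide +kernel) (by decide +kernel)
    (row7A c)

theorem row14B : RowG l24 V c r14B :=
  rowG_inv hl24 V c (a := r14A) (by decide +kernel) (by decide +kernel) (by decide +kernel) (by decide +kernel)
    (row14A c)

theorem row15B : RowG l24 V c r15B :=
  rowG_inv hl24 V c (a := r15A) (by decide +kernel) (by decide +kernel) (by decide +kernel) (by decide +kernel)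
    (row15A c)

theorem row21B : RowG l24 V c r21B :=
  rowG_inv hl24 V c (a := r21A) (by decide +kernel) (by decide +kernel) (by decide +kernel) (by decide +kernel)
    (row21A c)

theorem row23B : RowG l24 V c r23B :=
  rowG_inv hl24 V c (a := r23A) (by decide +kernel) (by decide +kernel) (by decide +kernel) (by decide +kernel)
    (row23A c)

end Rows

theorem RC_eq : RC = [idCode, r2A, r2B, r3A, r3B, r4A, r4B, r4C, r5A, r6A, r6B, r7A, r7B, r8A, r10A, r11A, r12A, r12B, r14A, r14B, r15A, r15B, r21A, r21B, r23A, r23B] := by decide +kernel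

theorem hV_all : ∀ r ∈ RC, r ≠ idCode → ∀ c,
    (Odd (nC (fun x : GG l24 => ShG l24 x = c) (elt l24 r)) ↔ (V (shC r)).testBit c = true) := by
  intro r hr hne c
  rw [RC_eq] at hr
  simp only [List.mem_cons, List.not_mem_nil, or_false] at hr
  rcases hr with rfl | rfl | rfl | rfl | rfl | rfl | rfl | rfl | rfl | rfl | rfl | rfl | rfl | rfl | rfl | rfl | rfl | rfl | rfl | rfl | rfl | rfl | rfl | rfl | rfl | rfl
  · exact absurd rfl hne

  · exact row2A c
  · exact row2B c
  · exact row3A c
  · exact row3B c
  · exact row4A c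
  · exact row4B c
  · exact row4C c
  · exact row5A c
  · exact row6A c
  · exact row6B c
  · exact row7A c
  · exact row7B c
  · exact row8A c
  · exact row10A c
  · exact row11A c
  · exact row12A c
  · exact row12B c
  · exact row14A c
  · exact row14B c
  · exact row15A c
  · exact row15B c
  · exact row21A c
  · exact row21B c
  · exact row23A c
  · exact row23B c


theorem hfixRC : ∀ r ∈ RC, isFix l24 r = true := by
  intro r hr
  obtain ⟨p, hp, rfl⟩ := List.mem_map.1 hr
  exact hfixRP p hp

/-- The context. -/
theorem ctx : RepCtx l24 RC mateC V (rkL A B) := by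
  refine ctx_of_checks hl24 hfixRC ?_ ?_ (by decide +kernel) (by decide +kernel) hV_all ?_
  · intro g
    obtain ⟨p, hp, h⟩ := main_cover.1 g
    exact ⟨p.1, List.mem_map.2 ⟨p, hp, rfl⟩, h⟩
  · intro r hr r' hr' h
    obtain ⟨p, hp, rfl⟩ := List.mem_map.1 hr
    obtain ⟨p', hp', rfl⟩ := List.mem_map.1 hr'
    exact main_cover.2.2 p hp p' hp' h
  · have h : (RC.all fun r => Bool.rec (Nat.beq (rkL A B (shC r)) 0) true (Nat.beq (mateC r) r)) = true := by
      decide +kernel
    intro r hr hne
    have h1 := List.all_eq_true.1 h r hr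
    have h2 : Nat.beq (mateC r) r = false := by
      cases h3 : Nat.beq (mateC r) r with
      | false => rfl
      | true => exact absurd (Nat.eq_of_beq_eq_true h3) hne
    rw [h2] at h1
    exact Or.inl (Nat.eq_of_beq_eq_true h1)

theorem hT2_all : ∀ r ∈ RC, mateC r ≠ r → ∀ g : GG l24,
    Even (nC (fun x => IsConj x g) (elt l24 r) + nC (fun x => IsConj x g) (elt l24 (mateC r))) := by
  have h : (RC.all fun r => Bool.rec (Nat.beq (pc r (mateC r)) idCode) true (Nat.beq (mateC r) r)) = true := by
    decide +kernel
  intro r hr hne g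
  have h1 := List.all_eq_true.1 h r hr
  have h2 : Nat.beq (mateC r) r = false := by
    cases h3 : Nat.beq (mateC r) r with
    | false => rfl
    | true => exact absurd (Nat.eq_of_beq_eq_true h3) hne
  rw [h2] at h1
  have hr1 := ctx.hfix r hr
  have hr2 := ctx.hfix _ (ctx.hmate r hr).1
  exact ctx.T2_inv (elt_inv_of hl24 hr1 hr2 (Nat.eq_of_beq_eq_true h1)) g

/-- The theorem. -/
theorem sameBlock24 (M : Ideal AlgInt) (hM : IsPModular 2 M) (χ ψ : IrrCharacter (GG l24)) :
    SameBlock M χ.1 ψ.1 := by
  haveI : Fintype (IrrCharacter (GG l24)) := Fintype.ofFinite _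
  haveI : Fintype (ConjClasses (GG l24)) := Fintype.ofFinite _
  exact sameBlock_of_reps ctx hT2_all M hM χ ψ


end Cfsg.Agent.H13.Frob.M24D
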