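import Cfsg.Agent.Lib.H13.FrobM24I0
import Cfsg.Agent.Lib.H13.FrobM24I1
import Cfsg.Agent.Lib.H13.FrobM24I2
import Cfsg.Agent.Lib.H13.FrobM24I3
import Cfsg.Agent.Lib.H13.FrobM24I4
import Cfsg.Agent.Lib.H13.FrobM24I5
import Cfsg.Agent.Lib.H13.FrobM24I6
import Cfsg.Agent.Lib.H13.FrobM24I7
import Cfsg.Agent.Lib.H13.FrobM24I8
import Cfsg.Agent.Lib.H13.FrobM24I9
import Cfsg.Agent.Lib.H13.FrobM24I10
import Cfsg.Agent.Lib.H13.FrobM24I11
import Cfsg.Agent.Lib.H13.FrobM24I12

/-! The solutions of `y ^ 2 = 1` in `M24`. -/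

set_option autoImplicit false
set_option maxRecDepth 100000
set_option maxHeartbeats 0
set_option linter.unusedSectionVars false
set_option linter.style.haveILetI false

namespace Cfsg.Agent.H13.Frob.M24D

open Cfsg Cfsg.Agent.H27.Golay

/-- All chunks. -/
def IA : List ℕ := I0 ++ I1 ++ I2 ++ I3 ++ I4 ++ I5 ++ I6 ++ I7 ++ I8 ++ I9 ++ I10 ++ I11 ++ I12

theorem hfInv : (flat 64 IA).foldl (goodStep (tstY l24 idCode)) 1 ≠ 0 := by
  rw [← scanFL_eq]
  unfold IA
  rw [scanFL_append, scanFL_append, scanFL_append, scanFL_append, scanFL_append, scanFL_append, scanFL_append, scanFL_append, scanFL_append, scanFL_append, scanFL_append, scanFL_append, tI0, tI1, tI2, tI3, tI4, tI5, tI6, tI7, tI8, tI9, tI10, tI11, tI12]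
  exact Nat.succ_ne_zero _

theorem lenInv : 43264 ≤ (flat 64 IA).length := by decide +kernel


end Cfsg.Agent.H13.Frob.M24D
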