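import Cfsg.Agent.Lib.H13.FrobM24Data

/-! Trees of the 2-block of `M24` (generated). -/

set_option autoImplicit false
set_option maxRecDepth 100000
set_option maxHeartbeats 0
set_option linter.unusedSectionVars false
set_option linter.style.haveILetI false

namespace Cfsg.Agent.H13.Frob.M24D

open Cfsg Cfsg.Agent.H27.Golay

theorem tree2B : treeChk r2B Y2B (tgo r2B r2B lv2B idCode) 0 = 7680 := by decide +kernel

theorem len2B : (tgo r2B r2B lv2B idCode).length = 7680 :=
  (treeChk_spec _ 0 7680 (by norm_num) tree2B).1

theorem sub2B : treeSub r2B (tgo r2B r2B lv2B idCode) Y2B = true :=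
  (treeChk_spec _ 0 7680 (by norm_num) tree2B).2


end Cfsg.Agent.H13.Frob.M24D
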