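import Cfsg.Agent.Lib.H13.FrobM24Data

/-! Trees of the 2-block of `M24` (generated). -/

set_option autoImplicit false
set_option maxRecDepth 100000
set_option maxHeartbeats 0
set_option linter.unusedSectionVars false
set_option linter.style.haveILetI false

namespace Cfsg.Agent.H13.Frob.M24D

open Cfsg Cfsg.Agent.H27.Golay

theorem len3A : (tgo r3A r3A lv3A idCode).length = 1080 := by decide +kernel

theorem len3B : (tgo r3B r3B lv3B idCode).length = 504 := by decide +kernel

theorem len5A : (tgo r5A r5A lv5A idCode).length = 60 := by decide +kernel


end Cfsg.Agent.H13.Frob.M24D
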