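import Cfsg.Agent.Lib.H13.FrobM24Data

/-! Trees of the 2-block of `M24` (generated). -/

set_option autoImplicit false
set_option maxRecDepth 100000
set_option maxHeartbeats 0
set_option linter.unusedSectionVars false
set_option linter.style.haveILetI false

namespace Cfsg.Agent.H13.Frob.M24D

open Cfsg Cfsg.Agent.H27.Golay

theorem tree4A : treeChk r4A Y4A (tgo r4A r4A lv4A idCode) 0 = 128 := by decide +kernel

theorem len4A : (tgo r4A r4A lv4A idCode).length = 128 :=
  (treeChk_spec _ 0 128 (by norm_num) tree4A).1

theorem sub4A : treeSub r4A (tgo r4A r4A lv4A idCode) Y4A = true :=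
  (treeChk_spec _ 0 128 (by norm_num) tree4A).2

theorem tree4B : treeChk r4B [] (tgo r4B r4B lv4B idCode) 0 = 384 := by decide +kernel

theorem len4B : (tgo r4B r4B lv4B idCode).length = 384 :=
  (treeChk_spec _ 0 384 (by norm_num) tree4B).1

theorem sub4B : treeSub r4B (tgo r4B r4B lv4B idCode) [] = true :=
  (treeChk_spec _ 0 384 (by norm_num) tree4B).2

theorem tree4C : treeChk r4C [] (tgo r4C r4C lv4C idCode) 0 = 96 := by decide +kernel

theorem len4C : (tgo r4C r4C lv4C idCode).length = 96 :=
  (treeChk_spec _ 0 96 (by norm_num) tree4C).1

theorem sub4C : treeSub r4C (tgo r4C r4C lv4C idCode) [] = true :=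
  (treeChk_spec _ 0 96 (by norm_num) tree4C).2

theorem len6A : (tgo r6A r6A lv6A idCode).length = 24 := by decide +kernel

theorem len6B : (tgo r6B r6B lv6B idCode).length = 24 := by decide +kernel

theorem len7A : (tgo r7A r7A lv7A idCode).length = 42 := by decide +kernel

theorem len7B : (tgo r7B r7B lv7B idCode).length = 42 := by decide +kernel

theorem tree8A : treeChk r8A [] (tgo r8A r8A lv8A idCode) 0 = 16 := by decide +kernel

theorem len8A : (tgo r8A r8A lv8A idCode).length = 16 :=
  (treeChk_spec _ 0 16 (by norm_num) tree8A).1

theorem sub8A : treeSub r8A (tgo r8A r8A lv8A idCode) [] = true :=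
  (treeChk_spec _ 0 16 (by norm_num) tree8A).2

theorem len10A : (tgo r10A r10A lv10A idCode).length = 20 := by decide +kernel

theorem len11A : (tgo r11A r11A lv11A idCode).length = 11 := by decide +kernel

theorem len12A : (tgo r12A r12A lv12A idCode).length = 12 := by decide +kernel

theorem len12B : (tgo r12B r12B lv12B idCode).length = 12 := by decide +kernel

theorem len14A : (tgo r14A r14A lv14A idCode).length = 14 := by decide +kernel

theorem len14B : (tgo r14B r14B lv14B idCode).length = 14 := by decide +kernel

theorem len15A : (tgo r15A r15A lv15A idCode).length = 15 := by decide +kernel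

theorem len15B : (tgo r15B r15B lv15B idCode).length = 15 := by decide +kernel

theorem len21A : (tgo r21A r21A lv21A idCode).length = 21 := by decide +kernel

theorem len21B : (tgo r21B r21B lv21B idCode).length = 21 := by decide +kernel

theorem len23A : (tgo r23A r23A lv23A idCode).length = 23 := by decide +kernel

theorem len23B : (tgo r23B r23B lv23B idCode).length = 23 := by decide +kernel


end Cfsg.Agent.H13.Frob.M24D
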