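import Cfsg.Agent.Lib.H13.FrobM24T1
import Cfsg.Agent.Lib.H13.FrobM24T2
import Cfsg.Agent.Lib.H13.FrobM24T3
import Cfsg.Agent.Lib.H13.FrobM24T4
import Cfsg.Agent.Lib.H13.FrobM24IA

/-! The classes of `M24` (generated). -/

set_option autoImplicit false
set_option maxRecDepth 100000
set_option maxHeartbeats 0
set_option linter.unusedSectionVars false
set_option linter.style.haveILetI false

namespace Cfsg.Agent.H13.Frob.M24D

open Cfsg Cfsg.Agent.H27.Golay

theorem t_chain : ∀ p ∈ RE, ChainP l24 p.2.2 := by
  intro p hp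
  simp only [RE, List.mem_cons, List.not_mem_nil, or_false] at hp
  rcases hp with rfl | rfl | rfl | rfl | rfl | rfl | rfl | rfl | rfl | rfl | rfl | rfl | rfl | rfl | rfl | rfl | rfl | rfl | rfl | rfl | rfl | rfl | rfl | rfl | rfl
  all_goals exact chain24 _ _ _ _ _ _ _

theorem t_fix : (RE.all fun p => isFix l24 p.1) = true := by decide +kernel

theorem t_q : (RE.all fun p => qv p.1 l24 p.2.2) = true := by decide +kernel

theorem t_len : ∀ p ∈ RE, (tgo p.1 p.1 p.2.2 idCode).length = p.2.1 := by
  intro p hp
  simp only [RE, List.mem_cons, List.not_mem_nil, or_false] at hp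
  rcases hp with rfl | rfl | rfl | rfl | rfl | rfl | rfl | rfl | rfl | rfl | rfl | rfl | rfl | rfl | rfl | rfl | rfl | rfl | rfl | rfl | rfl | rfl | rfl | rfl | rfl

  · exact len2A
  · exact len2B
  · exact len3A
  · exact len3B
  · exact len4A
  · exact len4B
  · exact len4C
  · exact len5A
  · exact len6A
  · exact len6B
  · exact len7A
  · exact len7B
  · exact len8A
  · exact len10A
  · exact len11A
  · exact len12A
  · exact len12B
  · exact len14A
  · exact len14B
  · exact len15A
  · exact len15B
  · exact len21A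
  · exact len21B
  · exact len23A
  · exact len23B

theorem t_sep : pwB sepE RE = true := by decide +kernel

theorem t_lab : (RE.all fun p => Bool.not (Nat.beq (shC p.1) (shC idCode))) = true := by decide +kernel

theorem main_cover :
    (∀ g : GG l24, ∃ p ∈ RP, IsConj g (elt l24 p.1)) ∧
    (∀ p ∈ RP, Nat.card {x : GG l24 // IsConj x (elt l24 p.1)} = 244823040 / p.2) ∧
    (∀ p ∈ RP, ∀ p' ∈ RP, IsConj (elt l24 p.1) (elt l24 p'.1) → p.1 = p'.1) := by
  refine cover_of_trees hl24 card24 RE t_chain (List.all_eq_true.1 t_fix) (List.all_eq_true.1 t_q)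
    t_len t_sep ?_ ?_
  · intro p hp
    have := List.all_eq_true.1 t_lab p hp
    cases h : Nat.beq (shC p.1) (shC idCode) with
    | false => rfl
    | true => rw [h] at this; exact absurd this (by decide)
  · decide +kernel

theorem hfixRP : ∀ p ∈ RP, isFix l24 p.1 = true := by
  have h : (RP.all fun p => isFix l24 p.1) = true := by decide +kernel
  exact List.all_eq_true.1 h

/-- Counting the solutions of `y ^ 2 = 1`. -/
theorem hcompInv : ∀ y : Equiv.Perm GolayPt, y ∈ fixG l24 → y ^ 2 = P idCode → ∃ e ∈ flat 64 IA, y = P e :=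
  hcomp_of_inv hl24 card24 RP hfixRP main_cover.1 main_cover.2.1 hfInv
    (le_trans (by decide +kernel) lenInv)


end Cfsg.Agent.H13.Frob.M24D
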