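import Cfsg.Agent.Lib.H13.FrobM24Cover

/-! Parity vectors of the classes of odd order in `M24` (generated). -/

set_option autoImplicit false
set_option maxRecDepth 100000
set_option maxHeartbeats 0
set_option linter.unusedSectionVars false
set_option linter.style.haveILetI false

namespace Cfsg.Agent.H13.Frob.M24D

open Cfsg Cfsg.Agent.H27.Golay

theorem vec3A : scanFL (rootStep u3A) 64 IA 0 = V (shC r3A) := by decide +kernel

theorem row3A (c : ℕ) : RowG l24 V c r3A :=
  rowG_of hl24 V c (wc := idCode) (uc := u3A) (a := 0) (by decide +kernel) (Y := flat 64 IA) hfInv hcompInv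
    (by rw [← scanFL_eq]; exact vec3A)

theorem vec3B : scanFL (rootStep u3B) 64 IA 0 = V (shC r3B) := by decide +kernel

theorem row3B (c : ℕ) : RowG l24 V c r3B :=
  rowG_of hl24 V c (wc := idCode) (uc := u3B) (a := 0) (by decide +kernel) (Y := flat 64 IA) hfInv hcompInv
    (by rw [← scanFL_eq]; exact vec3B)

theorem vec5A : scanFL (rootStep u5A) 64 IA 0 = V (shC r5A) := by decide +kernel

theorem row5A (c : ℕ) : RowG l24 V c r5A :=
  rowG_of hl24 V c (wc := idCode) (uc := u5A) (a := 0) (by decide +kernel) (Y := flat 64 IA) hfInv hcompInv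
    (by rw [← scanFL_eq]; exact vec5A)

theorem vec7A : scanFL (rootStep u7A) 64 IA 0 = V (shC r7A) := by decide +kernel

theorem row7A (c : ℕ) : RowG l24 V c r7A :=
  rowG_of hl24 V c (wc := idCode) (uc := u7A) (a := 0) (by decide +kernel) (Y := flat 64 IA) hfInv hcompInv
    (by rw [← scanFL_eq]; exact vec7A)


end Cfsg.Agent.H13.Frob.M24D
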