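import Cfsg.Agent.Lib.H13.FrobGroup

/-!
# The single 2-block from a list of class representatives and parity vectors
-/

set_option autoImplicit false
set_option maxRecDepth 100000
set_option linter.unusedSectionVars false
set_option linter.style.haveILetI false

namespace Cfsg.Agent.H13.Frob

open Cfsg Cfsg.Agent.H27.Golay Cfsg.Agent.H22

variable {l : List ℕ}

theorem elt_one : elt l idCode = 1 := by
  apply Subtype.ext
  rw [elt_coe (by rw [P_idCode]; exact one_mem _)]
  exact P_idCode

theorem ShG_elt (hl : ∀ i ∈ l, i < 24) {c : ℕ} (hc : isFix l c = true) :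
    ShG l (elt l c) = shC c := by
  unfold ShG
  rw [elt_coe (P_mem_fixG hl hc), shC_eq (isFix_permOK hc)]

theorem ShG_one : ShG l 1 = shC idCode := by
  unfold ShG
  rw [shC_eq (isM24_permOK idCode_spec), P_idCode]
  rfl

/-- The hypotheses on the representatives. -/
structure RepCtx (l : List ℕ) (RR : List ℕ) (mateC V rk : ℕ → ℕ) : Prop where
  hl : ∀ i ∈ l, i < 24
  hfix : ∀ r ∈ RR, isFix l r = true
  hcover : ∀ g : GG l, ∃ r ∈ RR, IsConj g (elt l r)
  hsep : ∀ r ∈ RR, ∀ r' ∈ RR, IsConj (elt l r) (elt l r') → r = r'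
  hmate : ∀ r ∈ RR, mateC r ∈ RR ∧ mateC (mateC r) = r ∧ shC (mateC r) = shC r
  hlab : ∀ r ∈ RR, ∀ r' ∈ RR, shC r = shC r' → r' = r ∨ r' = mateC r
  hid : idCode ∈ RR
  hmid : mateC idCode = idCode
  hV : ∀ r ∈ RR, r ≠ idCode → ∀ c,
    (Odd (nC (fun x : GG l => ShG l x = c) (elt l r)) ↔ (V (shC r)).testBit c = true)
  hrk : ∀ r ∈ RR, r ≠ idCode → ∀ c, (V (shC r)).testBit c = true → rk (shC r) < rk c
  hreal : ∀ r ∈ RR, mateC r ≠ r → rk (shC r) = 0 ∨ IsConj (elt l r) (elt l r)⁻¹

section

variable {RR : List ℕ} {mateC V rk : ℕ → ℕ} (C : RepCtx l RR mateC V rk)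

include C

theorem RepCtx.hS (c : ℕ) : ∀ (x g : GG l), ShG l (x * g * x⁻¹) = c ↔ ShG l g = c := by
  intro x g
  rw [ShG_conj]

theorem RepCtx.hCo (g : GG l) : ∀ (x a : GG l), IsConj (x * a * x⁻¹) g ↔ IsConj a g := by
  intro x a
  have : IsConj (x * a * x⁻¹) a := (isConj_iff.2 ⟨x, rfl⟩).symm
  exact ⟨fun h => this.symm.trans h, fun h => this.trans h⟩

theorem RepCtx.par_eq {c : ℕ} {z : GG l} {r : ℕ} (hz : IsConj z (elt l r)) :
    nC (fun x : GG l => ShG l x = c) z = nC (fun x : GG l => ShG l x = c) (elt l r) :=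
  nC_conj' _ (C.hS c) hz

/-- The parity of the structure constants, for every element. -/
theorem RepCtx.hV' {z : GG l} (h1 : z ≠ 1) (c : ℕ) :
    Odd (nC (fun x : GG l => ShG l x = c) z) ↔ (V (ShG l z)).testBit c = true := by
  obtain ⟨r, hr, hz⟩ := C.hcover z
  have hne : r ≠ idCode := by
    rintro rfl
    rw [elt_one] at hz
    exact h1 (isConj_one_right.1 hz.symm)
  rw [C.par_eq hz, ShG_isConj hz, ShG_elt C.hl (C.hfix r hr)]
  exact C.hV r hr hne c

theorem RepCtx.fibre {x g : GG l} (h : ShG l x = ShG l g) {a b : ℕ} (ha : a ∈ RR) (hb : b ∈ RR)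
    (hx : IsConj x (elt l a)) (hg : IsConj g (elt l b)) : a = b ∨ a = mateC b := by
  have h1 : shC b = shC a := by
    rw [← ShG_elt C.hl (C.hfix a ha), ← ShG_elt C.hl (C.hfix b hb), ← ShG_isConj hx,
      ← ShG_isConj hg, h]
  exact C.hlab b hb a ha h1

theorem RepCtx.fibInv (g : GG l) (hg : ¬ IsConj g g⁻¹) (x : GG l) :
    ShG l x = ShG l g ↔ (IsConj x g ∨ IsConj x g⁻¹) := by
  constructor
  · intro h
    obtain ⟨a, ha, hx⟩ := C.hcover x
    obtain ⟨b, hb, hgb⟩ := C.hcover g
    obtain ⟨c, hc, hgi⟩ := C.hcover g⁻¹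
    have h2 : c = b ∨ c = mateC b := C.fibre (ShG_inv l g) hc hb hgi hgb
    have h3 : c = mateC b := by
      rcases h2 with rfl | h2
      · exact absurd (hgb.trans hgi.symm) hg
      · exact h2
    rcases C.fibre h ha hb hx hgb with rfl | h4
    · exact Or.inl (hx.trans hgb.symm)
    · right
      rw [h4, ← h3] at hx
      exact hx.trans hgi.symm
  · rintro (h | h)
    · exact ShG_isConj h
    · rw [ShG_isConj h, ShG_inv]

theorem RepCtx.rk0 (g : GG l) (hg : ¬ IsConj g g⁻¹) : rk (ShG l g) = 0 := by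
  obtain ⟨b, hb, hgb⟩ := C.hcover g
  have hne : mateC b ≠ b := by
    intro hm
    obtain ⟨c, hc, hgi⟩ := C.hcover g⁻¹
    rcases C.fibre (ShG_inv l g) hc hb hgi hgb with rfl | h2
    · exact hg (hgb.trans hgi.symm)
    · rw [hm] at h2
      subst h2
      exact hg (hgb.trans hgi.symm)
  rw [ShG_isConj hgb, ShG_elt C.hl (C.hfix b hb)]
  rcases C.hreal b hb hne with h | h
  · exact h
  · exfalso
    apply hg
    exact hgb.trans (h.trans (isConj_inv' hgb.symm))

theorem RepCtx.hev (g : GG l) (hg : ¬ IsConj g g⁻¹) (z : GG l) :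
    Even (nC (fun x : GG l => ShG l x = ShG l g) z) := by
  classical
  by_cases hz : z = 1
  · subst hz
    have h1 := nC_modEq (fun x : GG l => ShG l x = ShG l g) (fun x a h => (C.hS _ x a).2 h)
      (z := 1) (w := 1) (u := 1) (by simp) (Commute.one_left _) (a := 0) (by simp)
    have h2 : rootC (fun x : GG l => ShG l x = ShG l g) 1 1 = 0 := by
      unfold rootC
      rw [Finset.card_eq_zero]
      apply Finset.eq_empty_of_forall_notMem
      intro y hy
      obtain ⟨hy1, hy2⟩ := mem_filter_of.1 hy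
      rw [mul_one] at hy2
      have hyi : y⁻¹ = y := by
        rw [inv_eq_iff_mul_eq_one, ← pow_two, hy1]
      rcases (C.fibInv g hg y).1 hy2 with h3 | h3
      · have h4 := isConj_inv' h3
        rw [hyi] at h4
        exact hg (h3.symm.trans h4)
      · have h4 := isConj_inv' h3
        rw [hyi, inv_inv] at h4
        exact hg (h4.symm.trans h3)
    rw [h2] at h1
    exact Nat.even_iff.2 h1
  · by_contra hn
    rw [Nat.not_even_iff_odd, C.hV' hz] at hn
    obtain ⟨b, hb, hzb⟩ := C.hcover z
    have hbne : b ≠ idCode := by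
      rintro rfl
      rw [elt_one] at hzb
      exact hz (isConj_one_right.1 hzb.symm)
    rw [ShG_isConj hzb, ShG_elt C.hl (C.hfix b hb)] at hn
    have h1 := C.hrk b hb hbne _ hn
    rw [C.rk0 g hg] at h1
    exact Nat.not_lt_zero _ h1

/-- The pairs of mutually inverse classes. -/
theorem RepCtx.T2_inv {a b : ℕ} (h : elt l b = (elt l a)⁻¹) (g : GG l) :
    Even (nC (fun x => IsConj x g) (elt l a) + nC (fun x => IsConj x g) (elt l b)) := by
  rw [h]
  exact even_add_inv (ShG l) C.fibInv C.hev g _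

/-- An element all of whose roots lie in one class of the labels, with zero parity vector. -/
theorem RepCtx.even_of_root {r s a : ℕ} (hr : r ∈ RR) (hr1 : r ≠ idCode) (hV0 : V (shC r) = 0)
    (hpow : (elt l r) ^ 2 ^ a = 1)
    (hs : ∀ r0 ∈ RR, shC (pc r0 r0) = shC r → shC r0 = s)
    (hsingle : ∀ r0 ∈ RR, shC r0 = s → mateC r0 = r0) (g : GG l) :
    Even (nC (fun x => IsConj x g) (elt l r)) := by
  classical
  by_cases hg : ShG l g = s
  · obtain ⟨r0, hr0, hgr⟩ := C.hcover g
    have hs0 : shC r0 = s := by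
      rw [← ShG_elt C.hl (C.hfix r0 hr0), ← ShG_isConj hgr, hg]
    have hm := hsingle r0 hr0 hs0
    have he : (fun x : GG l => IsConj x g) = (fun x : GG l => ShG l x = s) := by
      funext x
      apply propext
      constructor
      · intro h
        rw [ShG_isConj h, hg]
      · intro h
        obtain ⟨a', ha', hx⟩ := C.hcover x
        have h2 : ShG l x = ShG l g := by rw [h, hg]
        rcases C.fibre h2 ha' hr0 hx hgr with rfl | h3
        · exact hx.trans hgr.symm
        · rw [h3, hm] at hx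
          exact hx.trans hgr.symm
    rw [he]
    by_contra hn
    rw [Nat.not_even_iff_odd, C.hV r hr hr1, hV0] at hn
    simp at hn
  · have h1 := nC_modEq (fun x : GG l => IsConj x g) (fun x a' h => (C.hCo g x a').2 h)
      (z := elt l r) (w := elt l r) (u := 1) (by simp) (Commute.one_right _) hpow
    have h2 : rootC (fun x : GG l => IsConj x g) (elt l r) 1 = 0 := by
      unfold rootC
      rw [Finset.card_eq_zero]
      apply Finset.eq_empty_of_forall_notMem
      intro y hy
      obtain ⟨hy1, hy2⟩ := mem_filter_of.1 hy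
      rw [mul_one] at hy2
      apply hg
      obtain ⟨r0, hr0, hyr⟩ := C.hcover y
      have hf0 := C.hfix r0 hr0
      have hok0 := isFix_permOK hf0
      have h3 : IsConj (y ^ 2) ((elt l r0) ^ 2) := by
        obtain ⟨k, hk⟩ := isConj_iff.1 hyr
        refine isConj_iff.2 ⟨k, ?_⟩
        rw [← hk, conj_pow]
      have h4 : ((elt l r0) ^ 2 : GG l) = elt l (pc r0 r0) := by
        apply Subtype.ext
        have hm0 := P_mem_fixG C.hl hf0
        have hm1 : P (pc r0 r0) ∈ fixG l := by
          rw [P_pc hok0 hok0]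
          exact mul_mem hm0 hm0
        rw [elt_coe hm1, P_pc hok0 hok0]
        push_cast
        rw [elt_coe hm0, pow_two]
      have h5 : ShG l (elt l (pc r0 r0)) = shC (pc r0 r0) := by
        unfold ShG
        have hm0 := P_mem_fixG C.hl hf0
        have hm1 : P (pc r0 r0) ∈ fixG l := by
          rw [P_pc hok0 hok0]
          exact mul_mem hm0 hm0
        rw [elt_coe hm1, shC_eq (permOK_pc hok0 hok0)]
      have h6 : shC (pc r0 r0) = shC r := by
        rw [← h5, ← h4, ← ShG_isConj h3, hy1, ShG_elt C.hl (C.hfix r hr)]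
      have h7 := hs r0 hr0 h6
      rw [← ShG_isConj hy2, ShG_isConj hyr, ShG_elt C.hl hf0, h7]
    rw [h2] at h1
    exact Nat.even_iff.2 h1

end

/-- The main result. -/
theorem sameBlock_of_reps [Fintype (IrrCharacter (GG l))] [Fintype (ConjClasses (GG l))]
    {RR : List ℕ} {mateC V rk : ℕ → ℕ} (C : RepCtx l RR mateC V rk)
    (hT2 : ∀ r ∈ RR, mateC r ≠ r → ∀ g : GG l,
      Even (nC (fun x => IsConj x g) (elt l r) + nC (fun x => IsConj x g) (elt l (mateC r))))
    (M : Ideal AlgInt) (hM : IsPModular 2 M) (χ ψ : IrrCharacter (GG l)) :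
    SameBlock M χ.1 ψ.1 := by
  classical
  have hcov := C.hcover
  choose rep hrepm hrepc using hcov
  have hrep_elt : ∀ r ∈ RR, rep (elt l r) = r := fun r hr =>
    C.hsep _ (hrepm _) r hr (hrepc _).symm
  have hrep_conj : ∀ {z z' : GG l}, IsConj z z' → rep z = rep z' := by
    intro z z' h
    exact C.hsep _ (hrepm _) _ (hrepm _) ((hrepc z).symm.trans (h.trans (hrepc z')))
  have hone' : ∀ z : GG l, ShG l z = ShG l 1 → z = 1 := by
    intro z hz
    rw [ShG_one] at hz
    have h1 := hrepc z
    have h2 : shC (rep z) = shC idCode := by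
      rw [← ShG_elt C.hl (C.hfix _ (hrepm z)), ← ShG_isConj h1, hz]
    have h3 := C.hlab _ (hrepm z) _ C.hid h2
    have h4 : rep z = idCode := by
      rcases h3 with h3 | h3
      · exact h3.symm
      · have h5 := C.hmate _ (hrepm z)
        rw [← h5.2.1, ← h3, C.hmid]
    rw [h4, elt_one] at h1
    exact isConj_one_right.1 h1.symm
  refine sameBlock_of_table (ShG l) (fun z => elt l (mateC (rep z))) rk
    (ShG_conj l) ?_ ?_ ?_ ?_ ?_ ?_ ?_ ?_ M hM χ ψ
  · -- labels of mates
    intro z
    have h := C.hmate _ (hrepm z)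
    rw [ShG_elt C.hl (C.hfix _ h.1), h.2.2, ShG_isConj (hrepc z), ShG_elt C.hl (C.hfix _ (hrepm z))]
  · -- fibres
    intro z z' h
    have h1 := C.fibre h (hrepm z) (hrepm z') (hrepc z) (hrepc z')
    rcases h1 with h1 | h1
    · left
      have h2 := hrepc z
      rw [h1] at h2
      exact h2.trans (hrepc z').symm
    · right
      have h2 := hrepc z
      rwa [h1] at h2
  · intro z z' h
    rw [hrep_conj h]
  · -- involution
    intro z
    have h := C.hmate _ (hrepm z)
    show IsConj (elt l (mateC (rep (elt l (mateC (rep z)))))) z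
    rw [hrep_elt _ h.1, h.2.1]
    exact (hrepc z).symm
  · exact hone'
  · -- constancy
    intro c z z' h
    by_cases h1 : z = 1
    · have h2 : z' = 1 := hone' z' (by rw [← h, h1])
      rw [h1, h2]
    · have h2 : z' ≠ 1 := fun h2 => h1 (hone' z (by rw [h, h2]))
      rw [← Nat.not_odd_iff_even, ← Nat.not_odd_iff_even, C.hV' h1, C.hV' h2, h]
  · -- triangular
    intro c z hz hodd
    rw [C.hV' hz] at hodd
    have h1 := hrepc z
    have hne : rep z ≠ idCode := by
      intro h
      rw [h, elt_one] at h1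
      exact hz (isConj_one_right.1 h1.symm)
    rw [ShG_isConj h1, ShG_elt C.hl (C.hfix _ (hrepm z))] at hodd ⊢
    exact C.hrk _ (hrepm z) hne c hodd
  · -- the pairs
    intro g z hnc
    have h1 := hrepc z
    have hne : mateC (rep z) ≠ rep z := by
      intro h
      apply hnc
      rw [h]
      exact h1
    have h2 := hT2 _ (hrepm z) hne g
    have h3 : nC (fun x => IsConj x g) z = nC (fun x => IsConj x g) (elt l (rep z)) :=
      nC_conj' _ (C.hCo g) h1
    rw [h3]
    exact h2

end Cfsg.Agent.H13.Frob
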