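import Cfsg.Agent.Lib.H13.FrobReps

/-!
# Certificates for the parity vectors and the class lists
-/

set_option autoImplicit false
set_option maxRecDepth 100000
set_option linter.unusedSectionVars false
set_option linter.style.haveILetI false

namespace Cfsg.Agent.H13.Frob

open Cfsg Cfsg.Agent.H27.Golay

/-- Repeated squaring. -/
def sqIter : ℕ → ℕ → ℕ
  | 0, c => c
  | a + 1, c => sqIter a (pc c c)

theorem P_sqIter : ∀ (a c : ℕ), permOK c = true →
    permOK (sqIter a c) = true ∧ P (sqIter a c) = P c ^ 2 ^ a := by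
  intro a
  induction a with
  | zero => intro c hc; exact ⟨hc, by simp [sqIter]⟩
  | succ a ih =>
    intro c hc
    obtain ⟨h1, h2⟩ := ih (pc c c) (permOK_pc hc hc)
    refine ⟨h1, ?_⟩
    show P (sqIter a (pc c c)) = _
    rw [h2, P_pc hc hc, ← pow_two, ← pow_mul, pow_succ' 2 a]

/-- The cheap part of a row. -/
def rowCheap (l : List ℕ) (rp wc uc a : ℕ) : Bool :=
  Bool.and (isFix l rp) (Bool.and (isFix l wc) (Bool.and (isFix l uc)
    (Bool.and (Nat.beq (pc wc (pc uc uc)) rp) (Bool.and (Nat.beq (pc wc uc) (pc uc wc))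
      (Nat.beq (sqIter a wc) idCode)))))

theorem nC_row {l : List ℕ} (hl : ∀ i ∈ l, i < 24) {rp wc uc a : ℕ}
    (h : rowCheap l rp wc uc a = true) {Y : List ℕ}
    (hf : Y.foldl (goodStep (tstY l wc)) 1 ≠ 0)
    (hcomp : ∀ y : Equiv.Perm GolayPt, y ∈ fixG l → y ^ 2 = P wc → ∃ e ∈ Y, y = P e) (c : ℕ) :
    Odd (nC (fun x : GG l => ShG l x = c) (elt l rp)) ↔
      (Y.foldl (rootStep uc) 0).testBit c = true := by
  have h' : isFix l rp = true ∧ isFix l wc = true ∧ isFix l uc = true ∧
      Nat.beq (pc wc (pc uc uc)) rp = true ∧ Nat.beq (pc wc uc) (pc uc wc) = true ∧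
      Nat.beq (sqIter a wc) idCode = true := by
    simpa only [rowCheap, Bool.and_eq_true] using h
  obtain ⟨h1, h2, h3, h4, h5, h6⟩ := h'
  have okw := isFix_permOK h2
  have oku := isFix_permOK h3
  have e1 : P rp = P wc * P uc ^ 2 := by
    rw [← Nat.eq_of_beq_eq_true h4, P_pc okw (permOK_pc oku oku), P_pc oku oku, pow_two]
  have e2 : P wc * P uc = P uc * P wc := by
    rw [← P_pc okw oku, ← P_pc oku okw, Nat.eq_of_beq_eq_true h5]
  have e3 : P wc ^ 2 ^ a = 1 := by
    rw [← (P_sqIter a wc okw).2, Nat.eq_of_beq_eq_true h6, P_idCode]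
  obtain ⟨hY, hnd⟩ := hY_of_fold hl hf
  exact nC_par rp wc uc a Y (P_mem_fixG hl h1) (P_mem_fixG hl h2) (P_mem_fixG hl h3) okw oku
    e1 e2 e3 hY hnd hcomp c

theorem elt_inv_of {l : List ℕ} (hl : ∀ i ∈ l, i < 24) {a b : ℕ} (ha : isFix l a = true)
    (hb : isFix l b = true) (h : pc a b = idCode) : elt l b = (elt l a)⁻¹ := by
  have oka := isFix_permOK ha
  have okb := isFix_permOK hb
  symm
  rw [inv_eq_iff_mul_eq_one]
  apply Subtype.ext
  push_cast
  rw [elt_coe (P_mem_fixG hl ha), elt_coe (P_mem_fixG hl hb), ← P_pc oka okb, h, P_idCode]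

theorem nC_row_inv {l : List ℕ} (hl : ∀ i ∈ l, i < 24) {a b : ℕ} (ha : isFix l a = true)
    (hb : isFix l b = true) (h : pc a b = idCode) (c : ℕ) :
    nC (fun x : GG l => ShG l x = c) (elt l b) = nC (fun x : GG l => ShG l x = c) (elt l a) := by
  rw [elt_inv_of hl ha hb h]
  apply nC_inv
  intro g
  rw [ShG_inv]

/-- Membership. -/
def memB (x : ℕ) : List ℕ → Bool
  | [] => false
  | y :: l => Bool.rec (memB x l) true (Nat.beq x y)

theorem memB_spec {x : ℕ} : ∀ {l : List ℕ}, memB x l = true → x ∈ l := by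
  intro l
  induction l with
  | nil => intro h; exact absurd h (by simp [memB])
  | cons y l ih =>
    intro h
    cases hb : Nat.beq x y with
    | true =>
      rw [Nat.eq_of_beq_eq_true hb]
      simp
    | false =>
      have : memB x l = true := by
        have h2 : Bool.rec (memB x l) true (Nat.beq x y) = true := h
        rw [hb] at h2
        exact h2
      exact List.mem_cons_of_mem _ (ih this)

/-- The square roots in a tree are in a list. -/
def treeSub (wc : ℕ) (T Y : List ℕ) : Bool :=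
  allL (fun e => Bool.rec true (memB e Y) (Nat.beq (pc e e) wc)) T

theorem hcomp_of_tree {l : List ℕ} {lv : List (ℕ × List ℕ × List ℕ)} (hC : ChainP l lv) {wc : ℕ}
    (hw : permOK wc = true) (hq : qv wc l lv = true) (hwlt : wc < 2 ^ 120) {Y : List ℕ}
    (h : treeSub wc (tgo wc wc lv idCode) Y = true) :
    ∀ y : Equiv.Perm GolayPt, y ∈ fixG l → y ^ 2 = P wc → ∃ e ∈ Y, y = P e := by
  intro y hy h2
  obtain ⟨e, he, hye⟩ := hcomp_tree hC hw hq hwlt y hy h2
  rw [List.mem_filter] at he
  refine ⟨e, ?_, hye⟩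
  have h3 := allL_spec h e he.1
  have h4 : Nat.beq (pc e e) wc = true := he.2
  simp only [h4] at h3
  exact memB_spec h3

/-- The solutions of `y ^ 2 = 1` are in a list, by counting. -/
theorem hcomp_of_inv {l : List ℕ} (hl : ∀ i ∈ l, i < 24) {n : ℕ} (hn : Nat.card (GG l) = n)
    (RR : List (ℕ × ℕ)) (hfix : ∀ p ∈ RR, isFix l p.1 = true)
    (hcover : ∀ g : GG l, ∃ p ∈ RR, IsConj g (elt l p.1))
    (hsize : ∀ p ∈ RR, Nat.card {x : GG l // IsConj x (elt l p.1)} = n / p.2) {Y : List ℕ}
    (hf : Y.foldl (goodStep (tstY l idCode)) 1 ≠ 0)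
    (hcard : ((RR.filter fun p => Nat.beq (pc p.1 p.1) idCode).map fun p => n / p.2).sum ≤ Y.length) :
    ∀ y : Equiv.Perm GolayPt, y ∈ fixG l → y ^ 2 = P idCode → ∃ e ∈ Y, y = P e := by
  classical
  obtain ⟨hY, hnd⟩ := hY_of_fold hl hf
  have hndY : Y.Nodup := hnd.imp (fun h => Nat.ne_of_lt h)
  let I : List (GG l × ℕ) := (RR.filter fun p => Nat.beq (pc p.1 p.1) idCode).map
    fun p => (elt l p.1, p.2)
  let L : Finset (GG l) := Y.toFinset.image (elt l)
  have hinj : Set.InjOn (elt l) (Y.toFinset : Set ℕ) := by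
    intro a ha b hb hab
    have ha' := hY a (List.mem_toFinset.1 ha)
    have hb' := hY b (List.mem_toFinset.1 hb)
    have h5 := congrArg (fun x : GG l => (x : Equiv.Perm GolayPt)) hab
    simp only [elt_coe ha'.2.1, elt_coe hb'.2.1] at h5
    exact code_inj ha'.1 hb'.1 ha'.2.2.2 hb'.2.2.2 h5
  have hLc : L.card = Y.length := by
    show (Y.toFinset.image (elt l)).card = _
    rw [Finset.card_image_of_injOn hinj, List.toFinset_card_of_nodup hndY]
  have key : ∀ y : GG l, y ^ 2 = 1 → y ∈ L := by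
    apply complete_of_card I L
    · intro y hy
      rw [Finset.mem_image] at hy
      obtain ⟨e, he, rfl⟩ := hy
      have h1 := hY e (List.mem_toFinset.1 he)
      apply Subtype.ext
      push_cast
      rw [elt_coe h1.2.1, h1.2.2.1, P_idCode]
    · intro y hy
      obtain ⟨p, hp, hyp⟩ := hcover y
      refine ⟨(elt l p.1, p.2), ?_, hyp⟩
      show _ ∈ List.map _ _
      refine List.mem_map.2 ⟨p, List.mem_filter.2 ⟨hp, ?_⟩, rfl⟩
      have hok := isFix_permOK (hfix p hp)
      have h1 : ((elt l p.1) ^ 2 : GG l) = 1 := by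
        obtain ⟨k, hk⟩ := isConj_iff.1 hyp
        rw [← hk, conj_pow, hy]
        simp
      have h2 : P (pc p.1 p.1) = P idCode := by
        have h3 := congrArg (fun x : GG l => (x : Equiv.Perm GolayPt)) h1
        simp only [Subgroup.coe_pow, elt_coe (P_mem_fixG hl (hfix p hp)), Subgroup.coe_one] at h3
        rw [P_pc hok hok, P_idCode, ← pow_two, h3]
      have h4 := code_inj (permOK_pc hok hok) (isM24_permOK idCode_spec) (pc_lt _ _)
        (by decide +kernel) h2
      rw [h4]
      simp
    · intro p hp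
      obtain ⟨q, hq, rfl⟩ := List.mem_map.1 hp
      rw [hn]
      exact hsize q (List.mem_of_mem_filter hq)
    · rw [hLc, hn]
      refine le_trans (le_of_eq ?_) hcard
      show (List.map _ (List.map _ _)).sum = _
      rw [List.map_map]
      rfl
  intro y hy h2
  have h3 := key ⟨y, hy⟩ (by
    apply Subtype.ext
    push_cast
    rw [h2, P_idCode])
  rw [Finset.mem_image] at h3
  obtain ⟨e, he, hey⟩ := h3
  refine ⟨e, List.mem_toFinset.1 he, ?_⟩
  have h4 := congrArg (fun x : GG l => (x : Equiv.Perm GolayPt)) hey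
  simp only [elt_coe (hY e (List.mem_toFinset.1 he)).2.1] at h4
  exact h4.symm

/-! ### Ranks from two masks -/

/-- The rank of a label from two nested masks. -/
def rkL (A B s : ℕ) : ℕ := (A.testBit s).toNat + (B.testBit s).toNat

/-- The mask of labels above a rank. -/
def rkMask (A B : ℕ) : ℕ → ℕ
  | 0 => A
  | 1 => B
  | _ => 0

/-- The vector `v` has only labels of rank above that of `s`. -/
def rkOK (A B v s : ℕ) : Bool := Nat.beq (Nat.land v (rkMask A B (rkL A B s))) v

theorem rkOK_spec {A B v s : ℕ} (hAB : Nat.land B A = B) (h : rkOK A B v s = true) (c : ℕ)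
    (hc : v.testBit c = true) : rkL A B s < rkL A B c := by
  have h1 : (v &&& rkMask A B (rkL A B s)) = v := Nat.eq_of_beq_eq_true h
  have h2 : (rkMask A B (rkL A B s)).testBit c = true := by
    have h3 := congrArg (fun x => x.testBit c) h1
    simp only [Nat.testBit_and, hc, Bool.true_and] at h3
    exact h3
  have hBA : ∀ c, B.testBit c = true → A.testBit c = true := by
    intro c hb
    have h3 : (B &&& A) = B := hAB
    have h4 := congrArg (fun x => x.testBit c) h3
    simp only [Nat.testBit_and, hb, Bool.true_and] at h4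
    exact h4
  unfold rkL at h2 ⊢
  cases hA : A.testBit s <;> cases hB : B.testBit s <;>
    simp only [hA, hB, Bool.toNat_true, Bool.toNat_false] at h2 ⊢
  · have h5 : A.testBit c = true := h2
    rw [h5]
    simp
  · have h5 : B.testBit c = true := h2
    rw [h5, hBA c h5]
    simp
  · have h5 : B.testBit c = true := h2
    rw [h5, hBA c h5]
    simp
  · have h5 : (0 : ℕ).testBit c = true := h2
    simp at h5

/-! ### Witnesses -/

theorem isConj_inv_of_wit {l : List ℕ} (hl : ∀ i ∈ l, i < 24) {r x : ℕ} (hr : isFix l r = true)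
    (hx : isFix l x = true) (h : pc r (pc x r) = x) : IsConj (elt l r) (elt l r)⁻¹ := by
  have okr := isFix_permOK hr
  have okx := isFix_permOK hx
  have h1 : (elt l r) * ((elt l x) * (elt l r)) = elt l x := by
    apply Subtype.ext
    push_cast
    rw [elt_coe (P_mem_fixG hl hr), elt_coe (P_mem_fixG hl hx), ← P_pc okx okr, ← P_pc okr (permOK_pc okx okr), h]
  refine isConj_iff.2 ⟨elt l x, ?_⟩
  calc elt l x * elt l r * (elt l x)⁻¹
      = (elt l r)⁻¹ * ((elt l r) * ((elt l x) * (elt l r))) * (elt l x)⁻¹ := by group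
    _ = (elt l r)⁻¹ := by rw [h1]; group

theorem elt_pow_of_sqIter {l : List ℕ} (hl : ∀ i ∈ l, i < 24) {r : ℕ} (hr : isFix l r = true) {a : ℕ}
    (h : sqIter a r = idCode) : (elt l r) ^ 2 ^ a = 1 := by
  have okr := isFix_permOK hr
  apply Subtype.ext
  push_cast
  rw [elt_coe (P_mem_fixG hl hr), ← (P_sqIter a r okr).2, h, P_idCode]

/-! ### The list of classes from trees -/

/-- A level list. -/
abbrev Lv : Type := List (ℕ × List ℕ × List ℕ)

/-- Pairwise test. -/
def pwB {α : Type} (f : α → α → Bool) : List α → Bool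
  | [] => true
  | a :: l => Bool.and (l.all (f a)) (pwB f l)

theorem pwB_spec {α : Type} {f : α → α → Bool} : ∀ {l : List α}, pwB f l = true →
    l.Pairwise (fun a b => f a b = true) := by
  intro l
  induction l with
  | nil => intro _; exact List.Pairwise.nil
  | cons a l ih =>
    intro h
    have h' : (l.all (f a)) = true ∧ pwB f l = true := by
      simpa only [pwB, Bool.and_eq_true] using h
    rw [List.pairwise_cons]
    exact ⟨fun b hb => List.all_eq_true.1 h'.1 b hb, ih h'.2⟩

/-- Separation of two representatives. -/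
def sepE (a b : ℕ × ℕ × Lv) : Bool :=
  Bool.rec true (tgo a.1 b.1 a.2.2 idCode).isEmpty (Nat.beq (shC a.1) (shC b.1))

theorem cover_of_trees {l : List ℕ} (hl : ∀ i ∈ l, i < 24) {n : ℕ} (hn : Nat.card (GG l) = n)
    (R : List (ℕ × ℕ × Lv))
    (hC : ∀ p ∈ R, ChainP l p.2.2)
    (hfix : ∀ p ∈ R, isFix l p.1 = true)
    (hq : ∀ p ∈ R, qv p.1 l p.2.2 = true)
    (hlen : ∀ p ∈ R, (tgo p.1 p.1 p.2.2 idCode).length = p.2.1)
    (hsep : pwB sepE R = true)
    (hlab : ∀ p ∈ R, Nat.beq (shC p.1) (shC idCode) = false)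
    (hsum : n ≤ (((idCode, n) :: R.map fun p => (p.1, p.2.1)).map fun p => n / p.2).sum) :
    (∀ g : GG l, ∃ p ∈ (idCode, n) :: R.map (fun p => (p.1, p.2.1)), IsConj g (elt l p.1)) ∧
    (∀ p ∈ (idCode, n) :: R.map (fun p => (p.1, p.2.1)),
      Nat.card {x : GG l // IsConj x (elt l p.1)} = n / p.2) ∧
    (∀ p ∈ (idCode, n) :: R.map (fun p => (p.1, p.2.1)),
      ∀ p' ∈ (idCode, n) :: R.map (fun p => (p.1, p.2.1)),
      IsConj (elt l p.1) (elt l p'.1) → p.1 = p'.1) := by
  set RR := (idCode, n) :: R.map (fun p => (p.1, p.2.1)) with hRR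
  have hidf : isFix l idCode = true := by
    rw [isFix, Bool.and_eq_true]
    refine ⟨idCode_spec, allL_of ?_⟩
    intro x hx
    rw [pa_idCode' (hl x hx)]
    simp
  have hcent : ∀ p ∈ RR, Nat.card (Subgroup.centralizer ({elt l p.1} : Set (GG l))) ≤ p.2 := by
    intro p hp
    rcases List.mem_cons.1 hp with rfl | hp
    · show _ ≤ n
      rw [← hn]
      exact Subgroup.card_le_card_group _
    · obtain ⟨q, hq', rfl⟩ := List.mem_map.1 hp
      have h1 := card_centralizer_le (hC q hq') (isFix_permOK (hfix q hq'))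
        (P_mem_fixG hl (hfix q hq')) (hq q hq')
      rw [hlen q hq'] at h1
      exact h1
  have hne : ∀ a ∈ R, ∀ b ∈ R, sepE a b = true → ¬ IsConj (elt l a.1) (elt l b.1) := by
    intro a ha b hb h hc
    have fa := hfix a ha
    have fb := hfix b hb
    have h1 := ShG_isConj hc
    rw [ShG_elt hl fa, ShG_elt hl fb] at h1
    have h2 : Nat.beq (shC a.1) (shC b.1) = true := by rw [h1]; simp
    have h3 : (tgo a.1 b.1 a.2.2 idCode).isEmpty = true := by
      have h4 : Bool.rec true (tgo a.1 b.1 a.2.2 idCode).isEmpty (Nat.beq (shC a.1) (shC b.1)) = true := h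
      rw [h2] at h4
      exact h4
    exact not_isConj_of_tgo (hC a ha) (isFix_permOK fa) (isFix_permOK fb) (P_mem_fixG hl fa)
      (P_mem_fixG hl fb) (hq a ha) (List.isEmpty_iff.1 h3) hc
  have hnd : RR.Pairwise (fun a b => ¬ IsConj (elt l a.1) (elt l b.1)) := by
    rw [hRR, List.pairwise_cons]
    constructor
    · intro b hb hc
      obtain ⟨q, hq', rfl⟩ := List.mem_map.1 hb
      have h1 := ShG_isConj hc
      rw [ShG_elt hl hidf, ShG_elt hl (hfix q hq')] at h1
      have h2 := hlab q hq'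
      rw [← h1] at h2
      simp at h2
    · rw [List.pairwise_map]
      exact (pwB_spec hsep).imp_of_mem (fun ha hb h => hne _ ha _ hb h)
  have hmain := cover_classes (G := GG l) (RR.map fun p => (elt l p.1, p.2))
    (by
      rw [List.pairwise_map]
      exact hnd)
    (by
      intro p hp
      obtain ⟨q, hq', rfl⟩ := List.mem_map.1 hp
      exact hcent q hq')
    (by
      rw [hn, List.map_map]
      exact hsum)
  refine ⟨?_, ?_, ?_⟩
  · intro g
    obtain ⟨p, hp, hg⟩ := hmain.1 g
    obtain ⟨q, hq', rfl⟩ := List.mem_map.1 hp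
    exact ⟨q, hq', hg⟩
  · intro p hp
    have h1 := hmain.2 (elt l p.1, p.2) (List.mem_map.2 ⟨p, hp, rfl⟩)
    rw [hn] at h1
    exact h1
  · have hs : ∀ L : List (ℕ × ℕ), L.Pairwise (fun a b => ¬ IsConj (elt l a.1) (elt l b.1)) →
        ∀ p ∈ L, ∀ p' ∈ L, IsConj (elt l p.1) (elt l p'.1) → p.1 = p'.1 := by
      intro L
      induction L with
      | nil => intro _ p hp; simp at hp
      | cons a L ih =>
        intro h p hp p' hp' hc
        rw [List.pairwise_cons] at h
        rcases List.mem_cons.1 hp with h1 | h1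
        · rcases List.mem_cons.1 hp' with h2 | h2
          · rw [h1, h2]
          · rw [h1] at hc
            exact absurd hc (h.1 _ h2)
        · rcases List.mem_cons.1 hp' with h2 | h2
          · rw [h2] at hc
            exact absurd hc.symm (h.1 _ h1)
          · exact ih h.2 p h1 p' h2 hc
    exact hs RR hnd

end Cfsg.Agent.H13.Frob
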