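import Cfsg.Agent.Lib.H13.FrobRows

/-!
# Certificates for the parity vectors: one-pass tree checks, general rows, forced scans
-/

set_option autoImplicit false
set_option maxRecDepth 100000
set_option linter.unusedSectionVars false
set_option linter.style.haveILetI false

namespace Cfsg.Agent.H13.Frob

open Cfsg Cfsg.Agent.H27.Golay

/-- Fold over a chunk (the test on `a` forces its evaluation in the kernel). -/
def scanF (f : ℕ → ℕ → ℕ) : ℕ → ℕ → ℕ → ℕ
  | 0, _, a => a
  | n + 1, b, a => Bool.rec (scanF f n (Nat.shiftRight b 120) (f a (Nat.land b mask120)))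
      (scanF f n (Nat.shiftRight b 120) (f a (Nat.land b mask120))) (Nat.beq a 0)

/-- Fold over chunks. -/
def scanFL (f : ℕ → ℕ → ℕ) (k : ℕ) : List ℕ → ℕ → ℕ
  | [], a => a
  | b :: l, a => scanFL f k l (scanF f k b a)

theorem scanF_eq (f : ℕ → ℕ → ℕ) : ∀ (n b a : ℕ), scanF f n b a = (decC n b).foldl f a := by
  intro n
  induction n with
  | zero => intro b a; rfl
  | succ n ih =>
    intro b a
    have h0 : scanF f (n + 1) b a = scanF f n (Nat.shiftRight b 120) (f a (Nat.land b mask120)) := by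
      have h1 : scanF f (n + 1) b a = Bool.rec (scanF f n (Nat.shiftRight b 120) (f a (Nat.land b mask120)))
          (scanF f n (Nat.shiftRight b 120) (f a (Nat.land b mask120))) (Nat.beq a 0) := rfl
      rw [h1]
      cases Nat.beq a 0 <;> rfl
    rw [h0, ih]
    rfl

theorem scanFL_eq (f : ℕ → ℕ → ℕ) (k : ℕ) : ∀ (l : List ℕ) (a : ℕ),
    scanFL f k l a = (flat k l).foldl f a := by
  intro l
  induction l with
  | nil => intro a; rfl
  | cons b l ih =>
    intro a
    show scanFL f k l (scanF f k b a) = _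
    rw [ih, scanF_eq]
    unfold flat
    rw [List.flatMap_cons, List.foldl_append]

theorem scanFL_append (f : ℕ → ℕ → ℕ) (k : ℕ) (l l' : List ℕ) (a : ℕ) :
    scanFL f k (l ++ l') a = scanFL f k l' (scanFL f k l a) := by
  rw [scanFL_eq, scanFL_eq, scanFL_eq, flat_append, List.foldl_append]

/-! ### Tree checks with one pass -/

/-- Count a list and check its square roots of `wc` against `Y`. -/
def treeChk (wc : ℕ) (Y : List ℕ) : List ℕ → ℕ → ℕ
  | [], n => n
  | e :: l, n =>
      Bool.rec 0 (treeChk wc Y l (Nat.succ n))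
        (Bool.and (Nat.ble 0 n) (Bool.rec true (memB e Y) (Nat.beq (pc e e) wc)))

theorem treeChk_spec {wc : ℕ} {Y : List ℕ} : ∀ (T : List ℕ) (n N : ℕ), N ≠ 0 →
    treeChk wc Y T n = N → T.length + n = N ∧ treeSub wc T Y = true := by
  intro T
  induction T with
  | nil =>
    intro n N _ h
    exact ⟨by simpa [treeChk] using h, rfl⟩
  | cons e l ih =>
    intro n N hN h
    have h0 : treeChk wc Y (e :: l) n = Bool.rec 0 (treeChk wc Y l (Nat.succ n))
        (Bool.and (Nat.ble 0 n) (Bool.rec true (memB e Y) (Nat.beq (pc e e) wc))) := rfl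
    rw [h0] at h
    cases hc : Bool.and (Nat.ble 0 n) (Bool.rec true (memB e Y) (Nat.beq (pc e e) wc)) with
    | false =>
      rw [hc] at h
      exact absurd h.symm hN
    | true =>
      rw [hc] at h
      obtain ⟨h1, h2⟩ := ih _ N hN h
      refine ⟨by simp only [List.length_cons]; simp only [Nat.succ_eq_add_one] at h1; omega, ?_⟩
      have h3 : (Bool.rec true (memB e Y) (Nat.beq (pc e e) wc) : Bool) = true := by
        simp only [Bool.and_eq_true] at hc
        exact hc.2
      show Bool.rec false (allL _ l) (Bool.rec true (memB e Y) (Nat.beq (pc e e) wc)) = true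
      rw [h3]
      exact h2

/-! ### Rows for a general group -/

/-- Lookup. -/
def lookT (d : ℕ) : List (ℕ × ℕ) → ℕ → ℕ
  | [], _ => d
  | a :: t, s => Bool.rec (lookT d t s) a.2 (Nat.beq s a.1)

section Rows

variable {l : List ℕ} (hl : ∀ i ∈ l, i < 24) (V : ℕ → ℕ) (c : ℕ)

/-- The statement for a row. -/
abbrev RowG (l : List ℕ) (V : ℕ → ℕ) (c r : ℕ) : Prop :=
  Odd (nC (fun x : GG l => ShG l x = c) (elt l r)) ↔ (V (shC r)).testBit c = true

include hl

theorem rowG_of {rp wc uc a : ℕ} (h : rowCheap l rp wc uc a = true) {Y : List ℕ}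
    (hf : Y.foldl (goodStep (tstY l wc)) 1 ≠ 0)
    (hcomp : ∀ y : Equiv.Perm GolayPt, y ∈ fixG l → y ^ 2 = P wc → ∃ e ∈ Y, y = P e)
    (hv : Y.foldl (rootStep uc) 0 = V (shC rp)) : RowG l V c rp := by
  have := nC_row hl h hf hcomp c
  rwa [hv] at this

theorem rowG_tree {rp wc uc a : ℕ} (h : rowCheap l rp wc uc a = true) {Y : List ℕ}
    {lv : List (ℕ × List ℕ × List ℕ)} (hC : ChainP l lv) (hq : qv wc l lv = true)
    (hlt : Nat.blt wc 1329227995784915872903807060280344576 = true)
    (hf : Y.foldl (goodStep (tstY l wc)) 1 ≠ 0)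
    (hsub : treeSub wc (tgo wc wc lv idCode) Y = true)
    (hv : Y.foldl (rootStep uc) 0 = V (shC rp)) : RowG l V c rp := by
  refine rowG_of hl V c h hf ?_ hv
  have h' : isFix l rp = true ∧ isFix l wc = true ∧ isFix l uc = true ∧
      Nat.beq (pc wc (pc uc uc)) rp = true ∧ Nat.beq (pc wc uc) (pc uc wc) = true ∧
      Nat.beq (sqIter a wc) idCode = true := by
    simpa only [rowCheap, Bool.and_eq_true] using h
  have hlt' : wc + 1 ≤ 1329227995784915872903807060280344576 := Nat.le_of_ble_eq_true hlt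
  have h9 : (2 : ℕ) ^ 120 = 1329227995784915872903807060280344576 := by norm_num
  exact hcomp_of_tree hC (isFix_permOK h'.2.1) hq (by omega) hsub

theorem rowG_inv {a b : ℕ} (ha : isFix l a = true) (hb : isFix l b = true)
    (h : pc a b = idCode) (hs : shC a = shC b) (hr : RowG l V c a) : RowG l V c b := by
  unfold RowG at hr ⊢
  rw [nC_row_inv hl ha hb h, ← hs]
  exact hr

theorem rowG_conj {x r r' : ℕ} (hx : isFix l x = true) (hr : isFix l r = true)
    (hr' : isFix l r' = true) (h : pc x r = pc r' x) (hs : shC r = shC r') (hR : RowG l V c r') :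
    RowG l V c r := by
  unfold RowG at hR ⊢
  have okx := isFix_permOK hx
  have okr := isFix_permOK hr
  have okr' := isFix_permOK hr'
  have hc : IsConj (elt l r) (elt l r') := by
    refine isConj_iff.2 ⟨elt l x, ?_⟩
    rw [mul_inv_eq_iff_eq_mul]
    apply Subtype.ext
    push_cast
    rw [elt_coe (P_mem_fixG hl hx), elt_coe (P_mem_fixG hl hr), elt_coe (P_mem_fixG hl hr'),
      ← P_pc okx okr, ← P_pc okr' okx, h]
  rw [nC_conj' _ (fun x g => by rw [ShG_conj]) hc, hs]
  exact hR

end Rows

/-! ### Assembling the context -/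

/-- The main list of checks on the representatives. -/
def repsOK (RC : List ℕ) (mateC V : ℕ → ℕ) (A B : ℕ) : Bool :=
  Bool.and (RC.all fun r => Bool.and (memB (mateC r) RC) (Bool.and (Nat.beq (mateC (mateC r)) r)
    (Nat.beq (shC (mateC r)) (shC r))))
  (Bool.and (RC.all fun r => RC.all fun r' => Bool.rec true (Bool.or (Nat.beq r' r) (Nat.beq r' (mateC r)))
    (Nat.beq (shC r) (shC r')))
  (Bool.and (RC.all fun r => Bool.rec (rkOK A B (V (shC r)) (shC r)) true (Nat.beq r idCode))
  (Bool.and (memB idCode RC) (Nat.beq (mateC idCode) idCode))))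

theorem ctx_of_checks {l : List ℕ} (hl : ∀ i ∈ l, i < 24) {RC : List ℕ} {mateC V : ℕ → ℕ} {A B : ℕ}
    (hfix : ∀ r ∈ RC, isFix l r = true)
    (hcover : ∀ g : GG l, ∃ r ∈ RC, IsConj g (elt l r))
    (hsep : ∀ r ∈ RC, ∀ r' ∈ RC, IsConj (elt l r) (elt l r') → r = r')
    (hAB : Nat.land B A = B)
    (hok : repsOK RC mateC V A B = true)
    (hV : ∀ r ∈ RC, r ≠ idCode → ∀ c,
      (Odd (nC (fun x : GG l => ShG l x = c) (elt l r)) ↔ (V (shC r)).testBit c = true))
    (hreal : ∀ r ∈ RC, mateC r ≠ r → rkL A B (shC r) = 0 ∨ IsConj (elt l r) (elt l r)⁻¹) :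
    RepCtx l RC mateC V (rkL A B) := by
  have hok' := hok
  simp only [repsOK, Bool.and_eq_true] at hok'
  obtain ⟨h1, h2, h3, h4, h5⟩ := hok'
  refine ⟨hl, hfix, hcover, hsep, ?_, ?_, memB_spec h4, Nat.eq_of_beq_eq_true h5, hV, ?_, hreal⟩
  · intro r hr
    have h6 := List.all_eq_true.1 h1 r hr
    simp only [Bool.and_eq_true] at h6
    exact ⟨memB_spec h6.1, Nat.eq_of_beq_eq_true h6.2.1, Nat.eq_of_beq_eq_true h6.2.2⟩
  · intro r hr r' hr' hs
    have h6 := List.all_eq_true.1 (List.all_eq_true.1 h2 r hr) r' hr'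
    rw [hs] at h6
    simp only [Nat.beq_refl] at h6
    simp only [Bool.or_eq_true] at h6
    rcases h6 with h7 | h7
    · exact Or.inl (Nat.eq_of_beq_eq_true h7)
    · exact Or.inr (Nat.eq_of_beq_eq_true h7)
  · intro r hr hne c hc
    have h6 := List.all_eq_true.1 h3 r hr
    have h7 : Nat.beq r idCode = false := by
      cases h8 : Nat.beq r idCode with
      | false => rfl
      | true => exact absurd (Nat.eq_of_beq_eq_true h8) hne
    rw [h7] at h6
    exact rkOK_spec hAB h6 c hc

end Cfsg.Agent.H13.Frob
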