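import Cfsg.Agent.Lib.H13.FrobCode

/-!
# Searching the stabiliser chain of `M24` for the elements intertwining two codes

`tgo r r' lv e` is the list of all products `e * a₁ * ... * aₙ` over the transversals of the chain,
pruned by tests.  Every element `x` of the group with `x * P r = P r' * x` is among them.
-/

set_option autoImplicit false
set_option maxRecDepth 100000
set_option linter.unusedSectionVars false

namespace Cfsg.Agent.H13.Frob

open Cfsg Cfsg.Agent.H27.Golay

theorem allL_of {f : ℕ → Bool} {l : List ℕ} (h : ∀ x ∈ l, f x = true) : allL f l = true := by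
  induction l with
  | nil => rfl
  | cons y l ih =>
    show Bool.rec false (allL f l) (f y) = true
    rw [h y (by simp)]
    exact ih (fun x hx => h x (by simp [hx]))

/-- The test on a level for the candidate `e * a`. -/
def testQ (r r' e a : ℕ) (Q : List ℕ) : Bool :=
  allL (fun x => Nat.beq (pa e (pa a (pa r x))) (pa r' (pa e (pa a x)))) Q

/-- The search tree.  A level is a base point, a transversal and the test points. -/
def tgo (r r' : ℕ) : List (ℕ × List ℕ × List ℕ) → ℕ → List ℕ
  | [], e => [e]
  | (_, T, Q) :: rest, e =>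
      T.flatMap fun a => Bool.rec [] (tgo r r' rest (pc e a)) (testQ r r' e a Q)

/-- The stabiliser chain. -/
def ChainP : List ℕ → List (ℕ × List ℕ × List ℕ) → Prop
  | l, [] => fixG l = ⊥
  | l, (b, T, _) :: rest => (∃ m, Level l b m T) ∧ ChainP (b :: l) rest

/-- Validity of the test points. -/
def qv (r : ℕ) : List ℕ → List (ℕ × List ℕ × List ℕ) → Bool
  | _, [] => true
  | l, (b, _, Q) :: rest =>
      (rest.isEmpty || allL (fun q => decide (q ∈ b :: l) && decide (pa r q ∈ b :: l)) Q) &&
        allL (fun q => Nat.blt q 24) Q && qv r (b :: l) rest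

theorem pt_inj {a b : ℕ} (ha : a < 24) (hb : b < 24) (h : pt a = pt b) : a = b := by
  have := congrArg idx h
  rwa [idx_pt' ha, idx_pt' hb] at this

theorem tgo_complete {r r' : ℕ} (hr : permOK r = true) (hr' : permOK r' = true)
    {x : Equiv.Perm GolayPt} (hx : x * P r = P r' * x) :
    ∀ (lv : List (ℕ × List ℕ × List ℕ)) (l : List ℕ) (e : ℕ) (g : Equiv.Perm GolayPt),
      ChainP l lv → qv r l lv = true → permOK e = true → g ∈ fixG l → x = P e * g →
      ∃ e' ∈ tgo r r' lv e, permOK e' = true ∧ x = P e' := by
  intro lv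
  induction lv with
  | nil =>
    intro l e g hC _ he hg hxe
    have hg1 : g = 1 := by
      have h : g ∈ fixG l := hg
      have hC' : fixG l = ⊥ := hC
      rw [hC'] at h
      exact h
    exact ⟨e, by simp [tgo], he, by rw [hxe, hg1, mul_one]⟩
  | cons L rest ih =>
    obtain ⟨b, T, Q⟩ := L
    intro l e g hC hq he hg hxe
    obtain ⟨⟨m, hL⟩, hC'⟩ := hC
    have hq' : ((rest.isEmpty || allL (fun q => decide (q ∈ b :: l) && decide (pa r q ∈ b :: l)) Q) &&
        allL (fun q => Nat.blt q 24) Q && qv r (b :: l) rest) = true := hq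
    simp only [Bool.and_eq_true] at hq'
    obtain ⟨⟨hq1, hq2⟩, hq3⟩ := hq'
    obtain ⟨a, ha, hfa, g', hg', e1⟩ := hL.exists_mul hg
    have hoa := isM24_permOK (isFix_isM24 hfa)
    have hnew : x = P (pc e a) * g' := by
      rw [hxe, e1, P_pc he hoa, mul_assoc]
    have hok := permOK_pc he hoa
    -- the value of `x` on the test points
    have hval : ∀ q, q < 24 → g' (pt q) = pt q → x (pt q) = pt (pa e (pa a q)) := by
      intro q hq0 hgq
      rw [hnew, Equiv.Perm.mul_apply, hgq, P_pc he hoa, Equiv.Perm.mul_apply, P_pt hoa hq0,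
        P_pt he (pa_lt hoa hq0)]
    have hfixQ : ∀ q ∈ Q, g' (pt q) = pt q ∧ g' (pt (pa r q)) = pt (pa r q) := by
      intro q hqQ
      rw [Bool.or_eq_true] at hq1
      rcases hq1 with h0 | h0
      · have hrest : rest = [] := by
          cases rest with
          | nil => rfl
          | cons _ _ => simp at h0
        subst hrest
        have h1 : fixG (b :: l) = ⊥ := hC'
        have h2 : g' = 1 := by
          have h := hg'
          rw [h1] at h
          exact h
        rw [h2]
        simp
      · have h1 := allL_spec h0 q hqQ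
        simp only [Bool.and_eq_true, decide_eq_true_eq] at h1
        exact ⟨hg'.2 q h1.1, hg'.2 _ h1.2⟩
    have htest : testQ r r' e a Q = true := by
      unfold testQ
      apply allL_of
      intro q hqQ
      have hq24 : q < 24 := by
        have := allL_spec hq2 q hqQ
        exact Nat.le_of_ble_eq_true this
      obtain ⟨h1, h2⟩ := hfixQ q hqQ
      have hrq : pa r q < 24 := pa_lt hr hq24
      have h3 := hval q hq24 h1
      have h4 := hval _ hrq h2
      have h5 := congrArg (fun f => f (pt q)) hx
      simp only [Equiv.Perm.mul_apply] at h5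
      rw [P_pt hr hq24, h4, h3, P_pt hr' (pa_lt he (pa_lt hoa hq24))] at h5
      have h6 := pt_inj (pa_lt he (pa_lt hoa hrq)) (pa_lt hr' (pa_lt he (pa_lt hoa hq24))) h5
      rw [h6]
      simp
    obtain ⟨e', he', h7, h8⟩ := ih (b :: l) (pc e a) g' hC' hq3 hok hg' hnew
    refine ⟨e', ?_, h7, h8⟩
    show e' ∈ T.flatMap fun a => Bool.rec [] (tgo r r' rest (pc e a)) (testQ r r' e a Q)
    rw [List.mem_flatMap]
    refine ⟨a, ha, ?_⟩
    rw [htest]
    exact he'

/-! ### Canonical codes -/

theorem enc_pa {e : ℕ} (h : e < 2 ^ 120) : enc (pa e) 24 = e := by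
  apply Nat.eq_of_testBit_eq
  intro b
  by_cases hb : 5 * 24 ≤ b
  · rw [testBit_enc_high _ (fun i => pa_lt_32 e i) 24 b hb]
    symm
    exact Nat.testBit_lt_two_pow (lt_of_lt_of_le h (Nat.pow_le_pow_right (by norm_num) (by omega)))
  · have hk : b / 5 < 24 := by omega
    have hj : b % 5 < 5 := Nat.mod_lt _ (by norm_num)
    have hbe : b = 5 * (b / 5) + b % 5 := (Nat.div_add_mod b 5).symm
    generalize b / 5 = k at hk hbe
    generalize b % 5 = j at hj hbe
    subst hbe
    rw [testBit_enc _ (fun i => pa_lt_32 e i) 24 k j hk hj, testBit_pa]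
    simp [hj]

theorem enc_congr {f g : ℕ → ℕ} : ∀ n, (∀ i < n, f i = g i) → enc f n = enc g n := by
  intro n
  induction n with
  | zero => intro _; rfl
  | succ n ih =>
    intro h
    rw [enc_succ, enc_succ, h n (by omega), ih (fun i hi => h i (by omega))]

theorem code_inj {a b : ℕ} (ha : permOK a = true) (hb : permOK b = true) (ha' : a < 2 ^ 120)
    (hb' : b < 2 ^ 120) (h : P a = P b) : a = b := by
  have hs := sameCode_of_P_eq ha hb h
  rw [← enc_pa ha', ← enc_pa hb']
  exact enc_congr 24 (fun i hi => sameCode_spec hs hi)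

theorem pc_lt (a b : ℕ) : pc a b < 2 ^ 120 := by
  apply Nat.lt_pow_two_of_testBit
  intro i hi
  rw [pc_eq]
  have : pcomp a b = enc (fun i => pa a (pa b i)) 24 := rfl
  rw [this]
  exact testBit_enc_high _ (fun j => pa_lt_32 _ _) 24 i (by omega)

theorem P_pc_eq {a b c : ℕ} (ha : permOK a = true) (hb : permOK b = true) (hc : permOK c = true)
    (hc' : c < 2 ^ 120) : P a * P b = P c ↔ pc a b = c := by
  rw [← P_pc ha hb]
  constructor
  · intro h
    exact code_inj (permOK_pc ha hb) hc (pc_lt a b) hc' h
  · intro h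
    rw [h]

/-! ### Folds -/

/-- The checking step: increasing and `tst`. -/
def goodStep (tst : ℕ → Bool) (acc e : ℕ) : ℕ :=
  Bool.rec 0 (Nat.succ e) (Bool.and (Nat.blt 0 acc) (Bool.and (Nat.ble acc e) (tst e)))

theorem goodFold (tst : ℕ → Bool) : ∀ (l : List ℕ) (a : ℕ), l.foldl (goodStep tst) a ≠ 0 →
    a ≠ 0 ∧ (∀ e ∈ l, tst e = true ∧ a ≤ e) ∧ l.Pairwise (· < ·) := by
  have h0 : ∀ l : List ℕ, l.foldl (goodStep tst) 0 = 0 := by
    intro l
    induction l with
    | nil => rfl
    | cons y l ih =>
      show l.foldl (goodStep tst) (goodStep tst 0 y) = 0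
      have : goodStep tst 0 y = 0 := rfl
      rw [this, ih]
  intro l
  induction l with
  | nil =>
    intro a h
    exact ⟨h, by simp, by simp⟩
  | cons y l ih =>
    intro a h
    have h1 : l.foldl (goodStep tst) (goodStep tst a y) ≠ 0 := h
    obtain ⟨h2, h3, h4⟩ := ih _ h1
    have hcond : Bool.and (Nat.blt 0 a) (Bool.and (Nat.ble a y) (tst y)) = true := by
      cases hc : Bool.and (Nat.blt 0 a) (Bool.and (Nat.ble a y) (tst y)) with
      | true => rfl
      | false =>
        exfalso
        apply h2
        unfold goodStep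
        rw [hc]
    simp only [Bool.and_eq_true] at hcond
    obtain ⟨h5, h6, h7⟩ := hcond
    have h8 : goodStep tst a y = y + 1 := by
      unfold goodStep
      have : Bool.and (Nat.blt 0 a) (Bool.and (Nat.ble a y) (tst y)) = true := by
        simp only [Bool.and_eq_true]
        exact ⟨h5, h6, h7⟩
      rw [this]
    rw [h8] at h3
    have hay : a ≤ y := Nat.le_of_ble_eq_true h6
    have ha0 : a ≠ 0 := by
      have : 0 + 1 ≤ a := Nat.le_of_ble_eq_true h5
      omega
    refine ⟨ha0, ?_, ?_⟩
    · intro e he
      rcases List.mem_cons.1 he with rfl | he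
      · exact ⟨h7, hay⟩
      · exact ⟨(h3 e he).1, by have := (h3 e he).2; omega⟩
    · rw [List.pairwise_cons]
      exact ⟨fun e he => by have := (h3 e he).2; omega, h4⟩

/-- The step of the parity vector. -/
def rootStep (uc acc e : ℕ) : ℕ := Nat.xor acc (Nat.shiftLeft 1 (shC (pc e uc)))

theorem rootFold (uc c : ℕ) : ∀ (l : List ℕ) (a : ℕ), (l.foldl (rootStep uc) a).testBit c =
    (a.testBit c ^^ decide (Odd (l.filter fun e => Nat.beq (shC (pc e uc)) c).length)) := by
  intro l
  induction l with
  | nil => intro a; simp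
  | cons y l ih =>
    intro a
    show (l.foldl (rootStep uc) (rootStep uc a y)).testBit c = _
    rw [ih]
    have h1 : (rootStep uc a y).testBit c = (a.testBit c ^^ decide (shC (pc y uc) = c)) := by
      show ((a ^^^ (1 <<< shC (pc y uc)))).testBit c = _
      rw [Nat.testBit_xor, Nat.one_shiftLeft, Nat.testBit_two_pow]
    rw [h1]
    by_cases hy : shC (pc y uc) = c
    · have h2 : Nat.beq (shC (pc y uc)) c = true := by rw [hy]; simp
      rw [List.filter_cons_of_pos (p := fun e => Nat.beq (shC (pc e uc)) c) h2, List.length_cons, decide_eq_true hy]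
      generalize (List.filter (fun e => Nat.beq (shC (pc e uc)) c) l).length = n
      have hodd : decide (Odd (n + 1)) = !(decide (Odd n)) := by
        by_cases h : Odd n
        · have h' : ¬ Odd (n + 1) := by
            rw [Nat.odd_add_one]
            simpa using h
          simp [h, h']
        · have h' : Odd (n + 1) := by
            rw [Nat.odd_add_one]
            exact h
          simp [h, h']
      rw [hodd]
      cases a.testBit c <;> cases decide (Odd n) <;> rfl
    · have h2 : ¬ (Nat.beq (shC (pc y uc)) c = true) := fun h => hy (Nat.eq_of_beq_eq_true h)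
      rw [List.filter_cons_of_neg (p := fun e => Nat.beq (shC (pc e uc)) c) h2, decide_eq_false hy]
      simp

/-! ### Chunks -/

/-- The mask of a code. -/
def mask120 : ℕ := 1329227995784915872903807060280344575

/-- Decoding a chunk. -/
def decC : ℕ → ℕ → List ℕ
  | 0, _ => []
  | n + 1, b => Nat.land b mask120 :: decC n (Nat.shiftRight b 120)

/-- The list given by chunks. -/
def flat (k : ℕ) (l : List ℕ) : List ℕ := l.flatMap (decC k)

/-- Fold over a chunk. -/
def scan (f : ℕ → ℕ → ℕ) : ℕ → ℕ → ℕ → ℕ
  | 0, _, a => a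
  | n + 1, b, a => scan f n (Nat.shiftRight b 120) (f a (Nat.land b mask120))

/-- Fold over chunks. -/
def scanL (f : ℕ → ℕ → ℕ) (k : ℕ) : List ℕ → ℕ → ℕ
  | [], a => a
  | b :: l, a => scanL f k l (scan f k b a)

theorem scan_eq (f : ℕ → ℕ → ℕ) : ∀ (n b a : ℕ), scan f n b a = (decC n b).foldl f a := by
  intro n
  induction n with
  | zero => intro b a; rfl
  | succ n ih =>
    intro b a
    show scan f n _ _ = List.foldl f a (Nat.land b mask120 :: decC n _)
    rw [ih]
    rfl

theorem scanL_eq (f : ℕ → ℕ → ℕ) (k : ℕ) : ∀ (l : List ℕ) (a : ℕ),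
    scanL f k l a = (flat k l).foldl f a := by
  intro l
  induction l with
  | nil => intro a; rfl
  | cons b l ih =>
    intro a
    show scanL f k l (scan f k b a) = _
    rw [ih, scan_eq]
    unfold flat
    rw [List.flatMap_cons, List.foldl_append]

theorem flat_append (k : ℕ) (l l' : List ℕ) : flat k (l ++ l') = flat k l ++ flat k l' := by
  unfold flat
  rw [List.flatMap_append]

theorem scanL_append (f : ℕ → ℕ → ℕ) (k : ℕ) (l l' : List ℕ) (a : ℕ) :
    scanL f k (l ++ l') a = scanL f k l' (scanL f k l a) := by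
  rw [scanL_eq, scanL_eq, scanL_eq, flat_append, List.foldl_append]

end Cfsg.Agent.H13.Frob
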