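import Cfsg.Agent.Lib.H13.FusSimple
import Cfsg.Agent.Lib.H13.FrobRows
import Cfsg.Agent.Lib.H13.MOutCore

/-!
# Certificates: the fusion system of a subgroup of `M24` is simple
-/

set_option autoImplicit false
set_option maxRecDepth 100000
set_option linter.unusedSectionVars false
set_option linter.style.haveILetI false

namespace Cfsg.Agent.H13.FusC

open Cfsg Cfsg.Agent.H27.Golay Cfsg.Agent.H13.Frob Equiv

/-- The element of `H` with a given code. -/
noncomputable def eltH (H : Subgroup (Perm GolayPt)) (c : ℕ) : ↥H :=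
  open Classical in if h : P c ∈ H then ⟨P c, h⟩ else 1

theorem eltH_coe {H : Subgroup (Perm GolayPt)} {c : ℕ} (h : P c ∈ H) :
    ((eltH H c : ↥H) : Perm GolayPt) = P c := by
  unfold eltH
  rw [dif_pos h]

/-- All products of the elements of a list, in order. -/
def prodsL : List ℕ → List ℕ
  | [] => [idCode]
  | s :: r => prodsL r ++ (prodsL r).map (pc s)

/-- The inverse code. -/
def pinvGo (c : ℕ) : ℕ → ℕ → ℕ
  | 0, acc => acc
  | n + 1, acc => pinvGo c n (Nat.lor (Nat.shiftLeft n (Nat.mul 5 (pa c n))) acc)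

/-- The inverse code. -/
def pinvF (c : ℕ) : ℕ := pinvGo c 24 0

/-- The test for the elements commuting with `z`. -/
def NT (seq Ls : List ℕ) (c : ℕ) : Bool :=
  Bool.and (permOK (pinvF c)) (Bool.and (Nat.beq (pc c (pinvF c)) idCode)
    (Bool.rec true (memB c Ls) (allL (fun s => memB (pc (pc c s) (pinvF c)) Ls) seq)))

/-- One step of a derivation. -/
def stepS (isH : ℕ → Bool) (Ls : List ℕ) (known : List ℕ) (st : Bool × ℕ × ℕ × ℕ) : List ℕ :=
  Bool.rec
    (Bool.rec known (st.2.2.2 :: known)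
      (Bool.and (memB st.2.1 known) (Bool.and (memB st.2.2.1 known)
        (Nat.beq (pc st.2.1 st.2.2.1) st.2.2.2))))
    (Bool.rec known (st.2.2.2 :: known)
      (Bool.and (isH st.2.1) (Bool.and (memB st.2.2.1 known) (Bool.and (memB st.2.2.2 Ls)
        (Nat.beq (pc st.2.1 st.2.2.1) (pc st.2.2.2 st.2.1))))))
    st.1

/-- Some element of a list has the given inverse. -/
def anyInv (l : List ℕ) (s : ℕ) : Bool := l.any fun i => Nat.beq (pc s i) idCode

/-- The subgroup. -/
noncomputable def S0 (H : Subgroup (Perm GolayPt)) (seq : List ℕ) : Subgroup ↥H :=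
  Subgroup.closure {g | ∃ s ∈ seq, g = eltH H s}

/-- The checks that do not depend on the enumeration of the group. -/
structure Cert (H : Subgroup (Perm GolayPt)) (isH : ℕ → Bool) (seq sI Ls : List ℕ) (z : ℕ)
    (steps : List (Bool × ℕ × ℕ × ℕ)) : Prop where
  hisH : ∀ c, isH c = true → permOK c = true ∧ P c ∈ H
  c1 : allL isH Ls = true
  c2 : Ls.foldl (goodStep (fun e => Nat.blt e 1329227995784915872903807060280344576)) 1 ≠ 0
  c3 : memB idCode Ls = true
  c4 : ∀ s ∈ seq ++ sI, ∀ e ∈ Ls, pc s e ∈ Ls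
  c5 : ∀ e ∈ Ls, permOK e = true ∧ ∃ h : P e ∈ H, (⟨P e, h⟩ : ↥H) ∈ S0 H seq
  c6 : allL isH seq = true
  c6' : allL isH sI = true
  c6'' : allL (anyInv (seq ++ sI)) seq = true
  c7 : allL (fun e => Bool.rec true (Bool.or (Nat.beq e idCode) (Nat.beq e z))
    (allL (fun s => Nat.beq (pc e s) (pc s e)) seq)) Ls = true
  c8 : allL (fun s => memB s (steps.foldl (stepS isH Ls) [z])) seq = true
  c9 : memB z Ls = true
  c10 : Nat.beq z idCode = false
  c11 : allL (fun s => Nat.beq (pc z s) (pc s z)) seq = true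

theorem c4_of_bool {seq sI Ls : List ℕ}
    (h : allL (fun s => allL (fun e => memB (pc s e) Ls) Ls) (seq ++ sI) = true) :
    ∀ s ∈ seq ++ sI, ∀ e ∈ Ls, pc s e ∈ Ls :=
  fun s hs e he => memB_spec (allL_spec (allL_spec h s hs) e he)

theorem prods_mem_aux {H : Subgroup (Perm GolayPt)} {isH : ℕ → Bool} {seq : List ℕ}
    (hisH : ∀ c, isH c = true → permOK c = true ∧ P c ∈ H) (h6 : allL isH seq = true) :
    ∀ {l : List ℕ}, (∀ s ∈ l, s ∈ seq) → ∀ e ∈ prodsL l,
    permOK e = true ∧ ∃ h : P e ∈ H, (⟨P e, h⟩ : ↥H) ∈ S0 H seq := by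
  intro l
  induction l with
  | nil =>
    intro _ e he
    have he' : e = idCode := by simpa [prodsL] using he
    subst he'
    refine ⟨isM24_permOK idCode_spec, ?_⟩
    rw [P_idCode]
    exact ⟨H.one_mem, (S0 H seq).one_mem⟩
  | cons s r ih =>
    intro hl e he
    have hr : ∀ t ∈ r, t ∈ seq := fun t ht => hl t (List.mem_cons_of_mem _ ht)
    have hs := hl s List.mem_cons_self
    rw [prodsL, List.mem_append] at he
    rcases he with he | he
    · exact ih hr e he
    · obtain ⟨f, hf, rfl⟩ := List.mem_map.1 he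
      obtain ⟨h1, h2, h3⟩ := ih hr f hf
      have hok := hisH s (allL_spec h6 s hs)
      have h4 : P (pc s f) = P s * P f := P_pc hok.1 h1
      refine ⟨permOK_pc hok.1 h1, ?_⟩
      rw [h4]
      refine ⟨H.mul_mem hok.2 h2, ?_⟩
      have h5 : (⟨P s * P f, H.mul_mem hok.2 h2⟩ : ↥H) = eltH H s * ⟨P f, h2⟩ := by
        apply Subtype.ext
        push_cast
        rw [eltH_coe hok.2]
      rw [h5]
      exact (S0 H seq).mul_mem (Subgroup.subset_closure ⟨s, hs, rfl⟩) h3

theorem c5_of_bool {H : Subgroup (Perm GolayPt)} {isH : ℕ → Bool} {seq Ls : List ℕ}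
    (hisH : ∀ c, isH c = true → permOK c = true ∧ P c ∈ H) (h6 : allL isH seq = true)
    (h : allL (fun e => memB e (prodsL seq)) Ls = true) :
    ∀ e ∈ Ls, permOK e = true ∧ ∃ h : P e ∈ H, (⟨P e, h⟩ : ↥H) ∈ S0 H seq :=
  fun e he => prods_mem_aux hisH h6 (fun s hs => hs) e (memB_spec (allL_spec h e he))

/-! ### Fast versions of the membership tests -/

/-- A binary search tree of numbers. -/
inductive BT : Type
  | leaf : BT
  | node : BT → ℕ → BT → BT

/-- The list of a tree. -/
def toL : BT → List ℕ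
  | .leaf => []
  | .node l x r => toL l ++ x :: toL r

/-- Search in a tree. -/
def memT (x : ℕ) : BT → Bool
  | .leaf => false
  | .node l y r => Bool.rec (Bool.rec (memT x r) (memT x l) (Nat.blt x y)) true (Nat.beq x y)

theorem memT_spec {x : ℕ} : ∀ {t : BT}, memT x t = true → x ∈ toL t := by
  intro t
  induction t with
  | leaf => intro h; exact absurd h (by simp [memT])
  | node l y r ihl ihr =>
    intro h
    have e : memT x (.node l y r) = Bool.rec (Bool.rec (memT x r) (memT x l) (Nat.blt x y)) true (Nat.beq x y) := rfl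
    rw [e] at h
    rw [toL, List.mem_append, List.mem_cons]
    cases hb : Nat.beq x y with
    | true => exact Or.inr (Or.inl (Nat.eq_of_beq_eq_true hb))
    | false =>
      rw [hb] at h
      cases hc : Nat.blt x y with
      | true =>
        rw [hc] at h
        exact Or.inl (ihl h)
      | false =>
        rw [hc] at h
        exact Or.inr (Or.inr (ihr h))

theorem c4_of_tree {seq sI Ls : List ℕ} {t : BT} (ht : toL t = Ls)
    (h : allL (fun s => allL (fun e => memT (pc s e) t) Ls) (seq ++ sI) = true) :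
    ∀ s ∈ seq ++ sI, ∀ e ∈ Ls, pc s e ∈ Ls := by
  intro s hs e he
  rw [← ht]
  exact memT_spec (allL_spec (allL_spec h s hs) e he)

/-- The product of the generators selected by the bits of a number. -/
def prodBits : List ℕ → ℕ → ℕ
  | [], _ => idCode
  | s :: r, b => Bool.rec (prodBits r (Nat.shiftRight b 1)) (pc s (prodBits r (Nat.shiftRight b 1)))
      (Nat.beq (Nat.land b 1) 1)

/-- A list of elements with certificates. -/
def bitsOK (seq : List ℕ) : List ℕ → List ℕ → Bool
  | [], _ => true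
  | _ :: _, [] => false
  | e :: l, b :: bs => Bool.and (Nat.beq (prodBits seq b) e) (bitsOK seq l bs)

theorem prodBits_mem {H : Subgroup (Perm GolayPt)} {isH : ℕ → Bool} {seq : List ℕ}
    (hisH : ∀ c, isH c = true → permOK c = true ∧ P c ∈ H) (h6 : allL isH seq = true) :
    ∀ {l : List ℕ}, (∀ s ∈ l, s ∈ seq) → ∀ b, 
    permOK (prodBits l b) = true ∧ ∃ h : P (prodBits l b) ∈ H, (⟨P (prodBits l b), h⟩ : ↥H) ∈ S0 H seq := by
  intro l
  induction l with
  | nil =>
    intro _ b
    refine ⟨isM24_permOK idCode_spec, ?_⟩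
    show ∃ h : P idCode ∈ H, (⟨P idCode, h⟩ : ↥H) ∈ S0 H seq
    rw [P_idCode]
    exact ⟨H.one_mem, (S0 H seq).one_mem⟩
  | cons s r ih =>
    intro hl b
    have hr : ∀ t ∈ r, t ∈ seq := fun t ht => hl t (List.mem_cons_of_mem _ ht)
    have hs := hl s List.mem_cons_self
    have e0 : prodBits (s :: r) b = Bool.rec (prodBits r (Nat.shiftRight b 1)) (pc s (prodBits r (Nat.shiftRight b 1)))
      (Nat.beq (Nat.land b 1) 1) := rfl
    rw [e0]
    obtain ⟨h1, h2, h3⟩ := ih hr (Nat.shiftRight b 1)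
    cases Nat.beq (Nat.land b 1) 1 with
    | false => exact ⟨h1, h2, h3⟩
    | true =>
      generalize prodBits r (Nat.shiftRight b 1) = f at h1 h2 h3
      have hok := hisH s (allL_spec h6 s hs)
      have h4 : P (pc s f) = P s * P f := P_pc hok.1 h1
      show permOK (pc s f) = true ∧ ∃ h : P (pc s f) ∈ H, (⟨P (pc s f), h⟩ : ↥H) ∈ S0 H seq
      refine ⟨permOK_pc hok.1 h1, ?_⟩
      rw [h4]
      refine ⟨H.mul_mem hok.2 h2, ?_⟩
      have h5 : (⟨P s * P f, H.mul_mem hok.2 h2⟩ : ↥H) = eltH H s * ⟨P f, h2⟩ := by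
        apply Subtype.ext
        push_cast
        rw [eltH_coe hok.2]
      rw [h5]
      exact (S0 H seq).mul_mem (Subgroup.subset_closure ⟨s, hs, rfl⟩) h3

theorem bitsOK_spec {seq : List ℕ} : ∀ {l bs : List ℕ}, bitsOK seq l bs = true →
    ∀ e ∈ l, ∃ b, prodBits seq b = e := by
  intro l
  induction l with
  | nil => intro _ _ e he; simp at he
  | cons x l ih =>
    intro bs h e he
    cases bs with
    | nil => exact absurd h (by simp [bitsOK])
    | cons b bs =>
      have h' : Bool.and (Nat.beq (prodBits seq b) x) (bitsOK seq l bs) = true := h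
      simp only [Bool.and_eq_true] at h'
      rcases List.mem_cons.1 he with rfl | he
      · exact ⟨b, Nat.eq_of_beq_eq_true h'.1⟩
      · exact ih h'.2 e he

theorem c5_of_bits {H : Subgroup (Perm GolayPt)} {isH : ℕ → Bool} {seq Ls bs : List ℕ}
    (hisH : ∀ c, isH c = true → permOK c = true ∧ P c ∈ H) (h6 : allL isH seq = true)
    (h : bitsOK seq Ls bs = true) :
    ∀ e ∈ Ls, permOK e = true ∧ ∃ h : P e ∈ H, (⟨P e, h⟩ : ↥H) ∈ S0 H seq := by
  intro e he
  obtain ⟨b, rfl⟩ := bitsOK_spec h e he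
  exact prodBits_mem hisH h6 (fun s hs => hs) b

section

variable {H : Subgroup (Perm GolayPt)} {isH : ℕ → Bool} {seq sI Ls : List ℕ} {z : ℕ}
  {steps : List (Bool × ℕ × ℕ × ℕ)} (C : Cert H isH seq sI Ls z steps)

theorem memB_of_mem {x : ℕ} : ∀ {l : List ℕ}, x ∈ l → memB x l = true := by
  intro l
  induction l with
  | nil => intro h; simp at h
  | cons y l ih =>
    intro h
    have e : memB x (y :: l) = Bool.rec (memB x l) true (Nat.beq x y) := rfl
    rw [e]
    cases hb : Nat.beq x y with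
    | true => rfl
    | false =>
      rcases List.mem_cons.1 h with h1 | h1
      · rw [h1] at hb
        simp at hb
      · exact ih h1

include C

theorem Cert.good : (∀ e ∈ Ls, Nat.blt e 1329227995784915872903807060280344576 = true ∧ 1 ≤ e) ∧
    Ls.Pairwise (· < ·) := by
  obtain ⟨-, h2, h3⟩ := goodFold _ Ls 1 C.c2
  exact ⟨h2, h3⟩

theorem Cert.lt {e : ℕ} (he : e ∈ Ls) : e < 2 ^ 120 := by
  have h1 := (C.good.1 e he).1
  have h2 : e + 1 ≤ 1329227995784915872903807060280344576 := Nat.le_of_ble_eq_true h1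
  have h9 : (2 : ℕ) ^ 120 = 1329227995784915872903807060280344576 := by norm_num
  omega

theorem Cert.isL {e : ℕ} (he : e ∈ Ls) : permOK e = true ∧ P e ∈ H := C.hisH e (allL_spec C.c1 e he)

theorem Cert.isS {s : ℕ} (hs : s ∈ seq) : permOK s = true ∧ P s ∈ H := C.hisH s (allL_spec C.c6 s hs)

theorem Cert.isI {s : ℕ} (hs : s ∈ sI) : permOK s = true ∧ P s ∈ H := C.hisH s (allL_spec C.c6' s hs)

theorem Cert.left_mem {s e : ℕ} (hs : s ∈ seq ++ sI) (he : e ∈ Ls) : pc s e ∈ Ls :=
  C.c4 s hs e he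

/-- The elements of the subgroup are in the list. -/
theorem Cert.mem_list {g : ↥H} (hg : g ∈ S0 H seq) : ∃ e ∈ Ls, (g : Perm GolayPt) = P e := by
  unfold S0 at hg
  induction hg using Subgroup.closure_induction_left with
  | one =>
    refine ⟨idCode, memB_spec C.c3, ?_⟩
    rw [P_idCode]
    rfl
  | mul_left x hx y _ ih =>
    obtain ⟨s, hs, rfl⟩ := hx
    obtain ⟨e, he, hy⟩ := ih
    have hok := C.isS hs
    have hok' := C.isL he
    refine ⟨pc s e, C.left_mem (List.mem_append_left _ hs) he, ?_⟩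
    rw [P_pc hok.1 hok'.1]
    push_cast
    rw [eltH_coe hok.2, hy]
  | inv_mul_cancel x hx y _ ih =>
    obtain ⟨s, hs, rfl⟩ := hx
    obtain ⟨e, he, hy⟩ := ih
    have hok := C.isS hs
    have hok' := C.isL he
    have h1 := allL_spec C.c6'' s hs
    obtain ⟨i, hi, hi2⟩ := List.any_eq_true.1 h1
    have hok2 : permOK i = true ∧ P i ∈ H := by
      rcases List.mem_append.1 hi with hi | hi
      · exact C.isS hi
      · exact C.isI hi
    have h2 : P s * P i = 1 := by
      rw [← P_pc hok.1 hok2.1, Nat.eq_of_beq_eq_true hi2, P_idCode]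
    refine ⟨pc i e, C.left_mem hi he, ?_⟩
    rw [P_pc hok2.1 hok'.1]
    push_cast
    rw [eltH_coe hok.2, hy]
    congr 1
    exact inv_eq_of_mul_eq_one_right h2

theorem Cert.list_mem {e : ℕ} (he : e ∈ Ls) : eltH H e ∈ S0 H seq := by
  obtain ⟨_, h2, h3⟩ := C.c5 e he
  have h4 : eltH H e = ⟨P e, h2⟩ := by
    apply Subtype.ext
    rw [eltH_coe h2]
  rw [h4]
  exact h3

/-- The order of the subgroup. -/
theorem Cert.card : Nat.card (S0 H seq) = Ls.length := by
  classical
  have hnd : Ls.Nodup := C.good.2.imp (fun h => Nat.ne_of_lt h)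
  rw [← List.toFinset_card_of_nodup hnd]
  have h1 : (Ls.toFinset).card = Nat.card {e // e ∈ Ls.toFinset} := by
    rw [Nat.card_eq_fintype_card, Fintype.card_coe]
  rw [h1]
  symm
  refine Nat.card_eq_of_bijective (fun e => ⟨eltH H e.1, C.list_mem (List.mem_toFinset.1 e.2)⟩) ⟨?_, ?_⟩
  · rintro ⟨a, ha⟩ ⟨b, hb⟩ hab
    have ha' := List.mem_toFinset.1 ha
    have hb' := List.mem_toFinset.1 hb
    have h2 := congrArg (fun x : S0 H seq => ((x : ↥H) : Perm GolayPt)) hab
    simp only [eltH_coe (C.isL ha').2, eltH_coe (C.isL hb').2] at h2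
    apply Subtype.ext
    exact code_inj (C.isL ha').1 (C.isL hb').1 (C.lt ha') (C.lt hb') h2
  · rintro ⟨g, hg⟩
    obtain ⟨e, he, h2⟩ := C.mem_list hg
    refine ⟨⟨e, List.mem_toFinset.2 he⟩, ?_⟩
    apply Subtype.ext
    apply Subtype.ext
    show ((eltH H e : ↥H) : Perm GolayPt) = _
    rw [eltH_coe (C.isL he).2, h2]

/-- The central elements. -/
theorem Cert.central {t : ↥H} (ht : t ∈ S0 H seq) (h1 : t ≠ 1)
    (hc : ∀ s ∈ S0 H seq, s * t = t * s) : t = eltH H z := by
  obtain ⟨e, he, hte⟩ := C.mem_list ht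
  have h2 := allL_spec C.c7 e he
  have h3 : allL (fun s => Nat.beq (pc e s) (pc s e)) seq = true := by
    apply allL_of
    intro s hs
    have hok := C.isS hs
    have hok' := C.isL he
    have h4 := hc (eltH H s) (Subgroup.subset_closure ⟨s, hs, rfl⟩)
    have h5 := congrArg (fun x : ↥H => (x : Perm GolayPt)) h4
    simp only [Subgroup.coe_mul, eltH_coe hok.2, hte] at h5
    have h6 : P (pc e s) = P (pc s e) := by
      rw [P_pc hok'.1 hok.1, P_pc hok.1 hok'.1, h5]
    rw [code_inj (permOK_pc hok'.1 hok.1) (permOK_pc hok.1 hok'.1) (pc_lt _ _) (pc_lt _ _) h6]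
    simp
  rw [h3] at h2
  simp only [Bool.or_eq_true] at h2
  rcases h2 with h2 | h2
  · exfalso
    apply h1
    apply Subtype.ext
    rw [hte, Nat.eq_of_beq_eq_true h2, P_idCode]
    rfl
  · apply Subtype.ext
    have := C.isL he
    rw [hte, Nat.eq_of_beq_eq_true h2]
    rw [Nat.eq_of_beq_eq_true h2] at this
    rw [eltH_coe this.2]

/-- The element `z` is not the identity. -/
theorem Cert.z_ne : eltH H z ≠ 1 := by
  intro h
  have hz := memB_spec C.c9
  have h1 := congrArg (fun x : ↥H => (x : Perm GolayPt)) h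
  simp only [eltH_coe (C.isL hz).2, Subgroup.coe_one] at h1
  have h2 : P z = P idCode := by rw [h1, P_idCode]
  have h3 := code_inj (C.isL hz).1 (isM24_permOK idCode_spec) (C.lt hz) (by decide +kernel) h2
  have h4 := C.c10
  rw [h3] at h4
  simp at h4

/-- Every step of the derivation stays in a closed subgroup. -/
theorem Cert.run {T : Subgroup ↥H} (hTS : T ≤ S0 H seq)
    (hcl : ∀ t ∈ T, ∀ g : ↥H, g * t * g⁻¹ ∈ S0 H seq → g * t * g⁻¹ ∈ T) :
    ∀ (l : List (Bool × ℕ × ℕ × ℕ)) (known : List ℕ),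
      (∀ e ∈ known, permOK e = true ∧ ∃ h : P e ∈ H, (⟨P e, h⟩ : ↥H) ∈ T) →
      ∀ e ∈ l.foldl (stepS isH Ls) known, permOK e = true ∧ ∃ h : P e ∈ H, (⟨P e, h⟩ : ↥H) ∈ T := by
  intro l
  induction l with
  | nil => intro known h; exact h
  | cons st l ih =>
    intro known h
    apply ih
    obtain ⟨b, a1, a2, a3⟩ := st
    cases b with
    | false =>
      have e0 : stepS isH Ls known (false, a1, a2, a3) = @Bool.rec (fun _ => List ℕ) known (a3 :: known)
          (Bool.and (memB a1 known) (Bool.and (memB a2 known) (Nat.beq (pc a1 a2) a3))) := rfl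
      rw [e0]
      cases hc : Bool.and (memB a1 known) (Bool.and (memB a2 known) (Nat.beq (pc a1 a2) a3)) with
      | false => exact h
      | true =>
        simp only [Bool.and_eq_true] at hc
        obtain ⟨h1, h2, h3⟩ := hc
        obtain ⟨ok1, m1, t1⟩ := h a1 (memB_spec h1)
        obtain ⟨ok2, m2, t2⟩ := h a2 (memB_spec h2)
        intro e he
        rcases List.mem_cons.1 he with rfl | he
        · rw [← Nat.eq_of_beq_eq_true h3]
          refine ⟨permOK_pc ok1 ok2, ?_⟩
          rw [P_pc ok1 ok2]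
          exact ⟨H.mul_mem m1 m2, T.mul_mem t1 t2⟩
        · exact h e he
    | true =>
      have e0 : stepS isH Ls known (true, a1, a2, a3) = @Bool.rec (fun _ => List ℕ) known (a3 :: known)
          (Bool.and (isH a1) (Bool.and (memB a2 known) (Bool.and (memB a3 Ls)
            (Nat.beq (pc a1 a2) (pc a3 a1))))) := rfl
      rw [e0]
      cases hc : Bool.and (isH a1) (Bool.and (memB a2 known) (Bool.and (memB a3 Ls)
        (Nat.beq (pc a1 a2) (pc a3 a1)))) with
      | false => exact h
      | true =>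
        simp only [Bool.and_eq_true] at hc
        obtain ⟨h1, h2, h3, h4⟩ := hc
        obtain ⟨ok1, m1⟩ := C.hisH _ h1
        obtain ⟨ok2, m2, t2⟩ := h a2 (memB_spec h2)
        have he3 := memB_spec h3
        obtain ⟨ok3, m3⟩ := C.isL he3
        have e1 : P a1 * P a2 = P a3 * P a1 := by
          rw [← P_pc ok1 ok2, ← P_pc ok3 ok1, Nat.eq_of_beq_eq_true h4]
        have e2 : (⟨P a3, m3⟩ : ↥H) = (⟨P a1, m1⟩ : ↥H) * ⟨P a2, m2⟩ * (⟨P a1, m1⟩ : ↥H)⁻¹ := by
          apply Subtype.ext
          push_cast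
          rw [e1]
          simp
        have h5 : (⟨P a3, m3⟩ : ↥H) ∈ S0 H seq := by
          have := C.list_mem he3
          have h6 : eltH H a3 = ⟨P a3, m3⟩ := by
            apply Subtype.ext
            rw [eltH_coe m3]
          rwa [h6] at this
        intro e he
        rcases List.mem_cons.1 he with rfl | he
        · refine ⟨ok3, m3, ?_⟩
          rw [e2] at h5 ⊢
          exact hcl _ t2 _ h5
        · exact h e he

/-- No proper nontrivial subgroup of `S0` is closed under fusion. -/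
theorem Cert.closed (hp : IsPGroup 2 (S0 H seq)) [Finite ↥H] (T : Subgroup ↥H) (hTS : T ≤ S0 H seq)
    (hcl : ∀ t ∈ T, ∀ g : ↥H, g * t * g⁻¹ ∈ S0 H seq → g * t * g⁻¹ ∈ T) : T = ⊥ ∨ T = S0 H seq := by
  by_cases hT : T = ⊥
  · exact Or.inl hT
  right
  haveI : Fact (Nat.Prime 2) := ⟨Nat.prime_two⟩
  obtain ⟨t, ht, ht1, htc⟩ := FusS.exists_central 2 hp hTS hT hcl
  have h1 := C.central (hTS ht) ht1 htc
  subst h1
  have hz := memB_spec C.c9
  have hokz := C.isL hz
  apply le_antisymm hTS
  unfold S0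
  rw [Subgroup.closure_le]
  rintro _ ⟨s, hs, rfl⟩
  have h2 := memB_spec (allL_spec C.c8 s hs)
  have h3 := C.run hTS hcl steps [z] (by
    intro e he
    have he' : e = z := by simpa using he
    subst he'
    refine ⟨hokz.1, hokz.2, ?_⟩
    have h4 : eltH H e = ⟨P e, hokz.2⟩ := by
      apply Subtype.ext
      rw [eltH_coe hokz.2]
    rwa [h4] at ht) s h2
  obtain ⟨_, h5, h6⟩ := h3
  have h7 : eltH H s = ⟨P s, h5⟩ := by
    apply Subtype.ext
    rw [eltH_coe h5]
  rw [SetLike.mem_coe, h7]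
  exact h6

/-- The normalizer from an enumeration of the centralizer of `z`. -/
theorem Cert.normalizer (hp : IsPGroup 2 (S0 H seq)) [Finite ↥H]
    (hNC : ∀ y ∈ H, y * P z = P z * y → ∃ c, permOK c = true ∧ y = P c ∧ NT seq Ls c = true) :
    Subgroup.normalizer ((S0 H seq : Subgroup ↥H) : Set ↥H) ≤ S0 H seq := by
  intro x hx
  have hz := memB_spec C.c9
  have hokz := C.isL hz
  have hzS := C.list_mem hz
  have hmem := Subgroup.mem_normalizer_iff.1 hx
  have hinv : x⁻¹ ∈ Subgroup.normalizer ((S0 H seq : Subgroup ↥H) : Set ↥H) :=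
    Subgroup.inv_mem _ hx
  have hmem' := Subgroup.mem_normalizer_iff.1 hinv
  -- `x` commutes with `z`
  have h1 : x * eltH H z * x⁻¹ = eltH H z := by
    apply C.central ((hmem _).1 hzS)
    · intro h
      apply C.z_ne
      have e : eltH H z = x⁻¹ * (x * eltH H z * x⁻¹) * x := by group
      rw [e, h]
      group
    · intro s hs
      -- the central element
      have h2 : x⁻¹ * s * x ∈ S0 H seq := by
        have := (hmem' s).1 hs
        simpa using this
      have hzc : ∀ r ∈ S0 H seq, r * eltH H z = eltH H z * r := by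
        have hle : S0 H seq ≤ Subgroup.centralizer {eltH H z} := by
          unfold S0
          rw [Subgroup.closure_le]
          rintro _ ⟨s, hs, rfl⟩
          rw [SetLike.mem_coe, Subgroup.mem_centralizer_singleton_iff]
          have hok := C.isS hs
          have h3 := Nat.eq_of_beq_eq_true (allL_spec C.c11 s hs)
          apply Subtype.ext
          push_cast
          rw [eltH_coe hok.2, eltH_coe hokz.2, ← P_pc hok.1 hokz.1, ← P_pc hokz.1 hok.1, h3]
        intro r hr
        exact Subgroup.mem_centralizer_singleton_iff.1 (hle hr)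
      have h5 := hzc _ h2
      calc s * (x * eltH H z * x⁻¹) = x * ((x⁻¹ * s * x) * eltH H z) * x⁻¹ := by group
        _ = x * (eltH H z * (x⁻¹ * s * x)) * x⁻¹ := by rw [h5]
        _ = (x * eltH H z * x⁻¹) * s := by group
  have h2 : (x : Perm GolayPt) * P z = P z * x := by
    have h3 : x * eltH H z = eltH H z * x := by
      calc x * eltH H z = (x * eltH H z * x⁻¹) * x := by group
        _ = _ := by rw [h1]
    have h4 := congrArg (fun y : ↥H => (y : Perm GolayPt)) h3
    simp only [Subgroup.coe_mul, eltH_coe hokz.2] at h4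
    exact h4
  obtain ⟨c, hc, hxc, hNT⟩ := hNC x x.2 h2
  simp only [NT, Bool.and_eq_true] at hNT
  obtain ⟨h3, h4, h5⟩ := hNT
  have h6 : P c * P (pinvF c) = 1 := by
    rw [← P_pc hc h3, Nat.eq_of_beq_eq_true h4, P_idCode]
  have h7 : allL (fun s => memB (pc (pc c s) (pinvF c)) Ls) seq = true := by
    apply allL_of
    intro s hs
    have hok := C.isS hs
    have h8 := (hmem (eltH H s)).1 (Subgroup.subset_closure ⟨s, hs, rfl⟩)
    obtain ⟨e, he, h9⟩ := C.mem_list h8
    simp only [Subgroup.coe_mul, InvMemClass.coe_inv, eltH_coe hok.2] at h9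
    have h10 : P (pc (pc c s) (pinvF c)) = P e := by
      rw [P_pc (permOK_pc hc hok.1) h3, P_pc hc hok.1, ← h9, hxc]
      congr 1
      exact (inv_eq_of_mul_eq_one_right h6).symm
    rw [code_inj (permOK_pc (permOK_pc hc hok.1) h3) (C.isL he).1 (pc_lt _ _) (C.lt he) h10]
    exact memB_of_mem he
  rw [h7] at h5
  have h8 := C.list_mem (memB_spec h5)
  have h9 : eltH H c = x := by
    apply Subtype.ext
    have := (C.isL (memB_spec h5)).2
    rw [eltH_coe this, hxc]
  rwa [h9] at h8

/-- The main theorem. -/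
theorem Cert.isSimple [Finite ↥H] {n : ℕ} (hcard : Ls.length = 2 ^ n)
    (hfact : (Nat.card ↥H).factorization 2 = n) (hn : n ≠ 0)
    (hN : Subgroup.normalizer ((S0 H seq : Subgroup ↥H) : Set ↥H) ≤ S0 H seq) (S : Sylow 2 ↥H) :
    (groupFusionSystem (S : Subgroup ↥H)).IsSimple 2 := by
  haveI : Fact (Nat.Prime 2) := ⟨Nat.prime_two⟩
  have hc : Nat.card (S0 H seq) = 2 ^ (Nat.card ↥H).factorization 2 := by
    rw [C.card, hcard, hfact]
  let S₁ : Sylow 2 ↥H := Sylow.ofCard (S0 H seq) hc
  have hS₁ : (S₁ : Subgroup ↥H) = S0 H seq := rfl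
  have hp : IsPGroup 2 (S0 H seq) := IsPGroup.of_card (n := n) (by rw [C.card, hcard])
  obtain ⟨h1, h2⟩ := FusS.conds_transport 2 S₁ S
    (by rw [hS₁]; exact hN)
    (by
      rw [hS₁]
      exact C.closed hp)
  refine FusS.isSimple_of 2 S ?_ h1 h2
  intro h
  have h3 := Sylow.card_eq_multiplicity S
  rw [h, hfact, Nat.card_eq_one_iff_unique.2 ⟨inferInstance, inferInstance⟩] at h3
  have h4 : 2 ^ n = 1 := h3.symm
  have h5 := Nat.pow_eq_one.1 h4
  omega

/-- The enumeration of the centralizer from a stabiliser search. -/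
theorem Cert.hNC_tree {l : List ℕ} {lv : List (ℕ × List ℕ × List ℕ)} (hH : H ≤ fixG l) (hC : ChainP l lv)
    (hq : qv z l lv = true) (hall : allL (NT seq Ls) (tgo z z lv idCode) = true) :
    ∀ y ∈ H, y * P z = P z * y → ∃ c, permOK c = true ∧ y = P c ∧ NT seq Ls c = true := by
  intro y hy hc
  have hz := memB_spec C.c9
  obtain ⟨e, he, hok, hye⟩ := mem_tgo_of_intertwine hC (C.isL hz).1 (C.isL hz).1 hq (hH hy) hc
  exact ⟨e, hok, hye, allL_spec hall e he⟩

/-- The enumeration of the centralizer from a stabiliser chain. -/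
theorem Cert.hNC_chain {l : List ℕ} {L : List (ℕ × ℕ × List ℕ)} (hc : MOut.ChainOK H l L)
    (hl : ∀ g ∈ H, MOut.FixL l g)
    (hall : MOut.chainAll (L.map fun x => x.2.2)
      (fun c => Bool.rec true (NT seq Ls c) (Nat.beq (pc c z) (pc z c))) idCode = true) :
    ∀ y ∈ H, y * P z = P z * y → ∃ c, permOK c = true ∧ y = P c ∧ NT seq Ls c = true := by
  intro y hy hcz
  have hz := memB_spec C.c9
  have hokz := (C.isL hz).1
  obtain ⟨c, hc1, hc2, hc3⟩ := MOut.chain_all hc _ (isM24_permOK idCode_spec) hall y hy (hl y hy)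
  rw [P_idCode, one_mul] at hc2
  subst hc2
  refine ⟨c, hc1, rfl, ?_⟩
  have h1 : P (pc c z) = P (pc z c) := by
    rw [P_pc hc1 hokz, P_pc hokz hc1, hcz]
  have h2 := code_inj (permOK_pc hc1 hokz) (permOK_pc hokz hc1) (pc_lt _ _) (pc_lt _ _) h1
  have h3 : Nat.beq (pc c z) (pc z c) = true := by rw [h2]; simp
  rw [h3] at hc3
  exact hc3

end

end Cfsg.Agent.H13.FusC
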