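import Cfsg.Agent.Lib.H13.FusM11Data
import Cfsg.Agent.Lib.H13.M11OutData
import Cfsg.Agent.Lib.H07.GolayM12
import Cfsg.Agent.Lib.H27.GolayD

/-! The 2-fusion system of `M11` is simple. -/

set_option autoImplicit false
set_option maxRecDepth 100000
set_option maxHeartbeats 0
set_option linter.style.haveILetI false

namespace Cfsg.Agent.H13.FusC.M11D

open Cfsg Cfsg.Agent.H27.Golay Cfsg.Agent.H13.Frob Cfsg.Agent.H13.FusC Cfsg.Agent.H13.MOut Equiv
open Cfsg.Agent.H13.MOut.M11D (U2 U3 U4 U5 ck)

/-- The membership test. -/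
abbrev isH : ℕ → Bool := isD [0]

theorem hisH : ∀ c, isH c = true → permOK c = true ∧ P c ∈ Spor.M11 := by
  intro c h
  obtain ⟨h1, h2, h3, _⟩ := isD_spec (l := [0]) (by simp) h
  refine ⟨h1, ?_⟩
  rw [← HD_zero]
  exact ⟨h2, h3⟩

theorem C : Cert Spor.M11 isH seq sI Ls z steps :=
  ⟨hisH, by decide +kernel, by decide +kernel, by decide +kernel, c4_of_bool (by decide +kernel),
    c5_of_bool hisH (by decide +kernel) (by decide +kernel), by decide +kernel, by decide +kernel, by decide +kernel, by decide +kernel, by decide +kernel,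
    by decide +kernel, by decide +kernel, by decide +kernel⟩

theorem ck_ok : isM24 ck = true := by decide +kernel

/-- The levels of the chain. -/
def LL : List (ℕ × ℕ × List ℕ) :=
  [(1, 340830, U2), (2, 340828, U3), (3, 340824, U4), (4, 340816, U5)]

theorem chainOK : ChainOK (HD [0]) [0] LL := by
  refine ⟨hlevel_HD (by simp) (by simp) (by norm_num) (by simp) (by decide +kernel) (by decide +kernel)
      (by decide +kernel) (by decide +kernel),
    hlevel_HD (by simp) (by simp) (by norm_num) (by simp) (by decide +kernel) (by decide +kernel)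
      (by decide +kernel) (by decide +kernel),
    hlevel_HD (by simp) (by simp) (by norm_num) (by simp) (by decide +kernel) (by decide +kernel)
      (by decide +kernel) (by decide +kernel),
    hlevel_HD (by simp) (by simp) (by norm_num) (by simp) (by decide +kernel) (by decide +kernel)
      (by decide +kernel) (by decide +kernel),
    ?_⟩
  exact chainEnd_HD ck_ok (by decide +kernel) (by decide +kernel) (by decide +kernel) (by decide +kernel)
    (by decide +kernel) (by decide +kernel) [0]

theorem chainOK' : ChainOK Spor.M11 [0] LL := by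
  have h := chainOK
  rwa [HD_zero] at h

theorem hl : ∀ g ∈ Spor.M11, FixL [0] g := by
  rw [← HD_zero]
  exact fun _ hg => hg.2.2

theorem hchk : chainAll (LL.map fun x => x.2.2)
    (fun c => Bool.rec true (NT seq Ls c) (Nat.beq (pc c z) (pc z c))) idCode = true := by
  decide +kernel

theorem card_M11 : Nat.card ↥Spor.M11 = 7920 := by
  have hd : Spor.squareDodecad ∈ dodecads := by
    rw [squareDodecad_eq]; exact fs_mem_dodecads (by decide +kernel)
  have hp : (some 0 : GolayPt) ∈ Spor.squareDodecad := by
    rw [squareDodecad_eq]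
    exact (mem_fs (m := Dm) (p := some 0)).2 (by decide +kernel)
  have h1 := Cfsg.Agent.H07.Orb.card_S1 hd hp
  rw [← h1]
  exact Nat.card_congr ⟨fun x => ⟨⟨x.1, x.2.1.1⟩, ⟨x.2.1.2, x.2.2⟩⟩, fun y => ⟨y.1.1, ⟨⟨y.1.2, y.2.1⟩, y.2.2⟩⟩,
    fun x => rfl, fun y => rfl⟩

theorem hfact : (Nat.card ↥Spor.M11).factorization 2 = 4 := by
  rw [card_M11, (by norm_num : (7920 : ℕ) = 2 ^ 4 * 495),
    Nat.factorization_mul (by norm_num) (by norm_num), Nat.Prime.factorization_pow Nat.prime_two]
  have : (495 : ℕ).factorization 2 = 0 := Nat.factorization_eq_zero_of_not_dvd (by norm_num)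
  simp [this]

theorem hlen : Ls.length = 2 ^ 4 := by decide +kernel

theorem main (S : Sylow 2 ↥Spor.M11) : (groupFusionSystem (S : Subgroup ↥Spor.M11)).IsSimple 2 := by
  refine C.isSimple hlen hfact (by norm_num) ?_ S
  refine C.normalizer (IsPGroup.of_card (n := 4) (by rw [C.card, hlen]))
    (C.hNC_chain chainOK' hl hchk)

end Cfsg.Agent.H13.FusC.M11D
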