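import Cfsg.Agent.Lib.H13.FusCert
import Cfsg.Agent.Lib.H13.MOutChain

/-! Data for the 2-fusion system of `M11` (generated). -/

set_option autoImplicit false

namespace Cfsg.Agent.H13.FusC.M11D

/-- The central involution. -/
def z : ℕ := 973968420574796809057970364740646176

/-- The polycyclic generators. -/
def seq : List ℕ := [311069693898527976500080502026539072, 984365217902686453248235801272398976, 973968420574796809057970364740646176, 719708130282520820308329691860975648]

/-- Inverses of generators which are not involutions. -/
def sI : List ℕ := [796355267664688465560940955247576640]

/-- The elements of the Sylow subgroup. -/
def Ls : List ℕ := [305279075850123413062001008912374176, 305872098646996102329628658546872896, 310469857479867955339558468429388288, 311069693898527976500080502026539072, 719708130282520820308329691860975648, 720044849972828580952578354186406080, 733994063574251539888964338296406144, 734330466351947022443742560843483424, 796194513722908949000483671264830528, 796355267664688465560940955247576640, 815650174976979883165275718564455936, 815817742540546731618649376741754272, 973968420574796809057970364740646176, 974421764120477162002732052473186496, 984365217902686453248235801272398976, 984818244535754528103549039458486304]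

/-- The derivation. -/
def steps : List (Bool × ℕ × ℕ × ℕ) := [(true, 226817683028854712125074926079456512, 973968420574796809057970364740646176, 734330466351947022443742560843483424), (true, 430579991933328526328188371465545216, 973968420574796809057970364740646176, 974421764120477162002732052473186496), (false, 734330466351947022443742560843483424, 974421764120477162002732052473186496, 720044849972828580952578354186406080), (true, 305471767349930039887875515826442656, 720044849972828580952578354186406080, 815817742540546731618649376741754272), (false, 815817742540546731618649376741754272, 734330466351947022443742560843483424, 311069693898527976500080502026539072), (false, 973968420574796809057970364740646176, 974421764120477162002732052473186496, 984365217902686453248235801272398976), (false, 973968420574796809057970364740646176, 734330466351947022443742560843483424, 719708130282520820308329691860975648)]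

end Cfsg.Agent.H13.FusC.M11D
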