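import Cfsg.Agent.Lib.H13.FusM12Data
import Cfsg.Agent.Lib.H13.M12OutData
import Cfsg.Agent.Lib.H07.GolayM12
import Cfsg.Agent.Lib.H27.GolayD

/-! The 2-fusion system of `M12` is simple. -/

set_option autoImplicit false
set_option maxRecDepth 100000
set_option maxHeartbeats 0
set_option linter.style.haveILetI false

namespace Cfsg.Agent.H13.FusC.M12D

open Cfsg Cfsg.Agent.H27.Golay Cfsg.Agent.H13.Frob Cfsg.Agent.H13.FusC Cfsg.Agent.H13.MOut Equiv
open Cfsg.Agent.H13.MOut.M12D (U1 U2 U3 U4 U5 ck)

/-- The membership test. -/
abbrev isH : ℕ → Bool := isD []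

theorem hisH : ∀ c, isH c = true → permOK c = true ∧ P c ∈ Spor.M12 := by
  intro c h
  obtain ⟨h1, h2, _, _⟩ := isD_spec (l := []) (by simp) h
  exact ⟨h1, h2⟩

theorem C : Cert Spor.M12 isH seq sI Ls z steps :=
  ⟨hisH, by decide +kernel, by decide +kernel, by decide +kernel, c4_of_bool (by decide +kernel),
    c5_of_bool hisH (by decide +kernel) (by decide +kernel), by decide +kernel, by decide +kernel, by decide +kernel, by decide +kernel, by decide +kernel,
    by decide +kernel, by decide +kernel, by decide +kernel⟩

theorem ck_ok : isM24 ck = true := by decide +kernel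

/-- The levels of the chain. -/
def LL : List (ℕ × ℕ × List ℕ) :=
  [(0, 340831, U1), (1, 340830, U2), (2, 340828, U3), (3, 340824, U4), (4, 340816, U5)]

theorem chainOK : ChainOK (HD []) [] LL := by
  refine ⟨hlevel_HD (by simp) (by simp) (by norm_num) (by simp) (by decide +kernel) (by decide +kernel)
      (by decide +kernel) (by decide +kernel),
    hlevel_HD (by simp) (by simp) (by norm_num) (by simp) (by decide +kernel) (by decide +kernel)
      (by decide +kernel) (by decide +kernel),
    hlevel_HD (by simp) (by simp) (by norm_num) (by simp) (by decide +kernel) (by decide +kernel)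
      (by decide +kernel) (by decide +kernel),
    hlevel_HD (by simp) (by simp) (by norm_num) (by simp) (by decide +kernel) (by decide +kernel)
      (by decide +kernel) (by decide +kernel),
    hlevel_HD (by simp) (by simp) (by norm_num) (by simp) (by decide +kernel) (by decide +kernel)
      (by decide +kernel) (by decide +kernel),
    ?_⟩
  exact chainEnd_HD ck_ok (by decide +kernel) (by decide +kernel) (by decide +kernel) (by decide +kernel)
    (by decide +kernel) (by decide +kernel) []

theorem chainOK' : ChainOK Spor.M12 [] LL := by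
  have h := chainOK
  rwa [HD_nil] at h

theorem hchk : chainAll (LL.map fun x => x.2.2)
    (fun c => Bool.rec true (NT seq Ls c) (Nat.beq (pc c z) (pc z c))) idCode = true := by
  decide +kernel

theorem card_M12 : Nat.card ↥Spor.M12 = 95040 := by
  have h1 := card_stab_dodecad (d := Spor.squareDodecad)
    (by rw [squareDodecad_eq]; exact fs_mem_dodecads (by decide +kernel))
  rw [← h1]
  exact Nat.card_congr ⟨fun x => ⟨⟨x.1, x.2.1⟩, x.2.2⟩, fun y => ⟨y.1.1, ⟨y.1.2, y.2⟩⟩,
    fun x => rfl, fun y => rfl⟩

theorem hfact : (Nat.card ↥Spor.M12).factorization 2 = 6 := by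
  rw [card_M12, (by norm_num : (95040 : ℕ) = 2 ^ 6 * 1485),
    Nat.factorization_mul (by norm_num) (by norm_num), Nat.Prime.factorization_pow Nat.prime_two]
  have : (1485 : ℕ).factorization 2 = 0 := Nat.factorization_eq_zero_of_not_dvd (by norm_num)
  simp [this]

theorem hlen : Ls.length = 2 ^ 6 := by decide +kernel

theorem main (S : Sylow 2 ↥Spor.M12) : (groupFusionSystem (S : Subgroup ↥Spor.M12)).IsSimple 2 := by
  refine C.isSimple hlen hfact (by norm_num) ?_ S
  refine C.normalizer (IsPGroup.of_card (n := 6) (by rw [C.card, hlen]))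
    (C.hNC_chain chainOK' (fun _ _ i hi => by cases hi) hchk)

end Cfsg.Agent.H13.FusC.M12D
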