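import Cfsg.Agent.Lib.H13.FusM23Data

/-! The 2-fusion system of `M23` is simple. -/

set_option autoImplicit false
set_option maxRecDepth 100000
set_option maxHeartbeats 0
set_option linter.style.haveILetI false

namespace Cfsg.Agent.H13.FusC.M23D

open Cfsg Cfsg.Agent.H27.Golay Cfsg.Agent.H13.Frob Cfsg.Agent.H13.FusC Cfsg.Agent.H13.MOut

/-- The membership test. -/
abbrev isH : ℕ → Bool := isFix [23]

theorem hisH : ∀ c, isH c = true → permOK c = true ∧ P c ∈ Spor.M23 := by
  intro c h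
  rw [M23_eq]
  exact ⟨isFix_permOK h, P_mem_fixG (by decide) h⟩

theorem C : Cert Spor.M23 isH seq sI Ls z steps :=
  ⟨hisH, by decide +kernel, by decide +kernel, by decide +kernel, c4_of_bool (by decide +kernel),
    c5_of_bool hisH (by decide +kernel) (by decide +kernel), by decide +kernel, by decide +kernel, by decide +kernel, by decide +kernel, by decide +kernel,
    by decide +kernel, by decide +kernel, by decide +kernel⟩

/-- The chain of `M23`, with test points. -/
abbrev lv23 (Q2 Q3 Q4 Q5 Q6 Q7 : List ℕ) : List (ℕ × List ℕ × List ℕ) :=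
  [(0, T2, Q2), (1, T3, Q3), (2, T4, Q4), (3, T5, Q5), (5, T6, Q6), (4, T7, Q7)]

theorem chain23 (Q2 Q3 Q4 Q5 Q6 Q7 : List ℕ) : ChainP [23] (lv23 Q2 Q3 Q4 Q5 Q6 Q7) :=
  ⟨⟨_, level2⟩, chain22 Q3 Q4 Q5 Q6 Q7⟩

/-- The levels for the centralizer. -/
abbrev lvz : List (ℕ × List ℕ × List ℕ) :=
  lv23 (QQ.getD 0 []) (QQ.getD 1 []) (QQ.getD 2 []) (QQ.getD 3 []) (QQ.getD 4 []) (QQ.getD 5 [])

theorem hfact : (Nat.card ↥Spor.M23).factorization 2 = 7 := by
  rw [M23_eq, card_fix1, (by norm_num : (10200960 : ℕ) = 2 ^ 7 * 79695),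
    Nat.factorization_mul (by norm_num) (by norm_num), Nat.Prime.factorization_pow Nat.prime_two]
  have : (79695 : ℕ).factorization 2 = 0 := Nat.factorization_eq_zero_of_not_dvd (by norm_num)
  simp [this]

theorem hlen : Ls.length = 2 ^ 7 := by decide +kernel

theorem main (S : Sylow 2 ↥Spor.M23) : (groupFusionSystem (S : Subgroup ↥Spor.M23)).IsSimple 2 := by
  refine C.isSimple hlen hfact (by norm_num) ?_ S
  refine C.normalizer (IsPGroup.of_card (n := 7) (by rw [C.card, hlen]))
    (C.hNC_tree (l := [23]) (lv := lvz) (le_of_eq M23_eq) (chain23 _ _ _ _ _ _) (by decide +kernel)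
      (by decide +kernel))

end Cfsg.Agent.H13.FusC.M23D
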