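import Cfsg.Agent.Lib.H13.FusM24Data

/-! The 2-fusion system of `M24` is simple. -/

set_option autoImplicit false
set_option maxRecDepth 100000
set_option maxHeartbeats 0
set_option linter.style.haveILetI false

namespace Cfsg.Agent.H13.FusC.M24D

open Cfsg Cfsg.Agent.H27.Golay Cfsg.Agent.H13.Frob Cfsg.Agent.H13.FusC Cfsg.Agent.H13.MOut

/-- The membership test. -/
abbrev isH : ℕ → Bool := isM24

theorem hisH : ∀ c, isH c = true → permOK c = true ∧ P c ∈ M24 := by
  intro c h
  exact ⟨isM24_permOK h, P_mem_M24 h⟩

theorem hTT : toL TT = Ls := by decide +kernel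

theorem h4 : allL (fun s => allL (fun e => memT (pc s e) TT) Ls) (seq ++ sI) = true := by decide +kernel

theorem h5 : bitsOK seq Ls Bs = true := by decide +kernel

theorem C : Cert M24 isH seq sI Ls z steps :=
  ⟨hisH, by decide +kernel, by decide +kernel, by decide +kernel, c4_of_tree hTT h4,
    c5_of_bits hisH (by decide +kernel) h5, by decide +kernel, by decide +kernel, by decide +kernel, by decide +kernel, by decide +kernel,
    by decide +kernel, by decide +kernel, by decide +kernel⟩

theorem hlen : Ls.length = 2 ^ 10 := by decide +kernel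

theorem main (S : Sylow 2 ↥M24) : (groupFusionSystem (S : Subgroup ↥M24)).IsSimple 2 := by
  refine C.isSimple hlen M24S.factorization_card_M24 (by norm_num) ?_ S
  have hc : Nat.card (S0 M24 seq) = 2 ^ (Nat.card ↥M24).factorization 2 := by
    rw [C.card, hlen, M24S.factorization_card_M24]
  exact le_of_eq (M24S.normalizer_sylow_eq (Sylow.ofCard (S0 M24 seq) hc))

end Cfsg.Agent.H13.FusC.M24D
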