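import Cfsg.Agent.Lib.H24.FusGroup
import Cfsg.Agent.Lib.H13.Basic
import Cfsg.Agent.Lib.H13.CharP2

/-!
# A criterion for the fusion system of a finite group to be simple

If the Sylow subgroup is self-normalizing and has no proper nontrivial strongly closed subgroup, then
the fusion system is simple.
-/

set_option autoImplicit false
set_option linter.unusedSectionVars false

namespace Cfsg.Agent.H13.FusS

open Cfsg Cfsg.FusionSystem

variable {G : Type*} [Group G]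

theorem stronglyClosed_imp {S T : Subgroup G} (h : (groupFusionSystem S).StronglyClosed T) :
    T ≤ S ∧ ∀ t ∈ T, ∀ g : G, g * t * g⁻¹ ∈ S → g * t * g⁻¹ ∈ T := by
  refine ⟨h.1, fun t ht g hg => ?_⟩
  have hle : Subgroup.zpowers t ≤ S := (Subgroup.zpowers_le).2 (h.1 ht)
  have hφ : conjHom (Subgroup.zpowers t) g ∈ (groupFusionSystem S).Hom (Subgroup.zpowers t) := by
    refine ⟨hle, ?_, g, fun x => rfl⟩
    rintro ⟨x, k, rfl⟩
    show g * t ^ k * g⁻¹ ∈ S
    have e : g * t ^ k * g⁻¹ = (g * t * g⁻¹) ^ k := (conj_zpow).symm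
    rw [e]
    exact S.zpow_mem hg k
  exact h.2 _ ((Subgroup.zpowers_le).2 ht) _ hφ ⟨t, Subgroup.mem_zpowers t⟩

/-- Automorphisms of `S` in the system are inner when `S` is self-normalizing. -/
theorem autGroup_inner {S : Subgroup G}
    (hN : Subgroup.normalizer (S : Set G) ≤ S) {α : MulAut S} (hα : α ∈ (groupFusionSystem S).autGroup S) :
    ∃ s ∈ S, ∀ x : S, ((α x : S) : G) = s * (x : G) * s⁻¹ := by
  unfold autGroup at hα
  induction hα using Subgroup.closure_induction with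
  | mem β hβ =>
    obtain ⟨-, -, g, hg⟩ := hβ
    have hg' : ∀ x : S, ((β x : S) : G) = g * (x : G) * g⁻¹ := hg
    refine ⟨g, hN ?_, hg'⟩
    rw [Subgroup.mem_normalizer_iff]
    intro h
    constructor
    · intro hh
      rw [← hg' ⟨h, hh⟩]
      exact (β ⟨h, hh⟩).2
    · intro hh
      have h1 := hg' (β.symm ⟨_, hh⟩)
      rw [MulEquiv.apply_symm_apply] at h1
      have h2 : h = ((β.symm ⟨_, hh⟩ : S) : G) := by
        have h3 : g * h * g⁻¹ = g * ((β.symm ⟨_, hh⟩ : S) : G) * g⁻¹ := h1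
        exact mul_left_cancel (mul_right_cancel h3)
      rw [h2]
      exact (β.symm ⟨_, hh⟩).2
  | one => exact ⟨1, S.one_mem, fun x => by simp⟩
  | mul a b _ _ ha hb =>
    obtain ⟨s, hs, h1⟩ := ha
    obtain ⟨r, hr, h2⟩ := hb
    refine ⟨s * r, S.mul_mem hs hr, fun x => ?_⟩
    show (((a (b x)) : S) : G) = _
    rw [h1, h2]
    group
  | inv a _ ha =>
    obtain ⟨s, hs, h1⟩ := ha
    refine ⟨s⁻¹, S.inv_mem hs, fun x => ?_⟩
    have h2 := h1 (a⁻¹ x)
    have h3 : a (a⁻¹ x) = x := by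
      show a (a.symm x) = x
      exact MulEquiv.apply_symm_apply a x
    rw [h3] at h2
    rw [inv_inv, h2]
    group

/-- The criterion. -/
theorem isSimple_of [Finite G] (p : ℕ) [Fact p.Prime] (S : Sylow p G) (hne : (S : Subgroup G) ≠ ⊥)
    (hN : Subgroup.normalizer ((S : Subgroup G) : Set G) ≤ S)
    (hSC : ∀ T : Subgroup G, T ≤ S → (∀ t ∈ T, ∀ g : G, g * t * g⁻¹ ∈ (S : Subgroup G) → g * t * g⁻¹ ∈ T) →
      T = ⊥ ∨ T = S) :
    (groupFusionSystem (S : Subgroup G)).IsSimple p := by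
  refine ⟨Cfsg.Agent.H24.groupFusion_saturated S, hne, ?_⟩
  intro T E hE
  obtain ⟨⟨-, -, hsub, hSCl, -, hFr⟩, -⟩ := hE
  obtain ⟨hTS, hcl⟩ := stronglyClosed_imp hSCl
  rcases hSC T hTS hcl with h | h
  · exact Or.inl h
  · right
    subst h
    refine ⟨rfl, fun P => Set.Subset.antisymm (hsub P) ?_⟩
    intro φ hφ
    have hP : P ≤ (S : Subgroup G) := ((groupFusionSystem (S : Subgroup G)).le_of_mem hφ).1
    obtain ⟨α, hα, φ₀, hφ₀, hx⟩ := hFr P hP φ hφ
    obtain ⟨s, hs, hα'⟩ := autGroup_inner hN hα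
    have hQ : φ₀.range ≤ (S : Subgroup G) := by
      rintro _ ⟨x, rfl⟩
      exact (E.le_of_mem hφ₀).2 x
    have h1 := E.comp_mem hφ₀ (E.conj_mem hQ hs) (fun x => ⟨x, rfl⟩)
    have h2 : (conjHom φ₀.range s).comp (φ₀.codRestrict φ₀.range (fun x => ⟨x, rfl⟩)) = φ := by
      ext x
      have hxS : φ₀ x ∈ (S : Subgroup G) := (E.le_of_mem hφ₀).2 x
      rw [hx x hxS, hα']
      rfl
    rw [h2] at h1
    exact h1

/-- The hypotheses pass between Sylow subgroups. -/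
theorem conds_transport [Finite G] (p : ℕ) [Fact p.Prime] (S₀ S : Sylow p G)
    (hN₀ : Subgroup.normalizer ((S₀ : Subgroup G) : Set G) ≤ S₀)
    (hSC₀ : ∀ T : Subgroup G, T ≤ S₀ → (∀ t ∈ T, ∀ g : G, g * t * g⁻¹ ∈ (S₀ : Subgroup G) → g * t * g⁻¹ ∈ T) →
      T = ⊥ ∨ T = S₀) :
    (Subgroup.normalizer ((S : Subgroup G) : Set G) ≤ S) ∧
    (∀ T : Subgroup G, T ≤ S → (∀ t ∈ T, ∀ g : G, g * t * g⁻¹ ∈ (S : Subgroup G) → g * t * g⁻¹ ∈ T) →
      T = ⊥ ∨ T = S) := by
  obtain ⟨g, rfl⟩ := MulAction.exists_smul_eq G S₀ S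
  have hmem : ∀ x, x ∈ ((g • S₀ : Sylow p G) : Subgroup G) ↔ g⁻¹ * x * g ∈ (S₀ : Subgroup G) := by
    intro x
    have h1 : ((g • S₀ : Sylow p G) : Subgroup G) = (S₀ : Subgroup G).map (MulAut.conj g).toMonoidHom := rfl
    rw [h1, H13.mem_map_conj]
  constructor
  · intro x hx
    rw [hmem]
    apply hN₀
    rw [Subgroup.mem_normalizer_iff]
    intro t
    have h2 := (Subgroup.mem_normalizer_iff.1 hx) (g * t * g⁻¹)
    rw [hmem, hmem] at h2
    have e1 : g⁻¹ * (g * t * g⁻¹) * g = t := by group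
    have e2 : g⁻¹ * (x * (g * t * g⁻¹) * x⁻¹) * g = (g⁻¹ * x * g) * t * (g⁻¹ * x * g)⁻¹ := by group
    rw [e1, e2] at h2
    exact h2
  · intro T hT hcl
    let T' : Subgroup G := T.map (MulAut.conj g⁻¹).toMonoidHom
    have hT' : ∀ x, x ∈ T' ↔ g * x * g⁻¹ ∈ T := by
      intro x
      show x ∈ T.map (MulAut.conj g⁻¹).toMonoidHom ↔ _
      rw [H13.mem_map_conj, inv_inv]
    have hle : T' ≤ S₀ := by
      intro x hx
      have h1 := hT ((hT' x).1 hx)
      rw [hmem] at h1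
      have e : g⁻¹ * (g * x * g⁻¹) * g = x := by group
      rwa [e] at h1
    have hcl' : ∀ t ∈ T', ∀ h : G, h * t * h⁻¹ ∈ (S₀ : Subgroup G) → h * t * h⁻¹ ∈ T' := by
      intro t ht h hh
      rw [hT'] at ht ⊢
      have e : g * (h * t * h⁻¹) * g⁻¹ = (g * h * g⁻¹) * (g * t * g⁻¹) * (g * h * g⁻¹)⁻¹ := by group
      rw [e]
      apply hcl _ ht
      rw [← e, hmem]
      have e2 : g⁻¹ * (g * (h * t * h⁻¹) * g⁻¹) * g = h * t * h⁻¹ := by group
      rwa [e2]
    rcases hSC₀ T' hle hcl' with h | h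
    · left
      rw [eq_bot_iff]
      intro x hx
      have h1 : g⁻¹ * x * g ∈ T' := by
        rw [hT']
        have e : g * (g⁻¹ * x * g) * g⁻¹ = x := by group
        rwa [e]
      rw [h, Subgroup.mem_bot] at h1
      have e : x = g * (g⁻¹ * x * g) * g⁻¹ := by group
      rw [e, h1]
      simp
    · right
      apply le_antisymm hT
      intro x hx
      rw [hmem] at hx
      rw [← h] at hx
      rw [hT'] at hx
      have e : g * (g⁻¹ * x * g) * g⁻¹ = x := by group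
      rwa [e] at hx

/-- A nontrivial subgroup closed under fusion contains a nontrivial central element of `S`. -/
theorem exists_central [Finite G] (p : ℕ) [Fact p.Prime] {S T : Subgroup G} (hS : IsPGroup p S) (hTS : T ≤ S)
    (hT : T ≠ ⊥) (hcl : ∀ t ∈ T, ∀ g : G, g * t * g⁻¹ ∈ S → g * t * g⁻¹ ∈ T) :
    ∃ t ∈ T, t ≠ 1 ∧ ∀ s ∈ S, s * t = t * s := by
  have hn : S ≤ Subgroup.normalizer (T : Set G) := by
    intro s hs
    rw [Subgroup.mem_normalizer_iff]
    intro t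
    constructor
    · intro ht
      exact hcl t ht s (S.mul_mem (S.mul_mem hs (hTS ht)) (S.inv_mem hs))
    · intro ht
      have h1 := hcl _ ht s⁻¹ (S.mul_mem (S.mul_mem (S.inv_mem hs) (hTS ht)) (S.inv_mem (S.inv_mem hs)))
      have e : s⁻¹ * (s * t * s⁻¹) * s⁻¹⁻¹ = t := by group
      rwa [e] at h1
  have h := Cfsg.Agent.H13.inf_center_ne_bot_of_pgroup hS hTS hT hn
  rw [Subgroup.ne_bot_iff_exists_ne_one] at h
  obtain ⟨⟨t, h1, _, h2⟩, h3⟩ := h
  refine ⟨t, h1, fun h4 => h3 (Subtype.ext h4), fun s hs => ?_⟩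
  exact ((Subgroup.mem_centralizer_iff.1 h2) s hs)

end Cfsg.Agent.H13.FusS
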