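import Mathlib
import Cfsg.Prelude.Def_JComponents
import Cfsg.Agent.Lib.H13.Blocks2

/-!
# Four-group lemmas for `J(T)`-components
-/

set_option autoImplicit false

namespace Cfsg.Agent.H13.JCS

open Cfsg Cfsg.Agent.H13 Cfsg.Agent.H13.Blk
open scoped commutatorElement

variable {G : Type*} [Group G]

section four

variable {W : Subgroup G}

theorem four_comm (hW2 : ∀ w ∈ W, w * w = 1) {a b : G} (ha : a ∈ W) (hb : b ∈ W) : a * b = b * a := by
  have h1 := hW2 _ (W.mul_mem ha hb)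
  have h2 := hW2 a ha
  have h3 := hW2 b hb
  calc a * b = a * b * (b * a) * (b * a) := by
        rw [mul_assoc (a * b), hW2 _ (W.mul_mem hb ha), mul_one]
    _ = a * (b * b) * a * (b * a) := by group
    _ = b * a := by rw [h3, mul_one, h2, one_mul]

theorem four_cases [Finite G] (hW4 : Nat.card W = 4) (hW2 : ∀ w ∈ W, w * w = 1) {w₀ w₁ : G} (h0 : w₀ ∈ W)
    (h1 : w₁ ∈ W) (h01 : w₀ ≠ 1) (h11 : w₁ ≠ 1) (hne : w₁ ≠ w₀) :
    ∀ u ∈ W, u = 1 ∨ u = w₀ ∨ u = w₁ ∨ u = w₁ * w₀ := by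
  classical
  set s : Finset G := {1, w₀, w₁, w₁ * w₀} with hs
  have hcard : s.card = 4 := by
    have n1 : w₁ * w₀ ≠ 1 := by
      intro h
      apply hne
      have := hW2 w₀ h0
      calc w₁ = w₁ * (w₀ * w₀) := by rw [this, mul_one]
        _ = (w₁ * w₀) * w₀ := by group
        _ = w₀ := by rw [h, one_mul]
    have n2 : w₁ * w₀ ≠ w₀ := by
      intro h
      exact h11 (mul_eq_right.mp h)
    have n3 : w₁ * w₀ ≠ w₁ := by
      intro h
      exact h01 (mul_eq_left.mp h)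
    rw [hs, Finset.card_insert_of_notMem, Finset.card_insert_of_notMem, Finset.card_insert_of_notMem,
      Finset.card_singleton]
    · simp only [Finset.mem_singleton]
      exact fun h => n3 h.symm
    · simp only [Finset.mem_insert, Finset.mem_singleton, not_or]
      exact ⟨fun h => hne h.symm, fun h => n2 h.symm⟩
    · simp only [Finset.mem_insert, Finset.mem_singleton, not_or]
      exact ⟨fun h => h01 h.symm, fun h => h11 h.symm, fun h => n1 h.symm⟩
  have hsub : (s : Set G) ⊆ (W : Set G) := by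
    intro x hx
    simp only [hs, Finset.coe_insert, Finset.coe_singleton, Set.mem_insert_iff, Set.mem_singleton_iff] at hx
    rcases hx with rfl | rfl | rfl | rfl
    · exact W.one_mem
    · exact h0
    · exact h1
    · exact W.mul_mem h1 h0
  have hle : (W : Set G).ncard ≤ (s : Set G).ncard := by
    rw [Set.ncard_coe_finset, hcard, ← Nat.card_coe_set_eq]
    exact le_of_eq hW4
  have heq := Set.eq_of_subset_of_ncard_le hsub hle (Set.toFinite _)
  intro u hu
  have : u ∈ (s : Set G) := by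
    rw [heq]
    exact hu
  simpa [hs] using this

theorem mem_centralizer_of_conj {a : G} (h : ∀ w ∈ W, a * w * a⁻¹ = w) :
    a ∈ Subgroup.centralizer (W : Set G) := by
  rw [Subgroup.mem_centralizer_iff]
  intro w hw
  calc w * a = (a * w * a⁻¹) * a := by rw [h w hw]
    _ = a * w := by group

theorem conj_eq_of_mem_centralizer {a : G} (h : a ∈ Subgroup.centralizer (W : Set G)) {w : G} (hw : w ∈ W) :
    a * w * a⁻¹ = w := by
  rw [← Subgroup.mem_centralizer_iff.mp h w hw]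
  group

/-- Conjugation by an element of the normalizer preserves the centralizer. -/
theorem conj_mem_centralizer {g x : G} (hg : g ∈ Subgroup.normalizer (W : Set G))
    (hx : x ∈ Subgroup.centralizer (W : Set G)) : g * x * g⁻¹ ∈ Subgroup.centralizer (W : Set G) := by
  rw [Subgroup.mem_centralizer_iff] at hx ⊢
  intro w hw
  have h1 : g⁻¹ * w * g ∈ W := by
    have := (Subgroup.mem_normalizer_iff.mp (Subgroup.inv_mem _ hg) w).mp hw
    simpa using this
  have h2 := hx _ h1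
  calc w * (g * x * g⁻¹) = g * ((g⁻¹ * w * g) * x) * g⁻¹ := by group
    _ = g * (x * (g⁻¹ * w * g)) * g⁻¹ := by rw [h2]
    _ = g * x * g⁻¹ * w := by group

/-- In `Aut` of a four-group two commuting nontrivial involutions act the same way. -/
theorem four_act [Finite G] (hW4 : Nat.card W = 4) (hW2 : ∀ w ∈ W, w * w = 1) {a x : G}
    (ha : a ∈ Subgroup.normalizer (W : Set G)) (hx : x ∈ Subgroup.normalizer (W : Set G)) (haa : a * a = 1)
    (hax : a * x = x * a) (ha' : a ∉ Subgroup.centralizer (W : Set G))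
    (hx' : x ∉ Subgroup.centralizer (W : Set G)) : a * x ∈ Subgroup.centralizer (W : Set G) := by
  have ha1 : a⁻¹ = a := inv_eq_of_mul_eq_one_left haa
  obtain ⟨w₁, h1, hmv⟩ : ∃ w₁ ∈ W, a * w₁ * a⁻¹ ≠ w₁ := by
    by_contra hcon
    push Not at hcon
    exact ha' (mem_centralizer_of_conj hcon)
  have hcw : ∀ {a b : G}, a ∈ W → b ∈ W → a * b = b * a := fun ha hb => four_comm hW2 ha hb
  have hconjW : ∀ g ∈ Subgroup.normalizer (W : Set G), ∀ u ∈ W, g * u * g⁻¹ ∈ W :=
    fun g hg u hu => (Subgroup.mem_normalizer_iff.mp hg u).mp hu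
  set v := a * w₁ * a⁻¹ with hv
  have hvW : v ∈ W := hconjW a ha _ h1
  set w₀ := w₁ * v with hw₀
  have h0 : w₀ ∈ W := W.mul_mem h1 hvW
  have haw₁ : a * w₁ * a⁻¹ = w₁ * w₀ := by
    rw [hw₀, ← mul_assoc, hW2 _ h1, one_mul]
  have hav : a * v * a⁻¹ = w₁ := by
    rw [hv, ha1]
    calc a * (a * w₁ * a) * a = (a * a) * w₁ * (a * a) := by group
      _ = w₁ := by rw [haa]; group
  have haw₀ : a * w₀ * a⁻¹ = w₀ := by
    rw [hw₀]
    calc a * (w₁ * v) * a⁻¹ = (a * w₁ * a⁻¹) * (a * v * a⁻¹) := by group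
      _ = v * w₁ := by rw [hav]
      _ = w₁ * v := hcw hvW h1
  have h01 : w₀ ≠ 1 := by
    intro h
    apply hmv
    have h3 : w₁ * v = 1 := h
    have h4 := hW2 w₁ h1
    calc v = w₁ * w₁ * v := by rw [h4, one_mul]
      _ = w₁ * (w₁ * v) := by group
      _ = w₁ := by rw [h3, mul_one]
  have h11 : w₁ ≠ 1 := by
    intro h
    exact hmv (by rw [h, hv, h]; group)
  have hne : w₁ ≠ w₀ := by
    intro h
    exact hmv (by
      calc v = a * w₁ * a⁻¹ := hv
        _ = a * w₀ * a⁻¹ := by rw [← h]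
        _ = w₀ := haw₀
        _ = w₁ := h.symm)
  have hcases := four_cases hW4 hW2 h0 h1 h01 h11 hne
  -- `x` fixes `w₀`
  have hxw₀ : x * w₀ * x⁻¹ = w₀ := by
    have hfix : a * (x * w₀ * x⁻¹) * a⁻¹ = x * w₀ * x⁻¹ := by
      have e : a⁻¹ * x⁻¹ = x⁻¹ * a⁻¹ := by
        rw [← mul_inv_rev, ← mul_inv_rev, hax]
      calc a * (x * w₀ * x⁻¹) * a⁻¹ = (a * x) * w₀ * (x⁻¹ * a⁻¹) := by group
        _ = (x * a) * w₀ * (a⁻¹ * x⁻¹) := by rw [hax, e]
        _ = x * (a * w₀ * a⁻¹) * x⁻¹ := by group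
        _ = _ := by rw [haw₀]
    rcases hcases _ (hconjW x hx _ h0) with h | h | h | h
    · exfalso
      apply h01
      have : x * w₀ * x⁻¹ * x = x := by rw [h, one_mul]
      simpa [mul_assoc] using this
    · exact h
    · exfalso
      rw [h] at hfix
      exact hmv hfix
    · exfalso
      rw [h] at hfix
      have e : a * (w₁ * w₀) * a⁻¹ = (a * w₁ * a⁻¹) * (a * w₀ * a⁻¹) := by group
      rw [e, haw₁, haw₀] at hfix
      have : w₁ * w₀ * w₀ = w₁ := by
        rw [mul_assoc, hW2 _ h0, mul_one]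
      rw [this] at hfix
      exact h01 (mul_eq_left.mp hfix.symm)
  -- `x` moves `w₁` to `w₁ w₀`
  have hxw₁ : x * w₁ * x⁻¹ = w₁ * w₀ := by
    rcases hcases _ (hconjW x hx _ h1) with h | h | h | h
    · exfalso
      apply h11
      have : x * w₁ * x⁻¹ * x = x := by rw [h, one_mul]
      simpa [mul_assoc] using this
    · exfalso
      apply hne
      have h5 : x * w₁ * x⁻¹ = x * w₀ * x⁻¹ := by rw [h, hxw₀]
      simpa using h5
    · exfalso
      apply hx'
      rw [Subgroup.mem_centralizer_iff]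
      intro u hu
      have hu2 : x * u * x⁻¹ = u := by
        rcases hcases u hu with e0 | e0 | e0 | e0 <;> rw [e0]
        · group
        · exact hxw₀
        · exact h
        · have e : x * (w₁ * w₀) * x⁻¹ = (x * w₁ * x⁻¹) * (x * w₀ * x⁻¹) := by group
          rw [e, h, hxw₀]
      calc u * x = (x * u * x⁻¹) * x := by rw [hu2]
        _ = x * u := by group
    · exact h
  -- conclude
  rw [Subgroup.mem_centralizer_iff]
  intro u hu
  have hu2 : (a * x) * u * (a * x)⁻¹ = u := by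
    have e : (a * x) * u * (a * x)⁻¹ = a * (x * u * x⁻¹) * a⁻¹ := by group
    rw [e]
    rcases hcases u hu with e0 | e0 | e0 | e0 <;> rw [e0]
    · group
    · rw [hxw₀, haw₀]
    · rw [hxw₁]
      have e2 : a * (w₁ * w₀) * a⁻¹ = (a * w₁ * a⁻¹) * (a * w₀ * a⁻¹) := by group
      rw [e2, haw₁, haw₀, mul_assoc, hW2 _ h0, mul_one]
    · have e : x * (w₁ * w₀) * x⁻¹ = (x * w₁ * x⁻¹) * (x * w₀ * x⁻¹) := by group
      have e3 : w₁ * w₀ * w₀ = w₁ := by rw [mul_assoc, hW2 _ h0, mul_one]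
      rw [e, hxw₁, hxw₀, e3, haw₁]
  calc u * (a * x) = ((a * x) * u * (a * x)⁻¹) * (a * x) := by rw [hu2]
    _ = (a * x) * u := by group

/-- Commuting subgroups: elements of the join are products. -/
theorem mem_sup_of_comm {B W : Subgroup G} (hc : B ≤ Subgroup.centralizer (W : Set G)) {x : G}
    (hx : x ∈ B ⊔ W) : ∃ b ∈ B, ∃ w ∈ W, x = b * w := by
  let P : Subgroup G :=
    { carrier := {x | ∃ b ∈ B, ∃ w ∈ W, x = b * w}
      mul_mem' := by
        rintro _ _ ⟨b, hb, w, hw, rfl⟩ ⟨b', hb', w', hw', rfl⟩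
        refine ⟨b * b', B.mul_mem hb hb', w * w', W.mul_mem hw hw', ?_⟩
        have := Subgroup.mem_centralizer_iff.mp (hc hb') w hw
        calc b * w * (b' * w') = b * (w * b') * w' := by group
          _ = b * (b' * w) * w' := by rw [this]
          _ = _ := by group
      one_mem' := ⟨1, B.one_mem, 1, W.one_mem, by simp⟩
      inv_mem' := by
        rintro _ ⟨b, hb, w, hw, rfl⟩
        refine ⟨b⁻¹, B.inv_mem hb, w⁻¹, W.inv_mem hw, ?_⟩
        have := Subgroup.mem_centralizer_iff.mp (hc hb) w hw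
        have h2 : b * w = w * b := this.symm
        rw [h2, mul_inv_rev] }
  have h : B ⊔ W ≤ P := sup_le (fun b hb => ⟨b, hb, 1, W.one_mem, by simp⟩)
    (fun w hw => ⟨1, B.one_mem, w, hw, by simp⟩)
  exact h hx

/-- The exchange inequality: `|A| ≤ |C_A(W) W|` for `A` elementary abelian normalizing a four-group. -/
theorem card_le_exchange [Finite G] (hW4 : Nat.card W = 4) (hW2 : ∀ w ∈ W, w * w = 1) {A : Subgroup G}
    (hAc : ∀ a ∈ A, ∀ b ∈ A, a * b = b * a) (hA2 : ∀ a ∈ A, a ^ 2 = 1)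
    (hAW : A ≤ Subgroup.normalizer (W : Set G)) (hA' : ¬ A ≤ Subgroup.centralizer (W : Set G)) :
    Nat.card A ≤ Nat.card ↥((A ⊓ Subgroup.centralizer (W : Set G)) ⊔ W) := by
  classical
  obtain ⟨a, haA, haC⟩ := Set.not_subset.mp hA'
  obtain ⟨w₁, h1, hmv⟩ : ∃ w₁ ∈ W, a * w₁ * a⁻¹ ≠ w₁ := by
    by_contra hcon
    push Not at hcon
    exact haC (mem_centralizer_of_conj hcon)
  set B := A ⊓ Subgroup.centralizer (W : Set G) with hB
  have key : ∀ x ∈ A, x ∉ Subgroup.centralizer (W : Set G) → x * a ∈ Subgroup.centralizer (W : Set G) := by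
    intro x hx hxC
    have haa : a * a = 1 := by rw [← pow_two]; exact hA2 a haA
    have := four_act hW4 hW2 (hAW haA) (hAW hx) haa (hAc a haA x hx) haC hxC
    rwa [hAc a haA x hx] at this
  let φ : ↥A → ↥(B ⊔ W) := fun x =>
    if h : (x : G) ∈ Subgroup.centralizer (W : Set G) then
      ⟨x, Subgroup.mem_sup_left (Subgroup.mem_inf.mpr ⟨x.2, h⟩)⟩
    else
      ⟨w₁ * ((x : G) * a), (B ⊔ W).mul_mem (Subgroup.mem_sup_right h1)
        (Subgroup.mem_sup_left (Subgroup.mem_inf.mpr ⟨A.mul_mem x.2 haA, key x x.2 h⟩))⟩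
  have hnot : w₁ ∉ A := by
    intro hw
    apply hmv
    rw [hAc a haA w₁ hw]
    group
  have hφ : Function.Injective φ := by
    intro x y hxy
    by_cases hx : (x : G) ∈ Subgroup.centralizer (W : Set G) <;>
      by_cases hy : (y : G) ∈ Subgroup.centralizer (W : Set G)
    · have := congrArg Subtype.val hxy
      simp only [φ, dif_pos hx, dif_pos hy] at this
      exact Subtype.ext this
    · exfalso
      have := congrArg Subtype.val hxy
      simp only [φ, dif_pos hx, dif_neg hy] at this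
      apply hnot
      have e : w₁ = (x : G) * ((y : G) * a)⁻¹ := by
        rw [this]
        group
      rw [e]
      exact A.mul_mem x.2 (A.inv_mem (A.mul_mem y.2 haA))
    · exfalso
      have := congrArg Subtype.val hxy
      simp only [φ, dif_neg hx, dif_pos hy] at this
      apply hnot
      have e : w₁ = (y : G) * ((x : G) * a)⁻¹ := by
        rw [← this]
        group
      rw [e]
      exact A.mul_mem y.2 (A.inv_mem (A.mul_mem x.2 haA))
    · have := congrArg Subtype.val hxy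
      simp only [φ, dif_neg hx, dif_neg hy] at this
      have h2 := mul_left_cancel this
      exact Subtype.ext (mul_right_cancel h2)
  exact Nat.card_le_card_of_injective φ hφ

end four

section main

variable [Finite G] {J K : Subgroup G}

omit [Finite G] in
theorem le_normalizer_of_comm_eq [Finite G] (hKJ : ⁅K, J⁆ = K) : J ≤ Subgroup.normalizer (K : Set G) := by
  intro j hj
  apply mem_normalizer_of_map_conj_le
  rintro _ ⟨k, hk, rfl⟩
  have h1 : ⁅k⁻¹, j⁆ ∈ K := by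
    have h0 : ⁅k⁻¹, j⁆ ∈ ⁅K, J⁆ := Subgroup.commutator_mem_commutator (K.inv_mem hk) hj
    rwa [hKJ] at h0
  have h2 := K.mul_mem hk h1
  have e : k * ⁅k⁻¹, j⁆ = j * k * j⁻¹ := by
    rw [commutatorElement_def]
    group
  rw [e] at h2
  exact h2

theorem omega_normalized : Subgroup.normalizer (K : Set G) ≤
    Subgroup.normalizer (omegaCenterOf (pCoreOf 2 K) : Set G) := fun _ hg =>
  omegaOneCenter_norm (p := 2) _ (normalizer_le_normalizer_pCoreOf K hg)

theorem wOf_normalized : Subgroup.normalizer (K : Set G) ≤ Subgroup.normalizer (wOf K : Set G) := by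
  intro g hg
  apply mem_normalizer_of_map_conj_eq
  unfold wOf
  rw [Subgroup.map_commutator, map_conj_eq_of_mem_normalizer hg, map_conj_eq_of_mem_normalizer (omega_normalized hg)]

theorem wOf_le_omega : wOf K ≤ omegaCenterOf (pCoreOf 2 K) :=
  commutator_le_left_of_le_normalizer (Subgroup.le_normalizer.trans omega_normalized)

theorem omega_comm_core {a o : G} (ha : a ∈ omegaCenterOf (pCoreOf 2 K)) (ho : o ∈ pCoreOf 2 K) :
    a * o = o * a := by
  have h := omegaOneCenter_le (p := 2) _ ha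
  exact (Subgroup.mem_centralizer_iff.mp h.2 o ho).symm

theorem exists_odd_not_core (hKodd : Subgroup.closure {g : G | g ∈ K ∧ Odd (orderOf g)} = K)
    (hidx : (pCoreOf 2 K).relIndex K = 3) : ∃ y ∈ K, Odd (orderOf y) ∧ y ∉ pCoreOf 2 K := by
  by_contra hcon
  push Not at hcon
  have h : K ≤ pCoreOf 2 K := by
    have h0 : Subgroup.closure {g : G | g ∈ K ∧ Odd (orderOf g)} ≤ pCoreOf 2 K := by
      rw [Subgroup.closure_le]
      rintro g ⟨h1, h2⟩
      exact hcon g h1 h2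
    rwa [hKodd] at h0
  have := Subgroup.relIndex_eq_one.mpr h
  omega

theorem le_of_index_three {O X : Subgroup G} (hidx : O.relIndex K = 3) (hOK : O ≤ K) (hOX : O ≤ X) {y : G} (hyX : y ∈ X)
    (hyK : y ∈ K) (hyO : y ∉ O) : K ≤ X := by
  have h1 : O ≤ X ⊓ K := le_inf hOX hOK
  have h2 : X ⊓ K ≤ K := inf_le_right
  have h3 := Subgroup.relIndex_mul_relIndex O (X ⊓ K) K h1 h2
  rw [hidx] at h3
  have h4 : (X ⊓ K).relIndex K ∣ 3 := ⟨_, by rw [mul_comm]; exact h3.symm⟩
  rcases (Nat.dvd_prime Nat.prime_three).mp h4 with h5 | h5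
  · have := Subgroup.relIndex_eq_one.mp h5
    exact this.trans inf_le_left
  · rw [h5] at h3
    have h6 : O.relIndex (X ⊓ K) = 1 := by omega
    have h7 := Subgroup.relIndex_eq_one.mp h6
    exact absurd (h7 (Subgroup.mem_inf.mpr ⟨hyX, hyK⟩)) hyO

omit [Finite G] in
theorem comm_of_sq_comm {y a : G} (hy : Odd (orderOf y)) (h : (y * y) * a = a * (y * y)) : y * a = a * y := by
  obtain ⟨m, hm⟩ := hy
  have e : (y * y) ^ (m + 1) = y := by
    rw [← pow_two, ← pow_mul]
    have : 2 * (m + 1) = orderOf y + 1 := by omega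
    rw [this, pow_succ, pow_orderOf_eq_one, one_mul]
  have hc : Commute (y * y) a := h
  have := hc.pow_left (m + 1)
  rw [e] at this
  exact this

theorem y_not_centr (hW4 : Nat.card ↥(wOf K) = 4) (hidx : (pCoreOf 2 K).relIndex K = 3) {y : G} (hyK : y ∈ K)
    (hy : Odd (orderOf y)) (hyO : y ∉ pCoreOf 2 K) : y ∉ Subgroup.centralizer (wOf K : Set G) := by
  intro hyC
  set A := omegaCenterOf (pCoreOf 2 K) with hA
  have hAc : ∀ a ∈ A, ∀ b ∈ A, a * b = b * a := fun a ha b hb => omegaOneCenter_comm (p := 2) _ ha hb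
  have hA2 : ∀ a ∈ A, a * a = 1 := fun a ha => by
    rw [← pow_two]
    exact omegaOneCenter_pow (p := 2) _ ha
  have hKA : K ≤ Subgroup.normalizer (A : Set G) := Subgroup.le_normalizer.trans omega_normalized
  have hconj : ∀ a ∈ A, y * a * y⁻¹ ∈ A := fun a ha => (Subgroup.mem_normalizer_iff.mp (hKA hyK) a).mp ha
  have hyA : y ∈ Subgroup.centralizer (A : Set G) := by
    rw [Subgroup.mem_centralizer_iff]
    intro a ha
    have hainv : a⁻¹ = a := inv_eq_of_mul_eq_one_left (hA2 a ha)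
    set v := y * a * y⁻¹ with hv
    have hvA : v ∈ A := hconj a ha
    have hvinv : v⁻¹ = v := inv_eq_of_mul_eq_one_left (hA2 v hvA)
    have hw : a * v ∈ wOf K := by
      have h0 : ⁅a, y⁆ ∈ wOf K := Subgroup.commutator_mem_commutator ha hyK
      have e : ⁅a, y⁆ = a * v := by
        rw [commutatorElement_def, ← hvinv, hv]
        group
      rwa [e] at h0
    have hfix := conj_eq_of_mem_centralizer hyC hw
    have e2 : y * (a * v) * y⁻¹ = v * (y * v * y⁻¹) := by
      rw [hv]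
      group
    rw [e2] at hfix
    have hv2A : y * v * y⁻¹ ∈ A := hconj v hvA
    have h3 : y * v * y⁻¹ = a := by
      have h4 : v * (y * v * y⁻¹) = v * a := by rw [hfix]; exact hAc a ha v hvA
      exact mul_left_cancel h4
    have h5 : (y * y) * a = a * (y * y) := by
      have h6 : y * (y * a * y⁻¹) * y⁻¹ = a := h3
      calc (y * y) * a = (y * (y * a * y⁻¹) * y⁻¹) * (y * y) := by group
        _ = a * (y * y) := by rw [h6]
    exact (comm_of_sq_comm hy h5).symm
  have hOK : pCoreOf 2 K ≤ K := pCoreOf_le K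
  have hOC : pCoreOf 2 K ≤ Subgroup.centralizer (A : Set G) := by
    intro o ho
    rw [Subgroup.mem_centralizer_iff]
    intro a ha
    exact omega_comm_core ha ho
  have hKC := le_of_index_three hidx hOK hOC hyA hyK hyO
  have hbot : wOf K = ⊥ := by
    unfold wOf
    rw [Subgroup.commutator_eq_bot_iff_le_centralizer, Subgroup.le_centralizer_iff]
    exact hKC
  rw [hbot] at hW4
  simp at hW4

theorem y_fpf (hW4 : Nat.card ↥(wOf K) = 4) (hW2 : ∀ w ∈ wOf K, w * w = 1) {y : G}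
    (hyN : y ∈ Subgroup.normalizer (wOf K : Set G)) (hy : Odd (orderOf y))
    (hyC : y ∉ Subgroup.centralizer (wOf K : Set G)) {w₀ : G} (h0 : w₀ ∈ wOf K) (hfix : y * w₀ * y⁻¹ = w₀) :
    w₀ = 1 := by
  by_contra h01
  obtain ⟨w₁, h1, hmv⟩ : ∃ w₁ ∈ wOf K, y * w₁ * y⁻¹ ≠ w₁ := by
    by_contra hcon
    push Not at hcon
    exact hyC (mem_centralizer_of_conj hcon)
  have h11 : w₁ ≠ 1 := by
    intro h
    exact hmv (by rw [h]; group)
  have hne : w₁ ≠ w₀ := by
    intro h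
    exact hmv (by rw [h]; exact hfix)
  have hcases := four_cases hW4 hW2 h0 h1 h01 h11 hne
  have hv : y * w₁ * y⁻¹ = w₁ * w₀ := by
    rcases hcases _ ((Subgroup.mem_normalizer_iff.mp hyN w₁).mp h1) with h | h | h | h
    · exfalso
      apply h11
      have : y * w₁ * y⁻¹ * y = y := by rw [h, one_mul]
      simpa [mul_assoc] using this
    · exfalso
      apply hne
      have h5 : y * w₁ * y⁻¹ = y * w₀ * y⁻¹ := by rw [h, hfix]
      simpa using h5
    · exact absurd h hmv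
    · exact h
  apply hmv
  have h5 : y * (y * w₁ * y⁻¹) * y⁻¹ = w₁ := by
    rw [hv]
    have e : y * (w₁ * w₀) * y⁻¹ = (y * w₁ * y⁻¹) * (y * w₀ * y⁻¹) := by group
    rw [e, hv, hfix, mul_assoc, hW2 _ h0, mul_one]
  have h6 : (y * y) * w₁ = w₁ * (y * y) := by
    calc (y * y) * w₁ = (y * (y * w₁ * y⁻¹) * y⁻¹) * (y * y) := by group
      _ = w₁ * (y * y) := by rw [h5]
  have h7 := comm_of_sq_comm hy h6
  rw [h7]
  group

theorem J_not_centr {W : Subgroup G} (hKJ : ⁅K, J⁆ = K) (hKN : K ≤ Subgroup.normalizer (W : Set G)) {y : G} (hyK : y ∈ K)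
    (hyC : y ∉ Subgroup.centralizer (W : Set G)) : ¬ J ≤ Subgroup.centralizer (W : Set G) := by
  intro hJ
  apply hyC
  have h : ⁅K, J⁆ ≤ Subgroup.centralizer (W : Set G) := by
    rw [Subgroup.commutator_le]
    intro k hk j hj
    rw [commutatorElement_def]
    exact Subgroup.mul_mem _ (conj_mem_centralizer (hKN hk) (hJ hj)) (Subgroup.inv_mem _ (hJ hj))
  rw [hKJ] at h
  exact h hyK

theorem centralizer_two {W : Subgroup G} (hJ : IsPGroup 2 J) (hJN : J ≤ Subgroup.normalizer (K : Set G))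
    (hidx : (pCoreOf 2 K).relIndex K = 3)
    (hOC : pCoreOf 2 K ≤ Subgroup.centralizer (W : Set G)) (hnK : ¬ K ≤ Subgroup.centralizer (W : Set G)) :
    IsPGroup 2 ↥((K ⊔ J) ⊓ Subgroup.centralizer (W : Set G)) := by
  set C := (K ⊔ J) ⊓ Subgroup.centralizer (W : Set G) with hC
  have hprime : ∀ q : ℕ, q.Prime → q ∣ Nat.card C → q = 2 := by
    intro q hq hdvd
    by_contra hq2
    haveI : Fact q.Prime := ⟨hq⟩
    obtain ⟨x, hx⟩ := exists_prime_orderOf_dvd_card' q hdvd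
    have hxo : orderOf (x : G) = q := by rwa [Subgroup.orderOf_coe]
    have hco : Nat.Coprime (orderOf (x : G)) 2 := by
      rw [hxo]
      exact (Nat.coprime_primes hq Nat.prime_two).mpr hq2
    have hxK : (x : G) ∈ K := coprime_mem_of_mem_sup' hJN hJ (Subgroup.mem_inf.mp x.2).1 hco
    have hxO : (x : G) ∉ pCoreOf 2 K := by
      intro hxO
      obtain ⟨n, hn⟩ := isPGroup_pCoreOf (p := 2) K ⟨x, hxO⟩
      have h1 : (x : G) ^ 2 ^ n = 1 := congrArg Subtype.val hn
      have h2 := orderOf_dvd_of_pow_eq_one h1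
      rw [hxo] at h2
      exact hq2 ((Nat.prime_dvd_prime_iff_eq hq Nat.prime_two).mp (hq.dvd_of_dvd_pow h2))
    exact hnK (le_of_index_three hidx (pCoreOf_le K) hOC (Subgroup.mem_inf.mp x.2).2 hxK hxO)
  have hne : Nat.card C ≠ 0 := Nat.card_pos.ne'
  have := Nat.eq_prime_pow_of_unique_prime_dvd hne (fun {q} hq hd => hprime q hq hd)
  exact IsPGroup.of_card this

/-- A Sylow 2-subgroup of `L` containing `J`. -/
theorem exists_sylow_in {L : Subgroup G} (hJL : J ≤ L) (hJ : IsPGroup 2 J) {C : Subgroup G} (hCL : C ≤ L)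
    (hCn : L ≤ Subgroup.normalizer (C : Set G)) (hC : IsPGroup 2 C) :
    ∃ S : Subgroup G, IsSylowTwoIn S L ∧ J ≤ S ∧ C ≤ S := by
  have hJ' : IsPGroup 2 ↥(J.subgroupOf L) := hJ.comap_subtype
  obtain ⟨Q, hQ⟩ := hJ'.exists_le_sylow
  refine ⟨(Q : Subgroup ↥L).map L.subtype, ⟨Subgroup.map_subtype_le _, ?_, ?_⟩, ?_, ?_⟩
  · exact Q.isPGroup'.map L.subtype
  · have h1 : ((Q : Subgroup ↥L).map L.subtype).subgroupOf L = (Q : Subgroup ↥L) :=
      Subgroup.comap_map_eq_self_of_injective L.subtype_injective _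
    have h2 : ((Q : Subgroup ↥L).map L.subtype).relIndex L = (Q : Subgroup ↥L).index := by
      unfold Subgroup.relIndex
      rw [h1]
    rw [h2, ← Nat.not_even_iff_odd, even_iff_two_dvd]
    exact Q.not_dvd_index
  · intro j hj
    exact ⟨⟨j, hJL hj⟩, hQ (by simpa [Subgroup.mem_subgroupOf] using hj), rfl⟩
  · have hn : (C.subgroupOf L).Normal := by
      constructor
      intro a ha g
      rw [Subgroup.mem_subgroupOf] at ha ⊢
      exact (Subgroup.mem_normalizer_iff.mp (hCn g.2) _).mp ha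
    have h3 : C.subgroupOf L ≤ (Q : Subgroup ↥L) :=
      (le_pCore hn hC.comap_subtype).trans (pCore_le_sylow Q)
    intro c hc
    exact ⟨⟨c, hCL hc⟩, h3 (by simpa [Subgroup.mem_subgroupOf] using hc), rfl⟩

/-- The main theorem on `Ω₁(Z(J))` and a `J`-component. -/
theorem main_split (hJ : IsPGroup 2 J) (hKodd : Subgroup.closure {g : G | g ∈ K ∧ Odd (orderOf g)} = K)
    (hKJ : ⁅K, J⁆ = K) (hidx : (pCoreOf 2 K).relIndex K = 3)
    (hS : ∀ S : Subgroup G, IsSylowTwoIn S (K ⊔ J) → J ≤ S → thompsonSubgroupOf 2 S = J)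
    (hW4 : Nat.card ↥(wOf K) = 4) (hW2 : ∀ w ∈ wOf K, w * w = 1) :
    Nat.card ↥(omegaCenterOf J ⊓ wOf K) = 2 ∧
      (omegaCenterOf J ⊓ ((K ⊔ J) ⊓ Subgroup.centralizer ((K ⊔ J : Subgroup G) : Set G))) ⊔
        (omegaCenterOf J ⊓ wOf K) = omegaCenterOf J := by
  classical
  have hJN : J ≤ Subgroup.normalizer (K : Set G) := le_normalizer_of_comm_eq hKJ
  obtain ⟨y, hyK, hyodd, hyO⟩ := exists_odd_not_core hKodd hidx
  have hyC := y_not_centr hW4 hidx hyK hyodd hyO
  generalize hWdef : wOf K = W at *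
  generalize hOdef : pCoreOf 2 K = O at *
  generalize hLdef : K ⊔ J = L at *
  have hOK : O ≤ K := hOdef ▸ pCoreOf_le K
  have hKL : K ≤ L := hLdef ▸ le_sup_left
  have hJL : J ≤ L := hLdef ▸ le_sup_right
  have hLK : L ≤ Subgroup.normalizer (K : Set G) := hLdef ▸ sup_le Subgroup.le_normalizer hJN
  have hLW : L ≤ Subgroup.normalizer (W : Set G) := hWdef ▸ hLK.trans wOf_normalized
  have hWO : W ≤ O := by
    rw [← hWdef, ← hOdef]
    exact wOf_le_omega.trans ((omegaOneCenter_le (p := 2) _).trans inf_le_left)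
  have hOC : O ≤ Subgroup.centralizer (W : Set G) := by
    intro o ho
    rw [Subgroup.mem_centralizer_iff]
    intro w hw
    rw [← hWdef] at hw
    rw [← hOdef] at ho
    exact omega_comm_core (wOf_le_omega hw) ho
  have hyN : y ∈ Subgroup.normalizer (W : Set G) := hLW (hKL hyK)
  have hfpf : ∀ w ∈ W, y * w * y⁻¹ = w → w = 1 := by
    intro w hw hfix
    subst hWdef
    exact y_fpf hW4 hW2 hyN hyodd hyC hw hfix
  have hJC : ¬ J ≤ Subgroup.centralizer (W : Set G) :=
    J_not_centr hKJ (hKL.trans hLW) hyK hyC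
  have hnK : ¬ K ≤ Subgroup.centralizer (W : Set G) := fun h => hyC (h hyK)
  have hC2 : IsPGroup 2 ↥(L ⊓ Subgroup.centralizer (W : Set G)) := by
    subst hLdef hOdef
    exact centralizer_two hJ hJN hidx hOC hnK
  generalize hCdef : L ⊓ Subgroup.centralizer (W : Set G) = C at *
  have hCL : C ≤ L := hCdef ▸ inf_le_left
  have hCC : C ≤ Subgroup.centralizer (W : Set G) := hCdef ▸ inf_le_right
  have hWab : W ≤ Subgroup.centralizer (W : Set G) := by
    intro w hw
    rw [Subgroup.mem_centralizer_iff]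
    intro w' hw'
    exact four_comm hW2 hw' hw
  have hWC : W ≤ C := by
    rw [← hCdef]
    exact le_inf (hWO.trans (hOK.trans hKL)) hWab
  have hOCC : O ≤ C := by
    rw [← hCdef]
    exact le_inf (hOK.trans hKL) hOC
  have hCn : L ≤ Subgroup.normalizer (C : Set G) := by
    intro g hg
    apply mem_normalizer_of_map_conj_le
    rintro _ ⟨x, hx, rfl⟩
    rw [← hCdef] at hx ⊢
    exact Subgroup.mem_inf.mpr ⟨L.mul_mem (L.mul_mem hg hx.1) (L.inv_mem hg),
      conj_mem_centralizer (hLW hg) hx.2⟩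
  obtain ⟨S, hSyl, hJS, hCS⟩ := exists_sylow_in hJL hJ hCL hCn hC2
  have hth := hS S (hLdef ▸ hSyl) hJS
  set Fm := H14.elFam G 2 with hFm
  have hjj : Fm.jj S = J := by
    rw [← H14.thompsonSubgroupOf_eq_jj]
    exact hth
  have hSL : S ≤ L := hSyl.1
  have hSN : S ≤ Subgroup.normalizer (W : Set G) := hSL.trans hLW
  have hFW : Fm.F W := ⟨fun a ha b hb => four_comm hW2 ha hb, fun a ha => by rw [pow_two]; exact hW2 a ha⟩
  have hex : ∀ A : Subgroup G, Fm.F A → A ≤ S → ¬ A ≤ Subgroup.centralizer (W : Set G) →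
      Fm.F ((A ⊓ Subgroup.centralizer (W : Set G)) ⊔ W) ∧ (A ⊓ Subgroup.centralizer (W : Set G)) ⊔ W ≤ C ∧
        Nat.card A ≤ Nat.card ↥((A ⊓ Subgroup.centralizer (W : Set G)) ⊔ W) := by
    intro A hA hAS h
    refine ⟨elFam_sup ⟨fun a ha b hb => hA.1 a ha.1 b hb.1, fun a ha => hA.2 a ha.1⟩ hFW inf_le_right, ?_,
      card_le_exchange hW4 hW2 hA.1 hA.2 (hAS.trans hSN) h⟩
    rw [← hCdef]
    refine sup_le (fun a ha => Subgroup.mem_inf.mpr ⟨hSL (hAS ha.1), ha.2⟩) ?_
    rw [hCdef]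
    exact hWC
  have hmx : ∀ A₁ ∈ Fm.mx C, A₁ ∈ Fm.mx S := by
    intro A₁ hA₁
    refine ⟨hA₁.1.trans hCS, hA₁.2.1, fun B hB hFB => ?_⟩
    obtain ⟨A₀, hA₀⟩ := H14.ZJFam.exists_mx Fm S
    refine (hA₀.2.2 B hB hFB).trans ?_
    by_cases h : A₀ ≤ Subgroup.centralizer (W : Set G)
    · refine hA₁.2.2 A₀ ?_ hA₀.2.1
      rw [← hCdef]
      exact le_inf (hA₀.1.trans hSL) h
    · obtain ⟨h1, h2, h3⟩ := hex A₀ hA₀.2.1 hA₀.1 h
      exact h3.trans (hA₁.2.2 _ h2 h1)
  have hexm : ∀ A ∈ Fm.mx S, ¬ A ≤ Subgroup.centralizer (W : Set G) →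
      (A ⊓ Subgroup.centralizer (W : Set G)) ⊔ W ∈ Fm.mx S ∧ (A ⊓ Subgroup.centralizer (W : Set G)) ⊔ W ∈ Fm.mx C := by
    intro A hA h
    obtain ⟨h1, h2, h3⟩ := hex A hA.2.1 hA.1 h
    exact ⟨⟨h2.trans hCS, h1, fun B hB hFB => (hA.2.2 B hB hFB).trans h3⟩,
      ⟨h2, h1, fun B hB hFB => (hA.2.2 B (hB.trans hCS) hFB).trans h3⟩⟩
  have hWJ : W ≤ J := by
    by_contra hcon
    have hall : ∃ A ∈ Fm.mx S, ¬ A ≤ Subgroup.centralizer (W : Set G) := by
      by_contra hno
      push Not at hno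
      apply hJC
      rw [← hjj]
      exact sSup_le hno
    obtain ⟨A, hA, hAn⟩ := hall
    apply hcon
    rw [← hjj]
    exact le_sup_right.trans (H14.ZJFam.le_jj (hexm A hA hAn).1)
  have hWzz : W ≤ Fm.zz C := by
    apply H14.ZJFam.zz_of_forall
    intro A hA
    have hF := elFam_sup hA.2.1 hFW (hA.1.trans hCC)
    have hc := hA.2.2 _ (sup_le hA.1 hWC) hF
    have heq := Subgroup.eq_of_le_of_card_ge (le_sup_left : A ≤ A ⊔ W) hc
    exact le_sup_right.trans heq.symm.le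
  -- facts on `Z₀`
  have hZmem : ∀ z ∈ omegaCenterOf J, z ∈ J ∧ z ∈ Subgroup.centralizer (J : Set G) ∧ z ^ 2 = 1 := by
    intro z hz
    have h1 := omegaOneCenter_le (p := 2) _ hz
    exact ⟨h1.1, h1.2, omegaOneCenter_pow (p := 2) _ hz⟩
  have hZmem' : ∀ z, z ∈ J → z ∈ Subgroup.centralizer (J : Set G) → z ^ 2 = 1 → z ∈ omegaCenterOf J :=
    fun z h1 h2 h3 => mem_omegaOneCenter (p := 2) h1 h2 h3
  have hZS : ∀ z ∈ omegaCenterOf J, z ∈ Fm.zz S := by
    intro z hz
    obtain ⟨h1, h2, h3⟩ := hZmem z hz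
    refine ⟨hjj ▸ h1, hjj ▸ h2, h3⟩
  have hZC : ∀ z ∈ omegaCenterOf J, z ∈ Fm.zz C := fun z hz => H14.ZJFam.zz_of_mono hmx (hZS z hz)
  have hSZ : ∀ z ∈ Fm.zz S, z ∈ omegaCenterOf J := by
    intro z hz
    obtain ⟨h1, h2, h3⟩ := hz
    exact hZmem' z (hjj ▸ h1) (hjj ▸ h2) h3
  have hzzconj : ∀ g ∈ L, ∀ z ∈ Fm.zz C, g * z * g⁻¹ ∈ Fm.zz C :=
    fun g hg z hz => H14.ZJFam.zz_conj (hCn hg) hz
  have hcomm : ∀ a ∈ Fm.zz C, ∀ b ∈ Fm.zz C, a * b = b * a := fun a ha b hb => H14.ZJFam.zz_comm ha hb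
  -- the subgroup acting trivially on `Z_R / W`
  let Y : Subgroup G :=
    { carrier := {g | g ∈ L ∧ ∀ z ∈ Fm.zz C, g * z * g⁻¹ * z⁻¹ ∈ W}
      mul_mem' := by
        rintro a b ⟨ha, ha'⟩ ⟨hb, hb'⟩
        refine ⟨L.mul_mem ha hb, fun z hz => ?_⟩
        have h1 := (Subgroup.mem_normalizer_iff.mp (hLW ha) _).mp (hb' z hz)
        have h2 := ha' z hz
        have e : a * b * z * (a * b)⁻¹ * z⁻¹ = (a * (b * z * b⁻¹ * z⁻¹) * a⁻¹) * (a * z * a⁻¹ * z⁻¹) := by group
        rw [e]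
        exact W.mul_mem h1 h2
      one_mem' := ⟨L.one_mem, fun z _ => by simp⟩
      inv_mem' := by
        rintro a ⟨ha, ha'⟩
        refine ⟨L.inv_mem ha, fun z hz => ?_⟩
        have hz' : a⁻¹ * z * a ∈ Fm.zz C := by
          have := hzzconj a⁻¹ (L.inv_mem ha) z hz
          simpa using this
        have h1 := W.inv_mem (ha' _ hz')
        have e : (a * (a⁻¹ * z * a) * a⁻¹ * (a⁻¹ * z * a)⁻¹)⁻¹ = a⁻¹ * z * a⁻¹⁻¹ * z⁻¹ := by group
        rwa [e] at h1 }
  have hYn : ∀ g ∈ L, ∀ u ∈ Y, g * u * g⁻¹ ∈ Y := by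
    rintro g hg u ⟨hu, hu'⟩
    refine ⟨L.mul_mem (L.mul_mem hg hu) (L.inv_mem hg), fun z hz => ?_⟩
    have hz' : g⁻¹ * z * g ∈ Fm.zz C := by
      have := hzzconj g⁻¹ (L.inv_mem hg) z hz
      simpa using this
    have h1 := (Subgroup.mem_normalizer_iff.mp (hLW hg) _).mp (hu' _ hz')
    have e : g * (u * (g⁻¹ * z * g) * u⁻¹ * (g⁻¹ * z * g)⁻¹) * g⁻¹ = g * u * g⁻¹ * z * (g * u * g⁻¹)⁻¹ * z⁻¹ := by
      group
    rwa [e] at h1
  have hAY : ∀ A ∈ Fm.mx S, A ≤ Y := by
    intro A hA a ha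
    have haL : a ∈ L := hSL (hA.1 ha)
    refine ⟨haL, fun z hz => ?_⟩
    by_cases h : A ≤ Subgroup.centralizer (W : Set G)
    · have hA₁ : A ∈ Fm.mx C := by
        refine ⟨?_, hA.2.1, fun B hB hFB => hA.2.2 B (hB.trans hCS) hFB⟩
        rw [← hCdef]
        exact le_inf (hA.1.trans hSL) h
      have h1 := Subgroup.mem_centralizer_iff.mp hz.2.1 a (H14.ZJFam.le_jj hA₁ ha)
      have e : a * z * a⁻¹ * z⁻¹ = 1 := by
        rw [h1]
        group
      rw [e]
      exact W.one_mem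
    · have hA₁ := (hexm A hA h).2
      have hzA := H14.ZJFam.mem_of_zz hA₁ hz
      obtain ⟨b, hb, w, hw, rfl⟩ := mem_sup_of_comm inf_le_right hzA
      have hab : a * b = b * a := hA.2.1.1 a ha b hb.1
      have hbw : b * w = w * b := (Subgroup.mem_centralizer_iff.mp hb.2 w hw).symm
      have hb' : b ∈ Subgroup.centralizer (W : Set G) := hb.2
      have h2 : a * w * a⁻¹ * w⁻¹ ∈ W := W.mul_mem ((Subgroup.mem_normalizer_iff.mp (hLW haL) w).mp hw) (W.inv_mem hw)
      have e : a * (b * w) * a⁻¹ * (b * w)⁻¹ = b * (a * w * a⁻¹ * w⁻¹) * b⁻¹ := by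
        calc a * (b * w) * a⁻¹ * (b * w)⁻¹ = (a * b) * w * a⁻¹ * w⁻¹ * b⁻¹ := by group
          _ = (b * a) * w * a⁻¹ * w⁻¹ * b⁻¹ := by rw [hab]
          _ = _ := by group
      rw [e, conj_eq_of_mem_centralizer hb' h2]
      exact h2
  have hJY : J ≤ Y := by
    rw [← hjj]
    exact sSup_le hAY
  have hKY : K ≤ Y := by
    have h : ⁅K, J⁆ ≤ Y := by
      rw [Subgroup.commutator_le]
      intro k hk j hj
      rw [commutatorElement_def]
      exact Y.mul_mem (hYn k (hKL hk) j (hJY hj)) (Y.inv_mem (hJY hj))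
    rwa [hKJ] at h
  have hYW : ∀ g ∈ Y, ∀ z ∈ Fm.zz C, g * z * g⁻¹ * z⁻¹ ∈ W := fun g hg => hg.2
  -- the order of `Z₀ ∩ W`
  have hcard : Nat.card ↥(omegaCenterOf J ⊓ W) = 2 := by
    have hdvd : Nat.card ↥(omegaCenterOf J ⊓ W) ∣ 4 := by
      rw [← hW4]
      exact Subgroup.card_dvd_of_le inf_le_right
    have hne1 : Nat.card ↥(omegaCenterOf J ⊓ W) ≠ 1 := by
      intro h
      have hbot := Subgroup.card_eq_one.mp h
      have hne : (⊥ : Subgroup G) ≠ W := by
        intro h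
        rw [← h] at hW4
        simp at hW4
      haveI : Fact (Nat.Prime 2) := ⟨Nat.prime_two⟩
      obtain ⟨n, hn, hn1, hn2⟩ := exists_fixed_mod (p := 2) hSyl.2.1 (hWC.trans hCS) bot_le hSN
        (fun x _ => by
          rw [Subgroup.mem_normalizer_iff]
          intro h
          simp only [Subgroup.mem_bot]
          constructor
          · rintro rfl
            group
          · intro h2
            have h3 : x⁻¹ * (x * h * x⁻¹) * x = x⁻¹ * 1 * x := by rw [h2]
            simpa [mul_assoc] using h3) hne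
      have hnm : n ∈ omegaCenterOf J ⊓ W := by
        refine Subgroup.mem_inf.mpr ⟨hZmem' n (hWJ hn) ?_ ?_, hn⟩
        · rw [Subgroup.mem_centralizer_iff]
          intro j hj
          have h3 := hn2 j (hJS hj)
          rw [Subgroup.mem_bot] at h3
          have h4 : j * n * j⁻¹ = n := by
            have := mul_inv_eq_one.mp h3
            exact this
          calc j * n = (j * n * j⁻¹) * j := by group
            _ = n * j := by rw [h4]
        · rw [pow_two]
          exact hW2 n hn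
      rw [hbot, Subgroup.mem_bot] at hnm
      exact hn1 (by simpa using hnm)
    have hne4 : Nat.card ↥(omegaCenterOf J ⊓ W) ≠ 4 := by
      intro h
      have h1 : omegaCenterOf J ⊓ W = W :=
        Subgroup.eq_of_le_of_card_ge inf_le_right (by rw [h, hW4])
      apply hJC
      intro j hj
      rw [Subgroup.mem_centralizer_iff]
      intro w hw
      have hw' : w ∈ omegaCenterOf J := by
        have : w ∈ omegaCenterOf J ⊓ W := by rwa [h1]
        exact this.1
      exact (Subgroup.mem_centralizer_iff.mp (hZmem w hw').2.1 j hj).symm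
    have hle : Nat.card ↥(omegaCenterOf J ⊓ W) ≤ 4 := Nat.le_of_dvd (by norm_num) hdvd
    have hpos : 0 < Nat.card ↥(omegaCenterOf J ⊓ W) := Nat.card_pos
    interval_cases h : Nat.card ↥(omegaCenterOf J ⊓ W)
    · exact absurd rfl hne1
    · rfl
    · exact absurd hdvd (by norm_num)
    · exact absurd rfl hne4
  -- uniqueness in `Z₀ ∩ W`
  have huniq : ∀ u ∈ omegaCenterOf J ⊓ W, ∀ v ∈ omegaCenterOf J ⊓ W, u ≠ 1 → v ≠ 1 → u = v := by
    intro u hu v hv hu1 hv1
    obtain ⟨t, -, ht⟩ := (Nat.card_eq_two_iff' (1 : ↥(omegaCenterOf J ⊓ W))).mp hcard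
    have h1 := ht ⟨u, hu⟩ (fun h => hu1 (congrArg Subtype.val h))
    have h2 := ht ⟨v, hv⟩ (fun h => hv1 (congrArg Subtype.val h))
    exact congrArg Subtype.val (h1.trans h2.symm)
  refine ⟨hcard, le_antisymm (sup_le (inf_le_left) (inf_le_left)) ?_⟩
  intro z hz
  have hzC := hZC z hz
  -- split off the `W`-part
  have hyY : y ∈ Y := hKY hyK
  let f : ↥W → ↥W := fun w => ⟨y * w * y⁻¹ * (w : G)⁻¹, W.mul_mem
    ((Subgroup.mem_normalizer_iff.mp hyN w).mp w.2) (W.inv_mem w.2)⟩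
  have hfinj : Function.Injective f := by
    intro a b hab
    have h1 : y * (a : G) * y⁻¹ * (a : G)⁻¹ = y * (b : G) * y⁻¹ * (b : G)⁻¹ := congrArg Subtype.val hab
    have h2 : y * ((a : G) * (b : G)⁻¹) * y⁻¹ = (a : G) * (b : G)⁻¹ := by
      have hca : y * (a : G) * y⁻¹ = y * (b : G) * y⁻¹ * (b : G)⁻¹ * (a : G) := by
        rw [← h1]
        group
      have hb2 : y * (b : G) * y⁻¹ ∈ W := (Subgroup.mem_normalizer_iff.mp hyN b).mp b.2
      have hbi := W.inv_mem b.2
      have hcw : ∀ {p q : G}, p ∈ W → q ∈ W → p * q = q * p := fun hp hq => four_comm hW2 hp hq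
      calc y * ((a : G) * (b : G)⁻¹) * y⁻¹ = (y * (a : G) * y⁻¹) * (y * (b : G) * y⁻¹)⁻¹ := by group
        _ = (y * (b : G) * y⁻¹) * ((b : G)⁻¹ * (a : G)) * (y * (b : G) * y⁻¹)⁻¹ := by rw [hca]; group
        _ = ((b : G)⁻¹ * (a : G)) * (y * (b : G) * y⁻¹) * (y * (b : G) * y⁻¹)⁻¹ := by
            rw [hcw hb2 (W.mul_mem hbi a.2)]
        _ = (b : G)⁻¹ * (a : G) := by group
        _ = (a : G) * (b : G)⁻¹ := hcw hbi a.2
    have h3 := hfpf _ (W.mul_mem a.2 (W.inv_mem b.2)) h2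
    exact Subtype.ext (mul_inv_eq_one.mp h3)
  have hfsurj := (Finite.injective_iff_surjective (f := f)).mp hfinj
  obtain ⟨w', hw'⟩ := hfsurj ⟨y * z * y⁻¹ * z⁻¹, hYW y hyY z hzC⟩
  have hw'e : y * (w' : G) * y⁻¹ * (w' : G)⁻¹ = y * z * y⁻¹ * z⁻¹ := congrArg Subtype.val hw'
  set w : G := (w' : G) with hwdef
  have hwW : w ∈ W := w'.2
  set c : G := z * w⁻¹ with hc
  have hcC : c ∈ Fm.zz C := (Fm.zz C).mul_mem hzC ((Fm.zz C).inv_mem (hWzz hwW))
  -- `y` fixes `c`
  have hyc : y * c * y⁻¹ = c := by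
    have hψ : y * w * y⁻¹ ∈ Fm.zz C := hWzz ((Subgroup.mem_normalizer_iff.mp hyN w).mp hwW)
    have h3 : y * z * y⁻¹ = (y * w * y⁻¹) * (w⁻¹ * z) := by
      have : y * z * y⁻¹ = (y * z * y⁻¹ * z⁻¹) * z := by group
      rw [this, ← hw'e]
      group
    have hm : w⁻¹ * z ∈ Fm.zz C := (Fm.zz C).mul_mem ((Fm.zz C).inv_mem (hWzz hwW)) hzC
    have hwz : w⁻¹ * z = z * w⁻¹ := hcomm _ ((Fm.zz C).inv_mem (hWzz hwW)) _ hzC
    calc y * c * y⁻¹ = (y * z * y⁻¹) * (y * w * y⁻¹)⁻¹ := by rw [hc]; group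
      _ = (y * w * y⁻¹) * (w⁻¹ * z) * (y * w * y⁻¹)⁻¹ := by rw [h3]
      _ = (w⁻¹ * z) * (y * w * y⁻¹) * (y * w * y⁻¹)⁻¹ := by rw [hcomm _ hψ _ hm]
      _ = w⁻¹ * z := by group
      _ = c := hwz
  -- `c` centralizes `O`
  have hu : ∀ o ∈ O, o * c * o⁻¹ * c⁻¹ ∈ omegaCenterOf J ⊓ W := by
    intro o ho
    have hoC : o ∈ C := hOCC ho
    have hoS : o ∈ Subgroup.normalizer (S : Set G) := Subgroup.le_normalizer (hCS hoC)
    have hoz : o * z * o⁻¹ ∈ omegaCenterOf J := hSZ _ (H14.ZJFam.zz_conj hoS (hZS z hz))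
    have hoy : o ∈ Y := hKY (hOK ho)
    have hcw : o * w * o⁻¹ = w := conj_eq_of_mem_centralizer (hOC ho) hwW
    have e : o * c * o⁻¹ * c⁻¹ = o * z * o⁻¹ * z⁻¹ := by
      have : o * c * o⁻¹ * c⁻¹ = (o * z * o⁻¹) * (o * w * o⁻¹)⁻¹ * (w * z⁻¹) := by
        rw [hc]
        group
      rw [this, hcw]
      group
    rw [e]
    exact Subgroup.mem_inf.mpr ⟨(omegaCenterOf J).mul_mem hoz ((omegaCenterOf J).inv_mem hz), hYW o hoy z hzC⟩
  have hOc : ∀ o ∈ O, o * c = c * o := by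
    intro o ho
    have hu1 := hu o ho
    by_contra hne
    have hune : o * c * o⁻¹ * c⁻¹ ≠ 1 := by
      intro h
      apply hne
      have h2 : o * c * o⁻¹ * c⁻¹ * (c * o) = c * o := by rw [h, one_mul]
      calc o * c = o * c * o⁻¹ * c⁻¹ * (c * o) := by group
        _ = c * o := h2
    have hyo : y * o * y⁻¹ ∈ O := by
      have hyNO : y ∈ Subgroup.normalizer (O : Set G) := by
        rw [← hOdef]
        exact pCoreOf_normalized K hyK
      exact (Subgroup.mem_normalizer_iff.mp hyNO o).mp ho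
    have hu2 := hu _ hyo
    have e : (y * o * y⁻¹) * c * (y * o * y⁻¹)⁻¹ * c⁻¹ = y * (o * c * o⁻¹ * c⁻¹) * y⁻¹ := by
      have hyc' : y⁻¹ * c * y = c := by
        conv_lhs => rw [← hyc]
        group
      have hyc'' : y * c⁻¹ * y⁻¹ = c⁻¹ := by
        have : y * c⁻¹ * y⁻¹ = (y * c * y⁻¹)⁻¹ := by group
        rw [this, hyc]
      calc (y * o * y⁻¹) * c * (y * o * y⁻¹)⁻¹ * c⁻¹
          = y * o * (y⁻¹ * c * y) * o⁻¹ * y⁻¹ * c⁻¹ := by group
        _ = y * o * c * o⁻¹ * y⁻¹ * c⁻¹ := by rw [hyc']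
        _ = y * o * c * o⁻¹ * (y⁻¹ * c⁻¹ * y) * y⁻¹ := by group
        _ = y * o * c * o⁻¹ * c⁻¹ * y⁻¹ := by
            have : y⁻¹ * c⁻¹ * y = c⁻¹ := by
              have h9 : y⁻¹ * c⁻¹ * y = (y⁻¹ * c * y)⁻¹ := by group
              rw [h9, hyc']
            rw [this]
        _ = _ := by group
    rw [e] at hu2
    have hne2 : y * (o * c * o⁻¹ * c⁻¹) * y⁻¹ ≠ 1 := by
      intro h
      apply hune
      have : y⁻¹ * (y * (o * c * o⁻¹ * c⁻¹) * y⁻¹) * y = y⁻¹ * 1 * y := by rw [h]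
      simpa [mul_assoc] using this
    have h5 := huniq _ hu2 _ hu1 hne2 hune
    exact hune (hfpf _ hu1.2 h5)
  -- `c` centralizes `K`
  have hKc : K ≤ Subgroup.centralizer ({c} : Set G) := by
    have h1 : O ≤ Subgroup.centralizer ({c} : Set G) := by
      intro o ho
      rw [Subgroup.mem_centralizer_singleton_iff]
      exact hOc o ho
    have h2 : y ∈ Subgroup.centralizer ({c} : Set G) := by
      rw [Subgroup.mem_centralizer_singleton_iff]
      calc y * c = (y * c * y⁻¹) * y := by group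
        _ = c * y := by rw [hyc]
    exact le_of_index_three hidx hOK h1 h2 hyK hyO
  -- `c` centralizes `J`
  have hJc : J ≤ Subgroup.centralizer ({c} : Set G) := by
    intro j hj
    rw [Subgroup.mem_centralizer_singleton_iff]
    have ht : j * c * j⁻¹ * c⁻¹ ∈ W := hYW j (hJY hj) c hcC
    have hfix : y * (j * c * j⁻¹ * c⁻¹) * y⁻¹ = j * c * j⁻¹ * c⁻¹ := by
      have hk : j⁻¹ * y * j ∈ K := by
        have := (Subgroup.mem_normalizer_iff.mp (Subgroup.inv_mem _ (hJN hj)) y).mp hyK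
        simpa using this
      have h1 : (j⁻¹ * y * j) * c = c * (j⁻¹ * y * j) :=
        Subgroup.mem_centralizer_singleton_iff.mp (hKc hk)
      have h2 : y * (j * c * j⁻¹) = (j * c * j⁻¹) * y := by
        calc y * (j * c * j⁻¹) = j * ((j⁻¹ * y * j) * c) * j⁻¹ := by group
          _ = j * (c * (j⁻¹ * y * j)) * j⁻¹ := by rw [h1]
          _ = _ := by group
      have h3 : y * c⁻¹ = c⁻¹ * y := by
        have h4 : y * c = c * y := Subgroup.mem_centralizer_singleton_iff.mp (hKc hyK)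
        calc y * c⁻¹ = c⁻¹ * (c * y) * c⁻¹ := by group
          _ = c⁻¹ * (y * c) * c⁻¹ := by rw [h4]
          _ = c⁻¹ * y := by group
      calc y * (j * c * j⁻¹ * c⁻¹) * y⁻¹ = (y * (j * c * j⁻¹)) * c⁻¹ * y⁻¹ := by group
        _ = (j * c * j⁻¹) * (y * c⁻¹) * y⁻¹ := by rw [h2]; group
        _ = (j * c * j⁻¹) * (c⁻¹ * y) * y⁻¹ := by rw [h3]
        _ = _ := by group
    have h1 := hfpf _ ht hfix
    have h2 : j * c * j⁻¹ = c := mul_inv_eq_one.mp h1
    calc j * c = (j * c * j⁻¹) * j := by group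
      _ = c * j := by rw [h2]
  have hLc : L ≤ Subgroup.centralizer ({c} : Set G) := by
    rw [← hLdef]
    exact sup_le hKc hJc
  have hcL : c ∈ L := hCL (H14.ZJFam.jj_le C (H14.ZJFam.zz_le_jj C hcC))
  have hcJ : c ∈ J := by
    have h1 : Fm.jj C ≤ Fm.jj S := sSup_le fun A hA => H14.ZJFam.le_jj (hmx A hA)
    rw [← hjj]
    exact h1 (H14.ZJFam.zz_le_jj C hcC)
  have hcZ : c ∈ omegaCenterOf J := by
    refine hZmem' c hcJ ?_ hcC.2.2
    rw [Subgroup.mem_centralizer_iff]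
    intro j hj
    exact Subgroup.mem_centralizer_singleton_iff.mp (hJc hj)
  have hcen : c ∈ Subgroup.centralizer (L : Set G) := by
    rw [Subgroup.mem_centralizer_iff]
    intro l hl
    exact Subgroup.mem_centralizer_singleton_iff.mp (hLc hl)
  have hwZ : w ∈ omegaCenterOf J := by
    have : w = c⁻¹ * z := by
      rw [hc]
      group
    rw [this]
    exact (omegaCenterOf J).mul_mem ((omegaCenterOf J).inv_mem hcZ) hz
  have hzcw : z = c * w := by
    rw [hc]
    group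
  rw [hzcw]
  exact Subgroup.mul_mem _ (Subgroup.mem_sup_left (Subgroup.mem_inf.mpr ⟨hcZ, Subgroup.mem_inf.mpr ⟨hcL, hcen⟩⟩))
    (Subgroup.mem_sup_right (Subgroup.mem_inf.mpr ⟨hwZ, hwW⟩))

end main

end Cfsg.Agent.H13.JCS
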