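import Mathlib

set_option autoImplicit false

namespace Cfsg.Agent.H13.SF

/-- The automorphism group of an abelian group, written multiplicatively. -/
abbrev AA (M : Type*) [AddCommGroup M] := M ≃ₗ[ℤ] M

variable {M : Type*} [AddCommGroup M] [Finite M]

@[simp] theorem mul_app (a b : AA M) (w : M) : (a * b) w = a (b w) := rfl
@[simp] theorem one_app (w : M) : (1 : AA M) w = w := rfl
@[simp] theorem inv_self (a : AA M) (w : M) : a⁻¹ (a w) = w := a.symm_apply_apply w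
@[simp] theorem self_inv (a : AA M) (w : M) : a (a⁻¹ w) = w := a.apply_symm_apply w

/-- The norm `1 + x + x²`. -/
def Nm (x : AA M) (w : M) : M := w + x w + x (x w)

instance aaFinite : Finite (AA M) :=
  Finite.of_injective (fun f : AA M => (f : M → M)) DFunLike.coe_injective

theorem pow_succ_app (c : AA M) (i : ℕ) (z : M) : (c ^ (i + 1)) z = (c ^ i) (c z) := by
  rw [pow_succ]; rfl

theorem pow_succ_app' (c : AA M) (i : ℕ) (z : M) : (c ^ (i + 1)) z = c ((c ^ i) z) := by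
  rw [pow_succ']; rfl

theorem eq_zero_of_nsmul {n : ℕ} (h : n.Coprime (Nat.card M)) {z : M} (hz : n • z = 0) : z = 0 := by
  have h2 : Nat.card M • z = 0 := card_nsmul_eq_zero'
  have h3 := addOrderOf_dvd_of_nsmul_eq_zero hz
  have h4 := addOrderOf_dvd_of_nsmul_eq_zero h2
  have h5 : addOrderOf z ∣ 1 := by
    have := Nat.dvd_gcd h3 h4
    rwa [h.gcd_eq_one] at this
  have h6 : addOrderOf z = 1 := Nat.dvd_one.mp h5
  exact AddMonoid.addOrderOf_eq_one_iff.mp h6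

theorem sum_range_pow (c : AA M) (n : ℕ) (z : M) :
    ∑ i ∈ Finset.range n, (c ^ i) (c z - z) = (c ^ n) z - z := by
  have h : ∀ i, (c ^ i) (c z - z) = (c ^ (i + 1)) z - (c ^ i) z := by
    intro i
    rw [map_sub, pow_succ_app]
  simp only [h]
  have := Finset.sum_range_sub (fun i => (c ^ i) z) n
  simpa using this

/-- If `c` has order prime to `|M|`, no nonzero element of `[M,c]` is fixed by `c`. -/
theorem fixed_image_zero (c : AA M) (n : ℕ) (hn : c ^ n = 1) (hcop : n.Coprime (Nat.card M))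
    (z : M) (h : c (c z - z) = c z - z) : c z - z = 0 := by
  have h1 := sum_range_pow c n z
  rw [hn] at h1
  have h2 : ∀ i, (c ^ i) (c z - z) = c z - z := by
    intro i
    induction i with
    | zero => simp
    | succ i ih => rw [pow_succ_app, h, ih]
  simp only [h2, Finset.sum_const, Finset.card_range, one_app, sub_self] at h1
  exact eq_zero_of_nsmul hcop h1

section sums

variable (Y : Subgroup (AA M))

theorem sum_theta [Fintype Y] (ζ : AA M) (hζY : ∀ u ∈ Y, ζ * u * ζ⁻¹ ∈ Y)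
    (hfix : ∀ u ∈ Y, ζ * u * ζ⁻¹ = u → u = 1) (z : M) :
    ∑ u : Y, ((u : AA M) * (ζ * (u : AA M)⁻¹ * ζ⁻¹)) z = ∑ u : Y, (u : AA M) z := by
  classical
  let θ : Y → Y := fun u => ⟨(u : AA M) * (ζ * (u : AA M)⁻¹ * ζ⁻¹),
    Y.mul_mem u.2 (hζY _ (Y.inv_mem u.2))⟩
  have hinj : Function.Injective θ := by
    intro a b hab
    have h1 : (a : AA M) * (ζ * (a : AA M)⁻¹ * ζ⁻¹) = (b : AA M) * (ζ * (b : AA M)⁻¹ * ζ⁻¹) :=
      congrArg Subtype.val hab
    have h2 : ζ * ((b : AA M)⁻¹ * a) * ζ⁻¹ = (b : AA M)⁻¹ * a := by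
      have h3 : (b : AA M)⁻¹ * a = (ζ * (b : AA M)⁻¹ * ζ⁻¹) * (ζ * (a : AA M)⁻¹ * ζ⁻¹)⁻¹ := by
        have : (a : AA M) = b * (ζ * (b : AA M)⁻¹ * ζ⁻¹) * (ζ * (a : AA M)⁻¹ * ζ⁻¹)⁻¹ := by
          rw [← h1]; group
        calc (b : AA M)⁻¹ * a = (b : AA M)⁻¹ * (b * (ζ * (b : AA M)⁻¹ * ζ⁻¹) * (ζ * (a : AA M)⁻¹ * ζ⁻¹)⁻¹) := by
              rw [← this]
          _ = _ := by group
      conv_rhs => rw [h3]
      group
    have h4 := hfix _ (Y.mul_mem (Y.inv_mem b.2) a.2) h2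
    have h5 : (b : AA M) = a := by
      have := congrArg (fun t => (b : AA M) * t) h4
      simpa using this.symm
    exact Subtype.ext h5.symm
  have hbij : Function.Bijective θ := hinj.bijective_of_finite
  exact hbij.sum_comp (fun u : Y => (u : AA M) z)

theorem sum_conj [Fintype Y] (x : AA M) (hx3 : x ^ 3 = 1) (hxY : ∀ u ∈ Y, x * u * x⁻¹ ∈ Y)
    (hfix : ∀ u ∈ Y, x * u * x⁻¹ = u → u = 1) (w : M) :
    ∑ u : Y, (u : AA M) (Nm x ((u : AA M)⁻¹ w)) =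
      Fintype.card Y • w + ∑ u : Y, (u : AA M) (x w) + ∑ u : Y, (u : AA M) (x (x w)) := by
  have hx2Y : ∀ u ∈ Y, (x * x) * u * (x * x)⁻¹ ∈ Y := by
    intro u hu
    have := hxY _ (hxY u hu)
    convert this using 1
    group
  have hfix2 : ∀ u ∈ Y, (x * x) * u * (x * x)⁻¹ = u → u = 1 := by
    intro u hu h
    apply hfix u hu
    have hx3' : x * x * x = 1 := by
      have := hx3
      rwa [pow_succ, pow_two] at this
    calc x * u * x⁻¹ = x * ((x * x) * u * (x * x)⁻¹) * x⁻¹ := by rw [h]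
      _ = (x * x * x) * u * (x * x * x)⁻¹ := by group
      _ = u := by rw [hx3']; group
  have h1 := sum_theta Y x hxY hfix (x w)
  have h2 := sum_theta Y (x * x) hx2Y hfix2 (x (x w))
  have h3 : ∀ u : Y, (u : AA M) (Nm x ((u : AA M)⁻¹ w)) =
      w + ((u : AA M) * (x * (u : AA M)⁻¹ * x⁻¹)) (x w) +
        ((u : AA M) * ((x * x) * (u : AA M)⁻¹ * (x * x)⁻¹)) (x (x w)) := by
    intro u
    have h5 : (x * x)⁻¹ (x (x w)) = w := inv_self (x * x) w
    simp only [Nm, map_add, mul_app, self_inv, inv_self, h5]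
  simp only [h3, Finset.sum_add_distrib, Finset.sum_const, Finset.card_univ]
  rw [h1, h2]

/-- Fixed point free abelian action with norm values fixed: the action is trivial. -/
theorem trivial_of_norm_fixed (hc : ∀ a ∈ Y, ∀ b ∈ Y, a * b = b * a) (x : AA M) (hx3 : x ^ 3 = 1)
    (hxY : ∀ u ∈ Y, x * u * x⁻¹ ∈ Y) (hfix : ∀ u ∈ Y, x * u * x⁻¹ = u → u = 1)
    (hcop : (Nat.card Y).Coprime (Nat.card M)) (W : AddSubgroup M)
    (hWY : ∀ u ∈ Y, ∀ w ∈ W, u w ∈ W) (hWx : ∀ w ∈ W, x w ∈ W)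
    (hN : ∀ w ∈ W, ∀ u ∈ Y, u (Nm x w) = Nm x w) : ∀ u ∈ Y, ∀ w ∈ W, u w = w := by
  classical
  haveI : Finite Y := inferInstance
  letI := Fintype.ofFinite Y
  intro v hv w hw
  have h0 := sum_conj Y x hx3 hxY hfix w
  have hcard : Fintype.card Y = Nat.card Y := (Nat.card_eq_fintype_card).symm
  rw [hcard] at h0
  have hf : ∀ z : M, v (∑ u : Y, (u : AA M) z) = ∑ u : Y, (u : AA M) z := by
    intro z
    rw [map_sum]
    let τ : Y → Y := fun u => ⟨v * u, Y.mul_mem hv u.2⟩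
    have hτ : Function.Bijective τ := by
      apply Function.Injective.bijective_of_finite
      intro a b hab
      have : v * (a : AA M) = v * b := congrArg Subtype.val hab
      exact Subtype.ext (mul_left_cancel this)
    exact hτ.sum_comp (fun u : Y => (u : AA M) z)
  have hN2 : ∀ u : Y, v ((u : AA M) (Nm x ((u : AA M)⁻¹ w))) = (u : AA M) (Nm x ((u : AA M)⁻¹ w)) := by
    intro u
    have hu' : (u : AA M)⁻¹ w ∈ W := hWY _ (Y.inv_mem u.2) w hw
    rw [hN _ hu' _ u.2, hN _ hu' _ hv]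
  have h1 : v (∑ u : Y, (u : AA M) (Nm x ((u : AA M)⁻¹ w))) = ∑ u : Y, (u : AA M) (Nm x ((u : AA M)⁻¹ w)) := by
    rw [map_sum]
    exact Finset.sum_congr rfl (fun u _ => hN2 u)
  rw [h0] at h1
  rw [map_add, map_add, hf, hf, map_nsmul] at h1
  have h2 : Nat.card Y • (v w - w) = 0 := by
    have h3 := add_right_cancel (add_right_cancel h1)
    rw [nsmul_sub, h3, sub_self]
  exact sub_eq_zero.mp (eq_zero_of_nsmul hcop h2)

end sums

section minimal

theorem exists_min_inv (Y : Subgroup (AA M)) (W : AddSubgroup M) (hW : W ≠ ⊥)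
    (hinv : ∀ u ∈ Y, ∀ w ∈ W, u w ∈ W) :
    ∃ W₀ : AddSubgroup M, W₀ ≤ W ∧ W₀ ≠ ⊥ ∧ (∀ u ∈ Y, ∀ w ∈ W₀, u w ∈ W₀) ∧
      ∀ W' : AddSubgroup M, W' ≤ W₀ → (∀ u ∈ Y, ∀ w ∈ W', u w ∈ W') → W' = ⊥ ∨ W' = W₀ := by
  classical
  obtain ⟨W₀, hW₀⟩ := (Set.toFinite {W' : AddSubgroup M | W' ≤ W ∧ W' ≠ ⊥ ∧ ∀ u ∈ Y, ∀ w ∈ W', u w ∈ W'}).exists_minimal
    ⟨W, le_rfl, hW, hinv⟩
  refine ⟨W₀, hW₀.1.1, hW₀.1.2.1, hW₀.1.2.2, ?_⟩
  intro W' h1 h2
  by_cases h : W' = ⊥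
  · exact Or.inl h
  · right
    exact le_antisymm h1 (hW₀.2 ⟨h1.trans hW₀.1.1, h, h2⟩ h1)

/-- Minimal invariant under commutative `E`: a nontrivial `b` of `E` has no fixed vectors. -/
theorem schur_fix {E : Subgroup (AA M)} (hc : ∀ a ∈ E, ∀ b ∈ E, a * b = b * a) {W₀ : AddSubgroup M}
    (hinv : ∀ u ∈ E, ∀ w ∈ W₀, u w ∈ W₀)
    (hmin : ∀ W' : AddSubgroup M, W' ≤ W₀ → (∀ u ∈ E, ∀ w ∈ W', u w ∈ W') → W' = ⊥ ∨ W' = W₀)
    {b : AA M} (hb : b ∈ E) (hnt : ∃ w ∈ W₀, b w ≠ w) : ∀ w ∈ W₀, b w = w → w = 0 := by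
  let K : AddSubgroup M :=
    { carrier := {w | w ∈ W₀ ∧ b w = w}
      add_mem' := by
        intro a c ha hc'
        exact ⟨W₀.add_mem ha.1 hc'.1, by rw [map_add, ha.2, hc'.2]⟩
      zero_mem' := ⟨W₀.zero_mem, map_zero b⟩
      neg_mem' := by
        intro a ha
        exact ⟨W₀.neg_mem ha.1, by rw [map_neg, ha.2]⟩ }
  have hK : ∀ u ∈ E, ∀ w ∈ K, u w ∈ K := by
    intro u hu w hw
    refine ⟨hinv u hu w hw.1, ?_⟩
    have := hc b hb u hu
    have h2 : b (u w) = (b * u) w := rfl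
    rw [h2, this, mul_app, hw.2]
  rcases hmin K (fun w hw => hw.1) hK with h | h
  · intro w hw hbw
    have : w ∈ K := ⟨hw, hbw⟩
    rw [h] at this
    simpa using this
  · obtain ⟨w, hw, hne⟩ := hnt
    have : w ∈ K := by rw [h]; exact hw
    exact absurd this.2 hne

/-- Minimal invariant under commutative `E`: `b - 1` is onto when `b` acts nontrivially. -/
theorem schur_onto {E : Subgroup (AA M)} (hc : ∀ a ∈ E, ∀ b ∈ E, a * b = b * a) {W₀ : AddSubgroup M}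
    (hinv : ∀ u ∈ E, ∀ w ∈ W₀, u w ∈ W₀)
    (hmin : ∀ W' : AddSubgroup M, W' ≤ W₀ → (∀ u ∈ E, ∀ w ∈ W', u w ∈ W') → W' = ⊥ ∨ W' = W₀)
    {b : AA M} (hb : b ∈ E) (hnt : ∃ w ∈ W₀, b w ≠ w) : ∀ z ∈ W₀, ∃ w ∈ W₀, b w - w = z := by
  let K : AddSubgroup M :=
    { carrier := {z | ∃ w ∈ W₀, b w - w = z}
      add_mem' := by
        rintro _ _ ⟨a, ha, rfl⟩ ⟨c, hc', rfl⟩
        exact ⟨a + c, W₀.add_mem ha hc', by rw [map_add]; abel⟩
      zero_mem' := ⟨0, W₀.zero_mem, by simp⟩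
      neg_mem' := by
        rintro _ ⟨a, ha, rfl⟩
        exact ⟨-a, W₀.neg_mem ha, by rw [map_neg]; abel⟩ }
  have hbW := hinv b hb
  have hKW : K ≤ W₀ := by
    rintro _ ⟨w, hw, rfl⟩
    exact W₀.sub_mem (hbW w hw) hw
  have hK : ∀ u ∈ E, ∀ w ∈ K, u w ∈ K := by
    rintro u hu _ ⟨w, hw, rfl⟩
    refine ⟨u w, hinv u hu w hw, ?_⟩
    have := hc b hb u hu
    have h2 : b (u w) = (b * u) w := rfl
    rw [h2, this, mul_app, map_sub]
  rcases hmin K hKW hK with h | h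
  · obtain ⟨w, hw, hne⟩ := hnt
    have : b w - w ∈ K := ⟨w, hw, rfl⟩
    rw [h] at this
    have h3 : b w - w = 0 := by simpa using this
    exact absurd (sub_eq_zero.mp h3) hne
  · intro z hz
    have : z ∈ K := by rw [h]; exact hz
    exact this

end minimal

end Cfsg.Agent.H13.SF
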