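import Cfsg.Agent.Lib.H13.SF9

set_option autoImplicit false

namespace Cfsg.Agent.H13.SF

section auto

variable {G : Type*} [Group G] [Finite G]

theorem coset_fix (φ : G ≃* G) (p : ℕ) [Fact p.Prime] (hφ : ∀ g, φ^[p] g = g) (N : Subgroup G)
    (hN : ∀ n ∈ N, φ n ∈ N) (hp : ¬ p ∣ Nat.card N) (w : G) (hw : w⁻¹ * φ w ∈ N) :
    ∃ n ∈ N, φ (w * n) = w * n := by
  classical
  letI := Fintype.ofFinite N
  let f : N → N := fun n => ⟨w⁻¹ * φ (w * n), by
    rw [map_mul, ← mul_assoc]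
    exact N.mul_mem hw (hN _ n.2)⟩
  have hfv : ∀ n : N, w * (f n : G) = φ (w * n) := fun n => by simp [f]
  have hit : ∀ (k : ℕ) (n : N), w * ((f^[k] n : N) : G) = φ^[k] (w * n) := by
    intro k n
    induction k with
    | zero => rfl
    | succ k ih =>
      rw [Function.iterate_succ_apply', Function.iterate_succ_apply', hfv, ih]
  have hinj : Function.Injective f := by
    intro a c hac
    have h1 : φ (w * a) = φ (w * c) := by
      rw [← hfv, ← hfv, hac]
    exact Subtype.ext (mul_left_cancel (φ.injective h1))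
  have hbij : Function.Bijective f := hinj.bijective_of_finite
  let σ : Equiv.Perm N := Equiv.ofBijective f hbij
  have hσ : σ ^ p ^ 1 = 1 := by
    rw [pow_one]
    apply Equiv.ext
    intro n
    rw [← Equiv.Perm.iterate_eq_pow]
    have h2 : (σ : N → N) = f := rfl
    rw [h2]
    apply Subtype.ext
    have h3 := hit p n
    rw [hφ] at h3
    exact mul_left_cancel h3
  have hp' : ¬ p ∣ Fintype.card N := by
    rwa [← Nat.card_eq_fintype_card]
  obtain ⟨n, hn⟩ := Equiv.Perm.exists_fixed_point_of_prime hp' hσ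
  refine ⟨n, n.2, ?_⟩
  rw [← hfv]
  have : f n = n := hn
  rw [this]

/-- The action data. -/
structure AAct (a b : G ≃* G) : Prop where
  ha3 : ∀ g, a (a (a g)) = g
  hb2 : ∀ g, b (b g) = g
  hba : ∀ g, b (a (b g)) = a (a g)
  hfp : ∀ g, a g = g → b g = g → g = 1
  hcop : (Nat.card G).Coprime 6

variable {a b : G ≃* G}

theorem AAct.hab (h : AAct a b) (g : G) : a (b g) = b (a (a g)) := by
  rw [← h.hba, h.hb2]

theorem AAct.card2 (h : AAct a b) (S : Subgroup G) : ¬ 2 ∣ Nat.card S := by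
  intro hd
  have h1 := hd.trans (Subgroup.card_subgroup_dvd_card S)
  have h2 := Nat.Coprime.coprime_dvd_left h1 h.hcop
  exact absurd h2 (by decide)

theorem AAct.card3 (h : AAct a b) (S : Subgroup G) : ¬ 3 ∣ Nat.card S := by
  intro hd
  have h1 := hd.trans (Subgroup.card_subgroup_dvd_card S)
  have h2 := Nat.Coprime.coprime_dvd_left h1 h.hcop
  exact absurd h2 (by decide)

/-- The fixed points of `a` form a commutative subgroup. -/
theorem AAct.hCab (h : AAct a b) {g k : G} (hg : a g = g) (hk : a k = k) : g * k = k * g := by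
  classical
  let C : Subgroup G :=
    { carrier := {z | a z = z}
      one_mem' := map_one a
      mul_mem' := by
        intro p q hp hq
        show a (p * q) = p * q
        rw [map_mul, show a p = p from hp, show a q = q from hq]
      inv_mem' := by
        intro p hp
        show a p⁻¹ = p⁻¹
        rw [map_inv, show a p = p from hp] }
  have hbC : ∀ z ∈ C, b z ∈ C := by
    intro z hz
    show a (b z) = b z
    have hz' : a z = z := hz
    rw [h.hab, hz', hz']
  let θ : C → C := fun z => ⟨(z : G)⁻¹ * b z, C.mul_mem (C.inv_mem z.2) (hbC _ z.2)⟩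
  have hθ : Function.Injective θ := by
    intro p q hpq
    have h1 : (p : G)⁻¹ * b p = (q : G)⁻¹ * b q := congrArg Subtype.val hpq
    have h2 : (q : G) * (p : G)⁻¹ = b q * (b p)⁻¹ := by
      have : b q = (q : G) * ((p : G)⁻¹ * b p) := by rw [h1]; simp
      rw [this]; group
    have h3 : b ((q : G) * (p : G)⁻¹) = (q : G) * (p : G)⁻¹ := by
      rw [map_mul, map_inv, ← h2]
    have h4 : a ((q : G) * (p : G)⁻¹) = (q : G) * (p : G)⁻¹ := C.mul_mem q.2 (C.inv_mem p.2)
    have h5 := h.hfp _ h4 h3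
    exact Subtype.ext (mul_inv_eq_one.mp h5).symm
  have hsurj := (Finite.injective_iff_surjective.mp hθ)
  have hinv : ∀ z ∈ C, b z = z⁻¹ := by
    intro z hz
    obtain ⟨p, hp⟩ := hsurj ⟨z, hz⟩
    have h1 : (p : G)⁻¹ * b p = z := congrArg Subtype.val hp
    rw [← h1, map_mul, map_inv, h.hb2]
    group
  have h1 := hinv _ (C.mul_mem hg hk)
  rw [map_mul, hinv g hg, hinv k hk, mul_inv_rev] at h1
  have h2 : g⁻¹ * k⁻¹ = (k * g)⁻¹ := by rw [mul_inv_rev]
  rw [h2] at h1
  have h3 : (g * k)⁻¹ = (k * g)⁻¹ := by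
    rw [mul_inv_rev]; exact h1.symm.trans (by rw [mul_inv_rev])
  exact inv_injective h3

end auto

variable {M : Type*} [AddCommGroup M] [Finite M]

theorem fixed_ne (R : Subgroup (AA M)) (r : ℕ) [Fact r.Prime] (hR : ∀ u ∈ R, ∃ k, u ^ (r ^ k) = 1) (s : ℕ)
    (hs : s ≠ 0) (hM : Nat.card M = r ^ s) : ∃ w : M, w ≠ 0 ∧ ∀ u ∈ R, u w = w := by
  classical
  letI : MulAction R M :=
    { smul := fun u w => (u : AA M) w
      one_smul := fun w => rfl
      mul_smul := fun p q w => rfl }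
  have hp : IsPGroup r R := fun g => (hR g g.2).imp (fun k hk => Subtype.ext hk)
  have hmod := hp.card_modEq_card_fixedPoints M
  have hdvd : r ∣ Nat.card M := by rw [hM]; exact dvd_pow_self r hs
  have hdvd2 : r ∣ Nat.card (MulAction.fixedPoints R M) := by
    have := (Nat.modEq_zero_iff_dvd.mpr hdvd).symm.trans hmod
    exact Nat.modEq_zero_iff_dvd.mp this.symm
  have hfix0 : (0 : M) ∈ MulAction.fixedPoints R M := fun u => map_zero (u : AA M)
  have hpos : 0 < Nat.card (MulAction.fixedPoints R M) := by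
    haveI : Nonempty (MulAction.fixedPoints R M) := ⟨⟨0, hfix0⟩⟩
    exact Nat.card_pos
  have hgt : 1 < Nat.card (MulAction.fixedPoints R M) :=
    lt_of_lt_of_le (Fact.out : r.Prime).one_lt (Nat.le_of_dvd hpos hdvd2)
  haveI := Finite.one_lt_card_iff_nontrivial.mp hgt
  obtain ⟨w, hw⟩ := exists_ne (⟨0, hfix0⟩ : MulAction.fixedPoints R M)
  refine ⟨w.1, fun h0 => hw (Subtype.ext h0), fun u hu => ?_⟩
  exact w.2 ⟨u, hu⟩

theorem no_r_part (D : Subgroup (AA M)) (X Y : AA M) (r : ℕ) (hr : r.Prime) (s : ℕ) (hs : s ≠ 0)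
    (hM : Nat.card M = r ^ s) (hXD : ∀ g ∈ D, cj X⁻¹ g ∈ D) (hYD : ∀ g ∈ D, cj Y⁻¹ g ∈ D)
    (hirr : ∀ W : AddSubgroup M, W ≠ ⊥ → (∀ u ∈ D, ∀ w ∈ W, u w ∈ W) → (∀ w ∈ W, X w ∈ W) →
      (∀ w ∈ W, Y w ∈ W) → W = ⊤)
    [Group.IsNilpotent (⁅D, D⁆ : Subgroup (AA M))] : (Nat.card (⁅D, D⁆ : Subgroup (AA M))).Coprime r := by
  classical
  haveI : Fact r.Prime := ⟨hr⟩
  set E : Subgroup (AA M) := ⁅D, D⁆ with hE
  have htfae := (isNilpotent_of_finite_tfae (G := E)).out 0 3
  have hall := htfae.mp inferInstance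
  obtain ⟨P⟩ : Nonempty (Sylow r E) := inferInstance
  have hPn := hall r ‹_› P
  haveI hfinS : Finite (Sylow r E) := inferInstance
  letI huniq := P.unique_of_normal hPn
  have hRE : ∀ e : E, (∃ k, e ^ (r ^ k) = 1) → e ∈ (P : Subgroup E) := by
    intro e hk
    have hpz : IsPGroup r (Subgroup.zpowers e) := by
      obtain ⟨k, hk⟩ := hk
      rintro ⟨_, ⟨m, rfl⟩⟩
      refine ⟨k, Subtype.ext ?_⟩
      show (e ^ m) ^ (r ^ k) = 1
      rw [← zpow_natCast, ← zpow_mul, mul_comm, zpow_mul, zpow_natCast, hk, one_zpow]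
    obtain ⟨Q, hQ⟩ := hpz.exists_le_sylow
    have : Q = P := Subsingleton.elim _ _
    rw [this] at hQ
    exact hQ (Subgroup.mem_zpowers e)
  let R : Subgroup (AA M) := (P : Subgroup E).map E.subtype
  have hRmem : ∀ u, u ∈ R ↔ u ∈ E ∧ ∃ k, u ^ (r ^ k) = 1 := by
    intro u
    constructor
    · rintro ⟨e, he, rfl⟩
      refine ⟨e.2, ?_⟩
      obtain ⟨k, hk⟩ := P.isPGroup' ⟨e, he⟩
      exact ⟨k, congrArg (fun z : (P : Subgroup E) => ((z : E) : AA M)) hk⟩
    · rintro ⟨hu, k, hk⟩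
      exact ⟨⟨u, hu⟩, hRE _ ⟨k, Subtype.ext hk⟩, rfl⟩
  let W : AddSubgroup M :=
    { carrier := {w | ∀ u ∈ R, u w = w}
      add_mem' := by
        intro p q hp hq u hu
        rw [map_add, hp u hu, hq u hu]
      zero_mem' := fun u _ => map_zero u
      neg_mem' := by
        intro p hp u hu
        rw [map_neg, hp u hu] }
  have hWne : W ≠ ⊥ := by
    obtain ⟨w, hw, hfix⟩ := fixed_ne R r (fun u hu => ((hRmem u).1 hu).2) s hs hM
    intro hb
    have : w ∈ W := hfix
    rw [hb] at this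
    exact hw (by simpa using this)
  have hWz : ∀ z : AA M, (∀ e ∈ E, cj z⁻¹ e ∈ E) → ∀ w ∈ W, z w ∈ W := by
    intro z hz w hw u hu
    obtain ⟨hu1, k, hk⟩ := (hRmem u).1 hu
    have h1 : cj z⁻¹ u ∈ R := by
      rw [hRmem]
      refine ⟨hz u hu1, k, ?_⟩
      rw [← conj_pow_aux, hk]
      simp [cj]
    have h2 := hw _ h1
    rw [cj_app, inv_inv] at h2
    have h3 := congrArg z h2
    simpa using h3
  have hWT := hirr W hWne
    (fun u hu w hw => hWz u (fun e he => E_norm (D.inv_mem hu) e he) w hw)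
    (hWz X (E_conj hXD)) (hWz Y (E_conj hYD))
  rw [Nat.coprime_comm, Nat.Prime.coprime_iff_not_dvd hr]
  intro hd
  obtain ⟨e, he⟩ := exists_prime_orderOf_dvd_card' (G := E) r hd
  have h1 : (e : AA M) ^ (r ^ 1) = 1 := by
    rw [pow_one]
    have := pow_orderOf_eq_one e
    rw [he] at this
    exact congrArg Subtype.val this
  have h2 : (e : AA M) ∈ R := (hRmem _).2 ⟨e.2, 1, h1⟩
  have h3 : (e : AA M) = 1 := by
    apply LinearEquiv.ext
    intro w
    have : w ∈ W := by rw [hWT]; trivial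
    exact this _ h2
  have h4 : e = 1 := Subtype.ext h3
  rw [h4, orderOf_one] at he
  exact hr.one_lt.ne he

end Cfsg.Agent.H13.SF
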