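import Cfsg.Agent.Lib.H13.SF10

set_option autoImplicit false

namespace Cfsg.Agent.H13.SF

universe u

set_option maxHeartbeats 4000000 in
theorem MT (n : ℕ) : ∀ (G : Type u) [Group G] [Finite G] [Group.IsSolvable G] (a b : G ≃* G),
    AAct a b → Nat.card G = n → Group.IsNilpotent (commutator G) := by
  induction n using Nat.strong_induction_on with
  | _ n ih =>
  intro G _ _ _ a b hAct hn
  classical
  by_cases hG : Subsingleton G
  · infer_instance
  haveI : Nontrivial G := not_subsingleton_iff_nontrivial.mp hG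
  obtain ⟨V, hV⟩ := (Set.toFinite {V : Subgroup G | V ≠ ⊥ ∧ V.Normal ∧ (∀ v ∈ V, a v ∈ V) ∧ (∀ v ∈ V, b v ∈ V)}).exists_minimal
    ⟨⊤, top_ne_bot, inferInstance, fun _ _ => trivial, fun _ _ => trivial⟩
  obtain ⟨hVne, hVn, hVa, hVb⟩ := hV.1
  have hmin : ∀ S : Subgroup G, S ≠ ⊥ → S.Normal → (∀ v ∈ S, a v ∈ S) → (∀ v ∈ S, b v ∈ S) → S ≤ V → S = V :=
    fun S h1 h2 h3 h4 h5 => le_antisymm h5 (hV.2 ⟨h1, h2, h3, h4⟩ h5)
  haveI := hVn
  have hVc : ∀ u ∈ V, ∀ v ∈ V, u * v = v * u := by
    have h1 : ⁅V, V⁆ < V := Group.IsSolvable.commutator_lt_of_ne_bot hVne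
    have hbot : ⁅V, V⁆ = ⊥ := by
      by_contra hne
      have hinv : ∀ φ : G ≃* G, (∀ v ∈ V, φ v ∈ V) → ∀ e ∈ ⁅V, V⁆, φ e ∈ ⁅V, V⁆ := by
        intro φ hφ e he
        have hle : ⁅V, V⁆ ≤ (⁅V, V⁆ : Subgroup G).comap (φ : G →* G) := by
          rw [Subgroup.commutator_le]
          intro g hg k hk
          rw [Subgroup.mem_comap]
          have := map_commutatorElement (φ : G →* G) g k
          rw [this]
          exact Subgroup.commutator_mem_commutator (hφ g hg) (hφ k hk)
        exact hle he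
      have := hmin _ hne (Subgroup.commutator_normal V V) (hinv a hVa) (hinv b hVb) h1.le
      exact h1.ne this
    intro u hu v hv
    have := Subgroup.commutator_mem_commutator hu hv
    rw [hbot, Subgroup.mem_bot, commutatorElement_eq_one_iff_mul_comm] at this
    exact this
  -- the prime
  have hcardV : Nat.card V ≠ 1 := fun h => hVne ((Subgroup.eq_bot_iff_card V).mpr h)
  set r := (Nat.card V).minFac with hrdef
  have hr : r.Prime := Nat.minFac_prime hcardV
  haveI : Fact r.Prime := ⟨hr⟩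
  obtain ⟨v₀, hv₀⟩ := exists_prime_orderOf_dvd_card' (G := V) r (Nat.minFac_dvd _)
  have hVr : ∀ v ∈ V, v ^ r = 1 := by
    let V₁ : Subgroup G :=
      { carrier := {v | v ∈ V ∧ v ^ r = 1}
        one_mem' := ⟨V.one_mem, one_pow _⟩
        mul_mem' := by
          rintro p q ⟨hp, hp'⟩ ⟨hq, hq'⟩
          have : Commute p q := hVc p hp q hq
          exact ⟨V.mul_mem hp hq, by rw [this.mul_pow, hp', hq', one_mul]⟩
        inv_mem' := by
          rintro p ⟨hp, hp'⟩
          exact ⟨V.inv_mem hp, by rw [inv_pow, hp', inv_one]⟩ }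
    have hne : V₁ ≠ ⊥ := by
      intro hb
      have h1 : (v₀ : G) ∈ V₁ := ⟨v₀.2, by
        have := pow_orderOf_eq_one v₀
        rw [hv₀] at this
        exact congrArg Subtype.val this⟩
      rw [hb, Subgroup.mem_bot] at h1
      have h2 : v₀ = 1 := Subtype.ext h1
      rw [h2, orderOf_one] at hv₀
      exact hr.one_lt.ne hv₀
    have hnorm : V₁.Normal := ⟨fun p hp g => ⟨hVn.conj_mem p hp.1 g, by
      rw [conj_pow, hp.2]; group⟩⟩
    have hV₁ := hmin V₁ hne hnorm
      (fun v hv => ⟨hVa v hv.1, by rw [← map_pow, hv.2, map_one]⟩)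
      (fun v hv => ⟨hVb v hv.1, by rw [← map_pow, hv.2, map_one]⟩)
      (fun v hv => hv.1)
    intro v hv
    have : v ∈ V₁ := by rw [hV₁]; exact hv
    exact this.2
  have hp : IsPGroup r V := fun v => ⟨1, Subtype.ext (by
    rw [pow_one]; exact hVr v v.2)⟩
  obtain ⟨s, hs⟩ := IsPGroup.iff_card.mp hp
  have hs0 : s ≠ 0 := by
    rintro rfl
    rw [pow_zero] at hs
    exact hcardV hs
  have haSym : ∀ g, a.symm g = a (a g) := fun g => by
    apply a.injective
    rw [a.apply_symm_apply]
    exact (hAct.ha3 g).symm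
  have hbSym : ∀ g, b.symm g = b g := fun g => by
    apply b.injective
    rw [b.apply_symm_apply]
    exact (hAct.hb2 g).symm
  have hVa' : ∀ v ∈ V, a.symm v ∈ V := fun v hv => by
    rw [haSym]; exact hVa _ (hVa v hv)
  have hVb' : ∀ v ∈ V, b.symm v ∈ V := fun v hv => by
    rw [hbSym]; exact hVb v hv
  -- the quotient
  have hmapa : V.map (a : G →* G) = V := le_antisymm (Subgroup.map_le_iff_le_comap.2 hVa)
    (fun v hv => ⟨a.symm v, hVa' v hv, by simp⟩)
  have hmapb : V.map (b : G →* G) = V := le_antisymm (Subgroup.map_le_iff_le_comap.2 hVb)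
    (fun v hv => ⟨b.symm v, hVb' v hv, by simp⟩)
  let Q := G ⧸ V
  let aq : Q ≃* Q := QuotientGroup.congr V V a hmapa
  let bq : Q ≃* Q := QuotientGroup.congr V V b hmapb
  have haqmk : ∀ g : G, aq (g : Q) = ((a g : G) : Q) := fun g => QuotientGroup.congr_mk _ _ _ _ g
  have hbqmk : ∀ g : G, bq (g : Q) = ((b g : G) : Q) := fun g => QuotientGroup.congr_mk _ _ _ _ g
  haveI f3 : Fact (3 : ℕ).Prime := ⟨Nat.prime_three⟩
  haveI f2 : Fact (2 : ℕ).Prime := ⟨Nat.prime_two⟩
  have hQ : AAct aq bq :=
    { ha3 := fun q => by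
        induction q using QuotientGroup.induction_on with
        | H g => rw [haqmk, haqmk, haqmk, hAct.ha3]
      hb2 := fun q => by
        induction q using QuotientGroup.induction_on with
        | H g => rw [hbqmk, hbqmk, hAct.hb2]
      hba := fun q => by
        induction q using QuotientGroup.induction_on with
        | H g => rw [hbqmk, haqmk, hbqmk, hAct.hba, haqmk, haqmk]
      hfp := fun q hqa hqb => by
        induction q using QuotientGroup.induction_on with
        | H g =>
          rw [haqmk] at hqa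
          rw [hbqmk] at hqb
          have h1 : g⁻¹ * a g ∈ V := (QuotientGroup.eq).1 hqa.symm
          have h1b : g⁻¹ * b g ∈ V := (QuotientGroup.eq).1 hqb.symm
          obtain ⟨n₁, hn₁, hfix₁⟩ := coset_fix a 3 hAct.ha3 V hVa (hAct.card3 V) g h1
          set g₁ := g * n₁ with hg₁
          let Va : Subgroup G :=
            { carrier := {v | v ∈ V ∧ a v = v}
              one_mem' := ⟨V.one_mem, map_one a⟩
              mul_mem' := by
                rintro p q ⟨hp, hp'⟩ ⟨hq, hq'⟩
                exact ⟨V.mul_mem hp hq, by rw [map_mul, hp', hq']⟩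
              inv_mem' := by
                rintro p ⟨hp, hp'⟩
                exact ⟨V.inv_mem hp, by rw [map_inv, hp']⟩ }
          have hbVa : ∀ v ∈ Va, b v ∈ Va := by
            rintro v ⟨hv, hv'⟩
            exact ⟨hVb v hv, by rw [hAct.hab, hv', hv']⟩
          have h3 : g₁⁻¹ * b g₁ ∈ Va := by
            refine ⟨?_, ?_⟩
            · have e : g₁⁻¹ * b g₁ = n₁⁻¹ * (g⁻¹ * b g) * b n₁ := by
                rw [hg₁, map_mul]; group
              rw [e]
              exact V.mul_mem (V.mul_mem (V.inv_mem hn₁) h1b) (hVb _ hn₁)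
            · rw [map_mul, map_inv, hfix₁, hAct.hab, hfix₁, hfix₁]
          obtain ⟨m, hm, hfix₂⟩ := coset_fix b 2 hAct.hb2 Va hbVa (hAct.card2 Va) g₁ h3
          have ha₂ : a (g₁ * m) = g₁ * m := by rw [map_mul, hfix₁, hm.2]
          have h4 := hAct.hfp _ ha₂ hfix₂
          have h5 : g = (n₁ * m)⁻¹ := by
            have : g * (n₁ * m) = 1 := by rw [← mul_assoc]; exact h4
            exact eq_inv_of_mul_eq_one_left this
          apply (QuotientGroup.eq_one_iff g).2
          rw [h5]
          exact V.inv_mem (V.mul_mem hn₁ hm.1)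
      hcop := Nat.Coprime.coprime_dvd_left ⟨Nat.card V, by
        exact Subgroup.card_eq_card_quotient_mul_card_subgroup V⟩ hAct.hcop }
  have hcardlt : Nat.card Q < n := by
    rw [← hn]
    have h1 := Subgroup.card_eq_card_quotient_mul_card_subgroup V
    have h2 : 1 < Nat.card V := by
      have : 0 < Nat.card V := Nat.card_pos
      omega
    have h3 : 0 < Nat.card Q := Nat.card_pos
    rw [h1]
    exact lt_mul_of_one_lt_right h3 h2
  have hnilQ : Group.IsNilpotent (commutator Q) := ih _ hcardlt Q aq bq hQ rfl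
  -- the module
  letI instV : CommGroup V := { (inferInstance : Group V) with
    mul_comm := fun p q => Subtype.ext (hVc p p.2 q q.2) }
  let fV : (φ : G ≃* G) → (∀ v ∈ V, φ v ∈ V) → (∀ v ∈ V, φ.symm v ∈ V) → AA (Additive V) :=
    fun φ h h' => AddEquiv.toIntLinearEquiv
      { toFun := fun p => Additive.ofMul ⟨φ (p.toMul : G), h _ p.toMul.2⟩
        invFun := fun p => Additive.ofMul ⟨φ.symm (p.toMul : G), h' _ p.toMul.2⟩
        left_inv := fun p => by
          apply Additive.toMul.injective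
          exact Subtype.ext (φ.symm_apply_apply _)
        right_inv := fun p => by
          apply Additive.toMul.injective
          exact Subtype.ext (φ.apply_symm_apply _)
        map_add' := fun p q => by
          apply Additive.toMul.injective
          exact Subtype.ext (map_mul φ _ _) }
  have hconj1 : ∀ g : G, ∀ v ∈ V, (MulAut.conj g) v ∈ V := fun g v hv => hVn.conj_mem v hv g
  have hconj2 : ∀ g : G, ∀ v ∈ V, (MulAut.conj g).symm v ∈ V := fun g v hv => by
    have := hVn.conj_mem v hv g⁻¹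
    simpa [MulAut.conj_symm_apply] using this
  let ρ : G →* AA (Additive V) := MonoidHom.mk' (fun g => fV (MulAut.conj g) (hconj1 g) (hconj2 g))
    (fun g k => LinearEquiv.ext fun p => by
      apply Additive.toMul.injective
      apply Subtype.ext
      show (g * k) * (p.toMul : G) * (g * k)⁻¹ = g * (k * (p.toMul : G) * k⁻¹) * g⁻¹
      group)
  have hextA : ∀ φ ψ : AA (Additive V), (∀ p : Additive V, (((φ p).toMul : V) : G) = (((ψ p).toMul : V) : G)) → φ = ψ :=
    fun φ ψ hh => LinearEquiv.ext fun p => Additive.toMul.injective (Subtype.ext (hh p))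
  let X := fV a hVa hVa'
  let Y := fV b hVb hVb'
  have hcjX : ∀ g, cj X (ρ g) = ρ (a g) := by
    intro g
    apply hextA
    intro p
    show a (g * (a.symm (p.toMul : G)) * g⁻¹) = (a g) * (p.toMul : G) * (a g)⁻¹
    rw [map_mul, map_mul, map_inv, a.apply_symm_apply]
  have hcjY : ∀ g, cj Y (ρ g) = ρ (b g) := by
    intro g
    apply hextA
    intro p
    show b (g * (b.symm (p.toMul : G)) * g⁻¹) = (b g) * (p.toMul : G) * (b g)⁻¹
    rw [map_mul, map_mul, map_inv, b.apply_symm_apply]
  have hcjXi : ∀ g, cj X⁻¹ (ρ g) = ρ (a.symm g) := by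
    intro g
    apply hextA
    intro p
    show a.symm (g * (a (p.toMul : G)) * g⁻¹) = (a.symm g) * (p.toMul : G) * (a.symm g)⁻¹
    rw [map_mul, map_mul, map_inv, a.symm_apply_apply]
  have hcjYi : ∀ g, cj Y⁻¹ (ρ g) = ρ (b.symm g) := by
    intro g
    apply hextA
    intro p
    show b.symm (g * (b (p.toMul : G)) * g⁻¹) = (b.symm g) * (p.toMul : G) * (b.symm g)⁻¹
    rw [map_mul, map_mul, map_inv, b.symm_apply_apply]
  have hirr : ∀ W : AddSubgroup (Additive V), W ≠ ⊥ → (∀ u ∈ ρ.range, ∀ w ∈ W, u w ∈ W) → (∀ w ∈ W, X w ∈ W) →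
      (∀ w ∈ W, Y w ∈ W) → W = ⊤ := by
    intro W hWne hWD hWX hWY
    let S : Subgroup G :=
      { carrier := {v | ∃ hv : v ∈ V, Additive.ofMul (⟨v, hv⟩ : V) ∈ W}
        one_mem' := ⟨V.one_mem, W.zero_mem⟩
        mul_mem' := by
          rintro p q ⟨hp, hp'⟩ ⟨hq, hq'⟩
          exact ⟨V.mul_mem hp hq, W.add_mem hp' hq'⟩
        inv_mem' := by
          rintro p ⟨hp, hp'⟩
          exact ⟨V.inv_mem hp, W.neg_mem hp'⟩ }
    have hSne : S ≠ ⊥ := by
      intro hb
      apply hWne
      rw [AddSubgroup.eq_bot_iff_forall]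
      intro w hw
      have h1 : ((w.toMul : V) : G) ∈ S := ⟨w.toMul.2, hw⟩
      rw [hb, Subgroup.mem_bot] at h1
      apply Additive.toMul.injective
      exact Subtype.ext h1
    have hSn : S.Normal := ⟨fun v hv g => by
      obtain ⟨h1, h2⟩ := hv
      exact ⟨hVn.conj_mem v h1 g, hWD (ρ g) ⟨g, rfl⟩ _ h2⟩⟩
    have hSa : ∀ v ∈ S, a v ∈ S := by
      rintro v ⟨h1, h2⟩
      exact ⟨hVa v h1, hWX _ h2⟩
    have hSb : ∀ v ∈ S, b v ∈ S := by
      rintro v ⟨h1, h2⟩
      exact ⟨hVb v h1, hWY _ h2⟩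
    have hSeq := hmin S hSne hSn hSa hSb (fun v hv => hv.1)
    rw [eq_top_iff]
    intro w _
    have h1 : ((w.toMul : V) : G) ∈ S := by rw [hSeq]; exact w.toMul.2
    obtain ⟨_, h2⟩ := h1
    exact h2
  have hXD : ∀ g ∈ ρ.range, cj X⁻¹ g ∈ ρ.range := by
    rintro _ ⟨g, rfl⟩
    exact ⟨a.symm g, (hcjXi g).symm⟩
  have hYD : ∀ g ∈ ρ.range, cj Y⁻¹ g ∈ ρ.range := by
    rintro _ ⟨g, rfl⟩
    exact ⟨b.symm g, (hcjYi g).symm⟩
  -- nilpotency of the commutator of the image
  have hρV : ∀ v ∈ V, ρ v = 1 := by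
    intro v hv
    apply hextA
    intro p
    show v * (p.toMul : G) * v⁻¹ = (p.toMul : G)
    rw [hVc v hv _ p.toMul.2]
    simp
  let π : Q →* AA (Additive V) := QuotientGroup.lift V ρ hρV
  have hπr : (⊤ : Subgroup Q).map π = ρ.range := by
    apply le_antisymm
    · rintro _ ⟨q, -, rfl⟩
      induction q using QuotientGroup.induction_on with
      | H g => exact ⟨g, rfl⟩
    · rintro _ ⟨g, rfl⟩
      exact ⟨(g : Q), trivial, rfl⟩
  have heq : (commutator Q).map π = ⁅ρ.range, ρ.range⁆ := by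
    rw [commutator_def, Subgroup.map_commutator, hπr]
  let fE : (commutator Q) →* (⁅ρ.range, ρ.range⁆ : Subgroup (AA (Additive V))) :=
    (π.comp (commutator Q).subtype).codRestrict _ (fun h => by
      rw [← heq]
      exact Subgroup.mem_map_of_mem _ h.2)
  have hfE : Function.Surjective fE := by
    rintro ⟨e, he⟩
    rw [← heq] at he
    obtain ⟨h, hh, rfl⟩ := he
    exact ⟨⟨h, hh⟩, rfl⟩
  haveI hnilE : Group.IsNilpotent (⁅ρ.range, ρ.range⁆ : Subgroup (AA (Additive V))) :=
    Group.nilpotent_of_surjective fE hfE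
  have hEr := no_r_part ρ.range X Y r hr s hs0 hs hXD hYD hirr
  -- the fixed part
  have hlift : ∀ g, cj X (ρ g) = ρ g → ∃ g₁, ρ g₁ = ρ g ∧ a g₁ = g₁ := by
    intro g hg
    have hker : g⁻¹ * a g ∈ ρ.ker := by
      rw [MonoidHom.mem_ker, map_mul, map_inv, ← hcjX, hg]
      simp
    have hNa : ∀ n ∈ ρ.ker, a n ∈ ρ.ker := by
      intro n hn
      rw [MonoidHom.mem_ker, ← hcjX, (MonoidHom.mem_ker).1 hn]
      simp [cj]
    obtain ⟨n, hn, hfix⟩ := coset_fix a 3 hAct.ha3 ρ.ker hNa (hAct.card3 _) g hker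
    exact ⟨g * n, by rw [map_mul, (MonoidHom.mem_ker).1 hn, mul_one], hfix⟩
  have hAsum : ∀ w, Nm X w + Nm X (Y w) = 0 := by
    intro w
    have hv : ((w.toMul : V) : G) ∈ V := w.toMul.2
    set v : G := ((w.toMul : V) : G) with hvdef
    have hz : (v * a v * a (a v) * (b v * a (b v) * a (a (b v)))) = 1 := by
      have hAa := hVa
      have hB := hVa v hv
      have hC := hVa _ hB
      have hP := hVb v hv
      have hQ' := hVa _ hP
      have hR := hVa _ hQ'
      have hE : ∀ (p q c p' q' c' : G), p ∈ V → q ∈ V → c ∈ V → p' ∈ V → q' ∈ V → c' ∈ V →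
          q * c * p * (q' * c' * p') = p * q * c * (p' * q' * c') := by
        intro p q c p' q' c' hp hq hc hp' hq' hc'
        have e1 : q * c * p = p * q * c := (hVc _ (V.mul_mem hq hc) _ hp).trans (mul_assoc p q c).symm
        have e2 : q' * c' * p' = p' * q' * c' := (hVc _ (V.mul_mem hq' hc') _ hp').trans (mul_assoc p' q' c').symm
        rw [e1, e2]
      apply hAct.hfp
      · simp only [map_mul, hAct.ha3]
        exact hE _ _ _ _ _ _ hv hB hC hP hQ' hR
      · have e1 : b (a v) = a (a (b v)) := by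
          have := hAct.hba (b v)
          rwa [hAct.hb2] at this
        have e2 : b (a (a v)) = a (b v) := (hAct.hab v).symm
        have e3 : b (b v) = v := hAct.hb2 v
        have e4 : b (a (b v)) = a (a v) := hAct.hba v
        have e5 : b (a (a (b v))) = a v := by rw [← hAct.hab, hAct.hb2]
        simp only [map_mul, e1, e2, e3, e4, e5]
        have c1 : b v * a (a (b v)) * a (b v) = b v * a (b v) * a (a (b v)) := by
          rw [mul_assoc, mul_assoc, hVc _ hR _ hQ']
        have c2 : v * a (a v) * a v = v * a v * a (a v) := by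
          rw [mul_assoc, mul_assoc, hVc _ hC _ hB]
        rw [c1, c2]
        exact hVc _ (V.mul_mem (V.mul_mem hP hQ') hR) _ (V.mul_mem (V.mul_mem hv hB) hC)
    apply Additive.toMul.injective
    apply Subtype.ext
    exact hz
  have hDcomm := D_comm ρ.range X Y r
    (by
      apply hextA
      intro p
      exact hAct.ha3 _)
    (by
      apply hextA
      intro p
      exact hAct.hb2 _)
    (by
      apply hextA
      intro p
      show b (a (b.symm (p.toMul : G))) = a.symm (p.toMul : G)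
      rw [hbSym, hAct.hba, haSym])
    (by
      rintro _ ⟨g, rfl⟩
      exact ⟨a g, (hcjX g).symm⟩)
    (by
      rintro _ ⟨g, rfl⟩
      exact ⟨b g, (hcjY g).symm⟩)
    (Nat.Coprime.coprime_dvd_left (Subgroup.card_dvd_of_surjective ρ.rangeRestrict ρ.rangeRestrict_surjective) hAct.hcop)
    (Nat.Coprime.coprime_dvd_left (Subgroup.card_subgroup_dvd_card V) hAct.hcop)
    hr ⟨s, hs⟩ hEr
    (by
      rintro _ ⟨g, rfl⟩ _ ⟨k, rfl⟩ hg hk
      obtain ⟨g₁, h1, h2⟩ := hlift g hg
      obtain ⟨k₁, h3, h4⟩ := hlift k hk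
      rw [← h1, ← h3, ← map_mul, ← map_mul, hAct.hCab h2 h4])
    (by
      rintro _ ⟨g, rfl⟩ hg w hw
      obtain ⟨g₁, h1, h2⟩ := hlift g hg
      have hv : a ((w.toMul : V) : G) = ((w.toMul : V) : G) :=
        congrArg (fun z : Additive V => ((z.toMul : V) : G)) hw
      rw [← h1]
      apply Additive.toMul.injective
      apply Subtype.ext
      show g₁ * ((w.toMul : V) : G) * g₁⁻¹ = ((w.toMul : V) : G)
      rw [hAct.hCab h2 hv]
      simp)
    hAsum
    (Group.isSolvable_of_surjective ρ.rangeRestrict_surjective)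
  -- the derived subgroup centralizes V
  have hcent : ∀ g ∈ commutator G, ∀ v ∈ V, g * v * g⁻¹ = v := by
    have hle : commutator G ≤ ρ.ker := by
      rw [commutator_def, Subgroup.commutator_le]
      intro g₁ _ g₂ _
      rw [MonoidHom.mem_ker, map_commutatorElement, commutatorElement_eq_one_iff_mul_comm]
      exact hDcomm _ ⟨g₁, rfl⟩ _ ⟨g₂, rfl⟩
    intro g hg v hv
    have h1 := (MonoidHom.mem_ker).1 (hle hg)
    have h2 := LinearEquiv.congr_fun h1 (Additive.ofMul (⟨v, hv⟩ : V))
    exact congrArg (fun z : Additive V => ((z.toMul : V) : G)) h2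
  have hmapc : ∀ g ∈ commutator G, ((g : G) : Q) ∈ commutator Q := by
    have hle : commutator G ≤ (commutator Q).comap (QuotientGroup.mk' V) := by
      rw [commutator_def, Subgroup.commutator_le]
      intro g₁ _ g₂ _
      rw [Subgroup.mem_comap, map_commutatorElement]
      exact Subgroup.commutator_mem_commutator trivial trivial
    exact fun g hg => hle hg
  let f : (commutator G) →* (commutator Q) :=
    ((QuotientGroup.mk' V).comp (commutator G).subtype).codRestrict _ (fun h => hmapc h h.2)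
  haveI := hnilQ
  refine Subgroup.isNilpotent_of_ker_le_center f ?_
  intro g hg
  rw [Subgroup.mem_center_iff]
  intro z
  have hgV : ((g : commutator G) : G) ∈ V := by
    have h1 : f g = 1 := hg
    have h2 : (((g : commutator G) : G) : Q) = 1 := congrArg Subtype.val h1
    exact (QuotientGroup.eq_one_iff _).1 h2
  have h3 := hcent z z.2 _ hgV
  apply Subtype.ext
  show (z : G) * (g : G) = (g : G) * (z : G)
  calc (z : G) * (g : G) = ((z : G) * (g : G) * (z : G)⁻¹) * (z : G) := by group
    _ = _ := by rw [h3]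

end Cfsg.Agent.H13.SF
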