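import Cfsg.Agent.Lib.H13.SF1

set_option autoImplicit false

namespace Cfsg.Agent.H13.SF

section grp

variable {G : Type*} [Group G]

theorem conj_pow_eq {g h d : G} (hd : g * h * g⁻¹ = d * h) (hdg : d * g = g * d) (j : ℕ) :
    g ^ j * h * (g ^ j)⁻¹ = d ^ j * h := by
  induction j with
  | zero => simp
  | succ j ih =>
    have h1 : g ^ (j + 1) * h * (g ^ (j + 1))⁻¹ = g * (g ^ j * h * (g ^ j)⁻¹) * g⁻¹ := by
      rw [pow_succ']; group
    rw [h1, ih]
    have hc : Commute d g := hdg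
    have h2 : g * (d ^ j * h) * g⁻¹ = d ^ j * (g * h * g⁻¹) := by
      have : g * d ^ j = d ^ j * g := ((hc.pow_left j).eq).symm
      calc g * (d ^ j * h) * g⁻¹ = (g * d ^ j) * h * g⁻¹ := by group
        _ = d ^ j * (g * h * g⁻¹) := by rw [this]; group
    rw [h2, hd, pow_succ]; group

/-- In class two: `(g h)^n = g^n h^n d^{-C(n,2)}`. -/
theorem mul_pow_class2 {g h d : G} (hd : g * h * g⁻¹ * h⁻¹ = d) (hdg : d * g = g * d) (hdh : d * h = h * d) (n : ℕ) :
    (g * h) ^ n = g ^ n * h ^ n * (d⁻¹) ^ (n.choose 2) := by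
  have hcg : Commute d⁻¹ g := (Commute.inv_left (show Commute d g from hdg))
  have hch : Commute d⁻¹ h := (Commute.inv_left (show Commute d h from hdh))
  have hhg : h * g = d⁻¹ * (g * h) := by
    rw [← hd]; group
  have hhng : ∀ m : ℕ, h ^ m * g = (d⁻¹) ^ m * (g * h ^ m) := by
    intro m
    induction m with
    | zero => simp
    | succ m ih =>
      calc h ^ (m + 1) * g = h ^ m * (h * g) := by rw [pow_succ]; group
        _ = h ^ m * (d⁻¹ * (g * h)) := by rw [hhg]
        _ = (h ^ m * d⁻¹) * (g * h) := by group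
        _ = (d⁻¹ * h ^ m) * (g * h) := by rw [(hch.pow_right m).eq]
        _ = d⁻¹ * ((h ^ m * g) * h) := by group
        _ = d⁻¹ * ((d⁻¹) ^ m * (g * h ^ m) * h) := by rw [ih]
        _ = (d⁻¹) ^ (m + 1) * (g * h ^ (m + 1)) := by rw [pow_succ' d⁻¹, pow_succ h]; group
  induction n with
  | zero => simp
  | succ n ih =>
    rw [pow_succ, ih]
    have h2 : (n + 1).choose 2 = n.choose 2 + n := by
      have h0 : (n + 1).choose 2 = n.choose 1 + n.choose 2 := Nat.choose_succ_succ' n 1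
      rw [Nat.choose_one_right] at h0; omega
    rw [h2, pow_add, pow_succ g, pow_succ h]
    have h3 : g ^ n * h ^ n * (d⁻¹) ^ (n.choose 2) * (g * h) =
        g ^ n * (h ^ n * g) * h * (d⁻¹) ^ (n.choose 2) := by
      have hc2 : (d⁻¹) ^ (n.choose 2) * (g * h) = (g * h) * (d⁻¹) ^ (n.choose 2) :=
        ((hcg.mul_right hch).pow_left _).eq
      calc g ^ n * h ^ n * (d⁻¹) ^ (n.choose 2) * (g * h)
          = g ^ n * h ^ n * ((d⁻¹) ^ (n.choose 2) * (g * h)) := by group
        _ = g ^ n * h ^ n * ((g * h) * (d⁻¹) ^ (n.choose 2)) := by rw [hc2]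
        _ = _ := by group
    rw [h3, hhng]
    have hc3 : (d⁻¹) ^ n * (g * h ^ n) = (g * h ^ n) * (d⁻¹) ^ n :=
      ((hcg.mul_right (hch.pow_right n)).pow_left _).eq
    have hc4 : (d⁻¹) ^ n * h = h * (d⁻¹) ^ n := (hch.pow_left n).eq
    have hc5 : (d⁻¹) ^ n * (d⁻¹) ^ (n.choose 2) = (d⁻¹) ^ (n.choose 2) * (d⁻¹) ^ n := by
      rw [← pow_add, ← pow_add, add_comm]
    calc g ^ n * ((d⁻¹) ^ n * (g * h ^ n)) * h * (d⁻¹) ^ (n.choose 2)
        = g ^ n * ((g * h ^ n) * (d⁻¹) ^ n) * h * (d⁻¹) ^ (n.choose 2) := by rw [hc3]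
      _ = g ^ n * g * h ^ n * ((d⁻¹) ^ n * h) * (d⁻¹) ^ (n.choose 2) := by group
      _ = g ^ n * g * h ^ n * (h * (d⁻¹) ^ n) * (d⁻¹) ^ (n.choose 2) := by rw [hc4]
      _ = g ^ n * g * (h ^ n * h) * ((d⁻¹) ^ n * (d⁻¹) ^ (n.choose 2)) := by group
      _ = _ := by rw [hc5]; group

end grp

variable {M : Type*} [AddCommGroup M] [Finite M]

theorem cube_eq_one_of_nm (c : AA M) (h : ∀ w, Nm c w = 0) : c ^ 3 = 1 := by
  apply LinearEquiv.ext
  intro z
  have h1 := h (c z - z)
  simp only [Nm, map_sub] at h1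
  have h2 : (c ^ 3) z = c (c (c z)) := rfl
  rw [h2]
  have : c (c (c z)) - z = 0 := by rw [← h1]; abel
  simpa [sub_eq_zero] using this

theorem sum_cyc_shift (c : AA M) (q : ℕ) (hc : c ^ q = 1) (w : M) :
    ∑ i ∈ Finset.range q, (c ^ i) (c w) = ∑ i ∈ Finset.range q, (c ^ i) w := by
  have h1 := Finset.sum_range_succ (fun i => (c ^ i) w) q
  have h2 := Finset.sum_range_succ' (fun i => (c ^ i) w) q
  rw [h1] at h2
  simp only [pow_zero, one_app, hc, pow_succ_app] at h2
  exact (add_right_cancel h2).symm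

theorem exists_pow_eq (d : AA M) (t : ℕ) (htp : t.Prime) (a' i : ℕ) (hi0 : 0 < i) (hi : i < t ^ (a' + 1))
    (hd : d ^ (t ^ (a' + 1)) = 1) : ∃ m, (d ^ i) ^ m = d ^ (t ^ a') := by
  obtain ⟨c, i', hi', rfl⟩ := Nat.exists_eq_pow_mul_and_not_dvd hi0.ne' t htp.ne_one
  have hi'0 : 0 < i' := by
    rcases Nat.eq_zero_or_pos i' with h | h
    · simp [h] at hi0
    · exact h
  have hc : c < a' + 1 := by
    have h1 : t ^ c ≤ t ^ c * i' := Nat.le_mul_of_pos_right _ hi'0
    exact (Nat.pow_lt_pow_iff_right htp.one_lt).1 (lt_of_le_of_lt h1 hi)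
  have hcop : Nat.Coprime i' t := ((Nat.Prime.coprime_iff_not_dvd htp).2 hi').symm
  obtain ⟨m, -, hm⟩ := Nat.exists_mul_mod_eq_one_of_coprime hcop htp.one_lt
  refine ⟨t ^ (a' - c) * m, ?_⟩
  have h2 : i' * m = t * (i' * m / t) + 1 := by
    have := Nat.div_add_mod (i' * m) t
    rw [hm] at this
    exact this.symm
  have h3 : t ^ c * i' * (t ^ (a' - c) * m) = t ^ (a' + 1) * (i' * m / t) + t ^ a' := by
    have h4 : t ^ c * t ^ (a' - c) = t ^ a' := by
      rw [← pow_add]; congr 1; omega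
    calc t ^ c * i' * (t ^ (a' - c) * m) = (t ^ c * t ^ (a' - c)) * (i' * m) := by ring
      _ = t ^ a' * (t * (i' * m / t) + 1) := by rw [h4, ← h2]
      _ = _ := by rw [pow_succ]; ring
  rw [← pow_mul, h3, pow_add, pow_mul, hd, one_pow, one_mul]

theorem hh_prime (t : ℕ) [Fact t.Prime] (ht : t.Coprime (Nat.card M)) (ht3 : t ≠ 3) (ht2 : t ≠ 2)
    (x g : AA M) (hx3 : x ^ 3 = 1) (hN : ∀ w, Nm x w = 0) (hN' : ∀ w, Nm (x * g) w = 0) (k : ℕ)
    (hg : g ^ (t ^ k) = 1)
    (hdg : (g * (x * g * x⁻¹) * g⁻¹ * (x * g * x⁻¹)⁻¹) * g = g * (g * (x * g * x⁻¹) * g⁻¹ * (x * g * x⁻¹)⁻¹))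
    (hdh : (g * (x * g * x⁻¹) * g⁻¹ * (x * g * x⁻¹)⁻¹) * (x * g * x⁻¹) = (x * g * x⁻¹) * (g * (x * g * x⁻¹) * g⁻¹ * (x * g * x⁻¹)⁻¹)) :
    g * (x * g * x⁻¹) * g⁻¹ * (x * g * x⁻¹)⁻¹ = 1 := by
  classical
  have htp : t.Prime := Fact.out
  set h : AA M := x * g * x⁻¹ with hh
  set d : AA M := g * h * g⁻¹ * h⁻¹ with hd
  have hcdg : Commute d g := hdg
  have hcdh : Commute d h := hdh
  have hd1 : g * h * g⁻¹ = d * h := by rw [hd]; group
  -- order facts
  have hh_pow : h ^ (t ^ k) = 1 := by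
    have : h ^ (t ^ k) = x * g ^ (t ^ k) * x⁻¹ := by
      rw [hh, conj_pow]
    rw [this, hg]; group
  have hdk : d ^ (t ^ k) = 1 := by
    have h1 := conj_pow_eq hd1 hdg (t ^ k)
    rw [hg] at h1
    have h2 : h = d ^ (t ^ k) * h := by simpa using h1
    have h3 : d ^ (t ^ k) * h = 1 * h := by rw [one_mul]; exact h2.symm
    exact mul_right_cancel h3
  obtain ⟨a, -, ha⟩ := (Nat.dvd_prime_pow htp).1 (orderOf_dvd_of_pow_eq_one hdk)
  by_cases ha0 : a = 0
  · rw [ha0, pow_zero] at ha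
    exact orderOf_eq_one_iff.mp ha
  exfalso
  have hqodd : Odd (t ^ a) := (htp.odd_of_ne_two ht2).pow
  set q := t ^ a with hq
  have hdq : d ^ q = 1 := by rw [← ha]; exact pow_orderOf_eq_one d
  have hqcop : q.Coprime (Nat.card M) := Nat.Coprime.pow_left a ht
  -- the relation g h f = 1
  set f : AA M := x * h * x⁻¹ with hf
  have hxg3 := cube_eq_one_of_nm (x * g) hN'
  have hx3' : x * x * x = 1 := by
    have := hx3
    rwa [pow_succ, pow_two] at this
  have hhfg : h * f * g = 1 := by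
    have h1 : (x * g) ^ 3 = h * f * ((x * x * x) * g * (x * x * x)⁻¹) * (x * x * x) := by
      simp only [hf, hh, pow_succ, pow_zero]
      group
    rw [hxg3, hx3'] at h1
    simpa using h1.symm
  have hghf : g * h * f = 1 := by
    have : g * h * f = g * (h * f * g) * g⁻¹ := by group
    rw [this, hhfg]; group
  have hfi : f = (g * h)⁻¹ := eq_inv_of_mul_eq_one_right hghf
  set a₀ := g ^ q with ha₀
  set b₀ := h ^ q with hb₀
  have hgqh : a₀ * h = h * a₀ := by
    have h1 := conj_pow_eq hd1 hdg q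
    rw [hdq, one_mul] at h1
    have : a₀ * h = (a₀ * h * a₀⁻¹) * a₀ := by group
    rw [this, h1]
  have hab : a₀ * b₀ = b₀ * a₀ := ((show Commute a₀ h from hgqh).pow_right q).eq
  have hC : (d⁻¹) ^ (q.choose 2) = 1 := by
    obtain ⟨m, hm⟩ := hqodd
    have h1 : q.choose 2 = q * m := by
      rw [Nat.choose_two_right, hm]
      have : (2 * m + 1) * (2 * m + 1 - 1) = 2 * ((2 * m + 1) * m) := by
        simp only [Nat.add_sub_cancel]; ring
      rw [this, Nat.mul_div_cancel_left _ (by norm_num)]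
    rw [h1, pow_mul, inv_pow, hdq]; simp
  have hmulq : (g * h) ^ q = a₀ * b₀ := by
    rw [mul_pow_class2 rfl hdg hdh, hC, mul_one]
  have hxa : x * a₀ * x⁻¹ = b₀ := by rw [ha₀, hb₀, hh, conj_pow]
  have hxb : x * b₀ * x⁻¹ = (a₀ * b₀)⁻¹ := by
    rw [hb₀, ← conj_pow, ← hf, hfi, inv_pow, hmulq]
  let S : Set (AA M) := {a₀, b₀}
  have hS : ∀ u ∈ S, ∀ v ∈ S, u * v = v * u := by
    intro u hu v hv
    rcases hu with rfl | hu <;> rcases hv with rfl | hv
    · rfl
    · rw [Set.mem_singleton_iff.mp hv]; exact hab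
    · rw [Set.mem_singleton_iff.mp hu]; exact hab.symm
    · rw [Set.mem_singleton_iff.mp hu, Set.mem_singleton_iff.mp hv]
  let Y := Subgroup.closure S
  have hc : ∀ u ∈ Y, ∀ v ∈ Y, u * v = v * u := by
    intro u hu v hv
    letI := Subgroup.closureCommGroupOfComm hS
    have := mul_comm (⟨u, hu⟩ : Subgroup.closure S) ⟨v, hv⟩
    exact congrArg Subtype.val this
  have haY : a₀ ∈ Y := Subgroup.subset_closure (Or.inl rfl)
  have hbY : b₀ ∈ Y := Subgroup.subset_closure (Or.inr rfl)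
  have hxY : ∀ u ∈ Y, x * u * x⁻¹ ∈ Y := by
    intro u hu
    induction hu using Subgroup.closure_induction with
    | mem u hu =>
      rcases hu with rfl | hu
      · rw [hxa]; exact hbY
      · rw [Set.mem_singleton_iff.mp hu, hxb]; exact Y.inv_mem (Y.mul_mem haY hbY)
    | one => simp
    | mul u v _ _ ihu ihv =>
      have : x * (u * v) * x⁻¹ = (x * u * x⁻¹) * (x * v * x⁻¹) := by group
      rw [this]; exact Y.mul_mem ihu ihv
    | inv u _ ih =>
      have : x * u⁻¹ * x⁻¹ = (x * u * x⁻¹)⁻¹ := by group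
      rw [this]; exact Y.inv_mem ih
  have hQ : ∀ u ∈ Y, u * (x * u * x⁻¹) * (x * (x * u * x⁻¹) * x⁻¹) = 1 ∧ u ^ (t ^ k) = 1 := by
    intro u hu
    induction hu using Subgroup.closure_induction with
    | mem u hu =>
      rcases hu with rfl | hu
      · refine ⟨?_, ?_⟩
        · rw [hxa, hxb]; group
        · rw [ha₀, pow_right_comm, hg, one_pow]
      · rw [Set.mem_singleton_iff.mp hu]
        refine ⟨?_, ?_⟩
        · rw [hxb]
          have : x * (a₀ * b₀)⁻¹ * x⁻¹ = ((x * a₀ * x⁻¹) * (x * b₀ * x⁻¹))⁻¹ := by group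
          rw [this, hxa, hxb]; group
        · rw [hb₀, pow_right_comm, hh_pow, one_pow]
    | one => simp
    | mul u v hu hv ihu ihv =>
      refine ⟨?_, ?_⟩
      · have e1 : x * (u * v) * x⁻¹ = (x * u * x⁻¹) * (x * v * x⁻¹) := by group
        have e2 : x * ((x * u * x⁻¹) * (x * v * x⁻¹)) * x⁻¹ =
            (x * (x * u * x⁻¹) * x⁻¹) * (x * (x * v * x⁻¹) * x⁻¹) := by group
        rw [e1, e2]
        set p := x * u * x⁻¹
        set p' := x * v * x⁻¹
        set r := x * p * x⁻¹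
        set r' := x * p' * x⁻¹
        have hp : p ∈ Y := hxY u hu
        have hp' : p' ∈ Y := hxY v hv
        have hr : r ∈ Y := hxY p hp
        have c1 : v * p = p * v := hc v hv p hp
        have c2 : (v * p') * r = r * (v * p') := hc _ (Y.mul_mem hv hp') r hr
        calc u * v * (p * p') * (r * r') = u * (v * p) * p' * (r * r') := by group
          _ = u * (p * v) * p' * (r * r') := by rw [c1]
          _ = u * p * ((v * p') * r) * r' := by group
          _ = u * p * (r * (v * p')) * r' := by rw [c2]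
          _ = (u * p * r) * (v * p' * r') := by group
          _ = 1 := by rw [ihu.1, ihv.1, one_mul]
      · have : Commute u v := hc u hu v hv
        rw [this.mul_pow, ihu.2, ihv.2, one_mul]
    | inv u hu ih =>
      refine ⟨?_, by rw [inv_pow, ih.2, inv_one]⟩
      have e1 : x * u⁻¹ * x⁻¹ = (x * u * x⁻¹)⁻¹ := by group
      have e2 : x * (x * u * x⁻¹)⁻¹ * x⁻¹ = (x * (x * u * x⁻¹) * x⁻¹)⁻¹ := by simp only [mul_inv_rev, inv_inv, mul_assoc]
      rw [e1, e2, ← mul_inv_rev, ← mul_inv_rev, inv_eq_one]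
      set p := x * u * x⁻¹
      set r := x * p * x⁻¹
      have hp : p ∈ Y := hxY u hu
      have hr : r ∈ Y := hxY p hp
      have c1 : r * p = p * r := hc r hr p hp
      have c2 : (p * r) * u = u * (p * r) := hc _ (Y.mul_mem hp hr) u hu
      calc r * (p * u) = (r * p) * u := by group
        _ = (p * r) * u := by rw [c1]
        _ = u * (p * r) := c2
        _ = u * p * r := by group
        _ = 1 := ih.1
  have hfixY : ∀ u ∈ Y, x * u * x⁻¹ = u → u = 1 := by
    intro u hu h1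
    have h2 := (hQ u hu).1
    rw [h1, h1] at h2
    have h3 : u ^ 3 = 1 := by
      rw [pow_succ, pow_two]; exact h2
    have h4 := (hQ u hu).2
    have h5 := Nat.dvd_gcd (orderOf_dvd_of_pow_eq_one h3) (orderOf_dvd_of_pow_eq_one h4)
    have h6 : Nat.Coprime 3 (t ^ k) :=
      Nat.Coprime.pow_right k ((Nat.coprime_primes Nat.prime_three htp).2 (Ne.symm ht3))
    rw [h6.gcd_eq_one] at h5
    exact orderOf_eq_one_iff.mp (Nat.dvd_one.mp h5)
  have hcopY : (Nat.card Y).Coprime (Nat.card M) := by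
    have hp : IsPGroup t Y := fun u => ⟨k, Subtype.ext (by simpa using (hQ u u.2).2)⟩
    obtain ⟨n, hn⟩ := IsPGroup.iff_card.mp hp
    rw [hn]
    exact Nat.Coprime.pow_left n ht
  have htriv := trivial_of_norm_fixed Y hc x hx3 hxY hfixY hcopY ⊤ (by simp) (by simp)
    (fun w _ u _ => by rw [hN w]; simp)
  have hb1 : b₀ = 1 := LinearEquiv.ext fun w => htriv b₀ hbY w trivial
  -- the sum operator
  let P : M → M := fun w => ∑ i ∈ Finset.range q, (h ^ i) w
  have hPh : ∀ w, P (h w) = P w := fun w => sum_cyc_shift h q hb1 w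
  have hPsub : ∀ a c, P (a - c) = P a - P c := by
    intro a c
    simp only [P, map_sub, Finset.sum_sub_distrib]
  have hE : ∀ w, x w - h (x w) = h w - g⁻¹ w := by
    intro w
    have h1 := hN' (g⁻¹ w)
    have h2 := hN w
    simp only [Nm, mul_app, self_inv] at h1 h2
    have h3 : x (g (x w)) = h (x (x w)) := by
      simp [hh]
    have h4 : x (x w) = - w - x w := by
      rw [eq_sub_iff_add_eq, eq_neg_iff_add_eq_zero]
      rw [← h2]; abel
    rw [h3, h4, map_sub, map_neg] at h1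
    have h5 : x w - h (x w) - (h w - g⁻¹ w) = g⁻¹ w + x w + (-h w - h (x w)) := by abel
    rw [← sub_eq_zero, h5, h1]
  have hPgi : ∀ w, P (g⁻¹ w) = P w := by
    intro w
    have h1 := congrArg P (hE w)
    rw [hPsub, hPsub, hPh, hPh, sub_self] at h1
    have h2 := sub_eq_zero.mp h1.symm
    exact h2.symm
  have hPg : ∀ w, P (g w) = P w := by
    intro w
    have := hPgi (g w)
    rw [inv_self] at this
    exact this.symm
  have hPhi : ∀ w, P (h⁻¹ w) = P w := by
    intro w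
    have := hPh (h⁻¹ w)
    rw [self_inv] at this
    exact this.symm
  have hPd : ∀ w, P (d w) = P w := by
    intro w
    have h1 : d w = g (h (g⁻¹ (h⁻¹ w))) := by simp [hd]
    rw [h1, hPg, hPh, hPgi, hPhi]
  have hPdn : ∀ n w, P ((d ^ n) w) = P w := by
    intro n w
    induction n with
    | zero => simp
    | succ n ih => rw [pow_succ_app', hPd, ih]
  obtain ⟨a', rfl⟩ : ∃ a', a = a' + 1 := ⟨a - 1, by omega⟩
  set d₀ := d ^ (t ^ a') with hd₀
  have hd₀t : d₀ ^ t = 1 := by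
    rw [hd₀, ← pow_mul, ← pow_succ, ← hq, hdq]
  have hcomm0 : ∀ u : AA M, Commute d u → ∀ v, u (d₀ v - v) = d₀ (u v) - u v := by
    intro u hu v
    have h1 : Commute d₀ u := hu.pow_left _
    have h2 : u (d₀ v) = d₀ (u v) := by
      have := congrArg (fun φ : AA M => φ v) h1.eq
      exact this.symm
    rw [map_sub, h2]
  have hP0 : ∀ v, P (d₀ v - v) = 0 := by
    intro v
    rw [hPsub, hd₀, hPdn, sub_self]
  have hconj : ∀ j i, g ^ j * h ^ i * (g ^ j)⁻¹ = d ^ (j * i) * h ^ i := by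
    intro j i
    rw [← conj_pow, conj_pow_eq hd1 hdg j]
    have hcc : Commute (d ^ j) h := hcdh.pow_left j
    rw [hcc.mul_pow, ← pow_mul]
  have hz : ∀ v j, ∑ i ∈ Finset.range q, (d ^ (j * i)) ((h ^ i) (d₀ v - v)) = 0 := by
    intro v j
    have h1 : (g ^ j)⁻¹ (d₀ v - v) = d₀ ((g ^ j)⁻¹ v) - (g ^ j)⁻¹ v :=
      hcomm0 _ (((hcdg.pow_right j).inv_right)) v
    have h2 := hP0 ((g ^ j)⁻¹ v)
    rw [← h1] at h2
    have h3 : (g ^ j) (P ((g ^ j)⁻¹ (d₀ v - v))) = 0 := by rw [h2, map_zero]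
    simp only [P, map_sum] at h3
    rw [← h3]
    apply Finset.sum_congr rfl
    intro i _
    have := congrArg (fun φ : AA M => φ (d₀ v - v)) (hconj j i)
    simp only [mul_app] at this
    exact this.symm
  have hinner : ∀ i, 0 < i → i < q → ∀ v, ∑ j ∈ Finset.range q, (d ^ (j * i)) (d₀ v - v) = 0 := by
    intro i hi0 hiq v
    set e := d ^ i with he
    have he1 : ∀ j, d ^ (j * i) = e ^ j := fun j => by rw [he, ← pow_mul, mul_comm]
    have heq : e ^ q = 1 := by rw [he, ← pow_mul, mul_comm, pow_mul, hdq, one_pow]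
    obtain ⟨m, hm⟩ := exists_pow_eq d t htp a' i hi0 hiq (by rw [← hq]; exact hdq)
    simp only [he1]
    set s' := ∑ j ∈ Finset.range q, (e ^ j) v with hs'
    have h1 : ∑ j ∈ Finset.range q, (e ^ j) (d₀ v - v) = d₀ s' - s' := by
      have h2 : ∀ j, (e ^ j) (d₀ v - v) = d₀ ((e ^ j) v) - (e ^ j) v := by
        intro j
        refine hcomm0 _ ?_ v
        exact ((Commute.refl d).pow_right i).pow_right j
      simp only [h2, Finset.sum_sub_distrib, hs', map_sum]
    rw [h1]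
    have h3 : e (d₀ s' - s') = d₀ s' - s' := by
      rw [← h1, map_sum]
      have h4 : ∀ j, e ((e ^ j) (d₀ v - v)) = (e ^ j) (e (d₀ v - v)) := by
        intro j
        rw [← pow_succ_app', pow_succ_app]
      simp only [h4]
      exact sum_cyc_shift e q heq _
    have h5 : ∀ n : ℕ, (e ^ n) (d₀ s' - s') = d₀ s' - s' := by
      intro n
      induction n with
      | zero => simp
      | succ n ih => rw [pow_succ_app', ih, h3]
    have h6 : d₀ (d₀ s' - s') = d₀ s' - s' := by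
      have := h5 m
      rwa [hm] at this
    exact fixed_image_zero d₀ t hd₀t ht s' h6
  have hqpos : 0 < q := pow_pos htp.pos _
  have hzero : ∀ v, d₀ v - v = 0 := by
    intro v
    have h1 : ∑ j ∈ Finset.range q, ∑ i ∈ Finset.range q, (d ^ (j * i)) ((h ^ i) (d₀ v - v)) = 0 :=
      Finset.sum_eq_zero (fun j _ => hz v j)
    rw [Finset.sum_comm] at h1
    rw [Finset.sum_eq_single 0] at h1
    · simp only [mul_zero, pow_zero, one_app, Finset.sum_const, Finset.card_range] at h1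
      exact eq_zero_of_nsmul hqcop h1
    · intro i hi hi0
      have hi1 : i < q := Finset.mem_range.mp hi
      have h2 : (h ^ i) (d₀ v - v) = d₀ ((h ^ i) v) - (h ^ i) v :=
        hcomm0 _ (hcdh.pow_right i) v
      rw [h2]
      exact hinner i (Nat.pos_of_ne_zero hi0) hi1 _
    · intro h0
      exact absurd (Finset.mem_range.mpr hqpos) h0
  have hd01 : d₀ = 1 := LinearEquiv.ext fun v => sub_eq_zero.mp (hzero v)
  have hlt : t ^ a' < orderOf d := by
    rw [ha]
    exact Nat.pow_lt_pow_right htp.one_lt (Nat.lt_succ_self a')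
  exact pow_ne_one_of_lt_orderOf (pow_pos htp.pos _).ne' hlt hd01

end Cfsg.Agent.H13.SF
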