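import Cfsg.Agent.Lib.H13.SF2
import Cfsg.Agent.Lib.H06.CoprimeCoset

set_option autoImplicit false

namespace Cfsg.Agent.H13.SF

open Pointwise in
theorem cover3 {G : Type*} [Group G] [Finite G] (hG : (Nat.card G).Coprime 6)
    (A₀ A₁ A₂ : Subgroup G) (h : ∀ g, g ∈ A₀ ∨ g ∈ A₁ ∨ g ∈ A₂) : A₀ = ⊤ ∨ A₁ = ⊤ ∨ A₂ = ⊤ := by
  classical
  let H : Fin 3 → Subgroup G := ![A₀, A₁, A₂]
  have hcov : ⋃ i ∈ (Finset.univ : Finset (Fin 3)), ((1 : Fin 3 → G) i) • (H i : Set G) = Set.univ := by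
    apply Set.eq_univ_of_forall
    intro g
    simp only [Finset.mem_univ, Set.iUnion_true, Set.mem_iUnion, Pi.one_apply, one_smul]
    rcases h g with h | h | h
    · exact ⟨0, h⟩
    · exact ⟨1, h⟩
    · exact ⟨2, h⟩
  obtain ⟨i, -, hi, hle⟩ := Subgroup.exists_index_le_card_of_leftCoset_cover hcov
  have hdvd : (H i).index ∣ Nat.card G := Subgroup.index_dvd_card _
  have hle3 : (H i).index ≤ 3 := by simpa using hle
  have hne0 : (H i).index ≠ 0 := Subgroup.index_ne_zero_of_finite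
  have h1 : (H i).index = 1 := by
    have hc : (H i).index.Coprime 6 := Nat.Coprime.coprime_dvd_left hdvd hG
    interval_cases hh : (H i).index
    · exact absurd rfl hne0
    · rfl
    · exact absurd hc (by decide)
    · exact absurd hc (by decide)
  have h2 : H i = ⊤ := Subgroup.index_eq_one.mp h1
  fin_cases i
  · exact Or.inl h2
  · exact Or.inr (Or.inl h2)
  · exact Or.inr (Or.inr h2)

variable {M : Type*} [AddCommGroup M] [Finite M]

/-- The image of `v - 1`. -/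
def Im1 (v : AA M) : AddSubgroup M where
  carrier := {z | ∃ w, v w - w = z}
  add_mem' := by
    rintro _ _ ⟨a, rfl⟩ ⟨c, rfl⟩
    exact ⟨a + c, by rw [map_add]; abel⟩
  zero_mem' := ⟨0, by simp⟩
  neg_mem' := by
    rintro _ ⟨a, rfl⟩
    exact ⟨-a, by rw [map_neg]; abel⟩

theorem mem_Im1 (v : AA M) (z : M) : z ∈ Im1 v ↔ ∃ w, v w - w = z := Iff.rfl

theorem Im1_ne_bot {v : AA M} (hv : v ≠ 1) : Im1 v ≠ ⊥ := by
  intro h
  apply hv
  apply LinearEquiv.ext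
  intro w
  have : v w - w ∈ Im1 v := ⟨w, rfl⟩
  rw [h] at this
  simpa [sub_eq_zero] using this

/-- Sum over a subgroup. -/
noncomputable def fS (Y : Subgroup (AA M)) (z : M) : M :=
  letI := Fintype.ofFinite Y
  ∑ u : Y, (u : AA M) z

theorem fS_def (Y : Subgroup (AA M)) [Fintype Y] (z : M) : fS Y z = ∑ u : Y, (u : AA M) z := by
  unfold fS
  congr!

theorem fS_left (Y : Subgroup (AA M)) {v : AA M} (hv : v ∈ Y) (z : M) : v (fS Y z) = fS Y z := by
  classical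
  letI := Fintype.ofFinite Y
  rw [fS_def, map_sum]
  let τ : Y → Y := fun u => ⟨v * u, Y.mul_mem hv u.2⟩
  have hτ : Function.Bijective τ := by
    apply Function.Injective.bijective_of_finite
    intro a b hab
    have : v * (a : AA M) = v * b := congrArg Subtype.val hab
    exact Subtype.ext (mul_left_cancel this)
  exact hτ.sum_comp (fun u : Y => (u : AA M) z)

theorem fS_right (Y : Subgroup (AA M)) {v : AA M} (hv : v ∈ Y) (z : M) : fS Y (v z) = fS Y z := by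
  classical
  letI := Fintype.ofFinite Y
  rw [fS_def, fS_def]
  let τ : Y → Y := fun u => ⟨u * v, Y.mul_mem u.2 hv⟩
  have hτ : Function.Bijective τ := by
    apply Function.Injective.bijective_of_finite
    intro a b hab
    have : (a : AA M) * v = b * v := congrArg Subtype.val hab
    exact Subtype.ext (mul_right_cancel this)
  exact hτ.sum_comp (fun u : Y => (u : AA M) z)

theorem fS_add (Y : Subgroup (AA M)) (a b : M) : fS Y (a + b) = fS Y a + fS Y b := by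
  classical
  letI := Fintype.ofFinite Y
  simp only [fS_def, map_add, Finset.sum_add_distrib]

theorem fS_sub (Y : Subgroup (AA M)) (a b : M) : fS Y (a - b) = fS Y a - fS Y b := by
  classical
  letI := Fintype.ofFinite Y
  simp only [fS_def, map_sub, Finset.sum_sub_distrib]

theorem fS_comm (Y : Subgroup (AA M)) (φ : AA M) (hφ : ∀ u ∈ Y, φ * u = u * φ) (z : M) :
    φ (fS Y z) = fS Y (φ z) := by
  classical
  letI := Fintype.ofFinite Y
  rw [fS_def, fS_def, map_sum]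
  refine Finset.sum_congr rfl (fun u _ => ?_)
  have := hφ u u.2
  exact LinearEquiv.congr_fun this z

theorem fS_conj (Y : Subgroup (AA M)) (ζ : AA M) (hζ : ∀ u ∈ Y, ζ * u * ζ⁻¹ ∈ Y) (z : M) :
    ζ (fS Y z) = fS Y (ζ z) := by
  classical
  letI := Fintype.ofFinite Y
  rw [fS_def, fS_def, map_sum]
  let τ : Y → Y := fun u => ⟨ζ * u * ζ⁻¹, hζ u u.2⟩
  have hτ : Function.Bijective τ := by
    apply Function.Injective.bijective_of_finite
    intro a b hab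
    have : ζ * (a : AA M) * ζ⁻¹ = ζ * b * ζ⁻¹ := congrArg Subtype.val hab
    exact Subtype.ext (by simpa using this)
  rw [← hτ.sum_comp (fun u : Y => (u : AA M) (ζ z))]
  refine Finset.sum_congr rfl (fun u _ => ?_)
  simp [τ]

theorem fS_const (Y : Subgroup (AA M)) (z : M) (h : ∀ u ∈ Y, u z = z) : fS Y z = Nat.card Y • z := by
  classical
  letI := Fintype.ofFinite Y
  rw [fS_def]
  have : ∀ u : Y, (u : AA M) z = z := fun u => h u u.2
  simp only [this, Finset.sum_const, Finset.card_univ, Nat.card_eq_fintype_card]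

/-- Kernel of the sum operator. -/
def kerS (Y : Subgroup (AA M)) : AddSubgroup M where
  carrier := {z | fS Y z = 0}
  add_mem' := by
    intro a b ha hb
    simp only [Set.mem_setOf_eq] at *
    rw [fS_add, ha, hb, add_zero]
  zero_mem' := by
    have := fS_sub Y (0 : M) 0
    simpa using this
  neg_mem' := by
    intro a ha
    simp only [Set.mem_setOf_eq] at *
    have h := fS_sub Y (0 : M) a
    have h0 : fS Y (0 : M) = 0 := by
      have := fS_sub Y (0 : M) 0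
      simpa using this
    rw [zero_sub, h0, ha, sub_zero] at h
    exact h

theorem mem_kerS (Y : Subgroup (AA M)) (z : M) : z ∈ kerS Y ↔ fS Y z = 0 := Iff.rfl

theorem nm_fixed (x : AA M) (hx3 : x ^ 3 = 1) (z : M) : x (Nm x z) = Nm x z := by
  have h : x (x (x z)) = z := by
    have := LinearEquiv.congr_fun hx3 z
    exact this
  simp only [Nm, map_add, h]
  abel

theorem span_ext (Y : Subgroup (AA M)) (x : AA M) (hx3 : x ^ 3 = 1) (hxY : ∀ u ∈ Y, x * u * x⁻¹ ∈ Y)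
    (hfix : ∀ u ∈ Y, x * u * x⁻¹ = u → u = 1) (hcop : (Nat.card Y).Coprime (Nat.card M))
    (A B : M →+ M) (hA : ∀ u ∈ Y, ∀ z, A (u z) = u (A z)) (hB : ∀ u ∈ Y, ∀ z, B (u z) = u (B z))
    (hL : ∀ l, x l = l → A l = B l) (w : M) (hw : fS Y w = 0) : A w = B w := by
  classical
  letI := Fintype.ofFinite Y
  have h0 := sum_conj Y x hx3 hxY hfix w
  have hxw : fS Y (x w) = 0 := by rw [← fS_conj Y x hxY, hw, map_zero]
  have hxxw : fS Y (x (x w)) = 0 := by rw [← fS_conj Y x hxY, hxw, map_zero]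
  rw [fS_def] at hxw hxxw
  rw [hxw, hxxw, add_zero, add_zero, ← Nat.card_eq_fintype_card] at h0
  have hAB : ∀ C : M →+ M, (∀ u ∈ Y, ∀ z, C (u z) = u (C z)) →
      Nat.card Y • C w = ∑ u : Y, (u : AA M) (C (Nm x ((u : AA M)⁻¹ w))) := by
    intro C hC
    rw [← map_nsmul, ← h0, map_sum]
    exact Finset.sum_congr rfl (fun u _ => hC u u.2 _)
  have h1 := hAB A hA
  have h2 := hAB B hB
  have h3 : Nat.card Y • (A w - B w) = 0 := by
    rw [nsmul_sub, h1, h2, sub_eq_zero]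
    refine Finset.sum_congr rfl (fun u _ => ?_)
    rw [hL _ (nm_fixed x hx3 _)]
  exact sub_eq_zero.mp (eq_zero_of_nsmul hcop h3)

/-- The trace operator. -/
noncomputable def trOp (x e : AA M) : M →+ M :=
  AddMonoidHom.mk' (fun z => e z + (x * e * x⁻¹) z + (x * (x * e * x⁻¹) * x⁻¹) z)
    (by intro a b; simp only [map_add]; abel)

theorem trOp_apply (x e : AA M) (z : M) :
    trOp x e z = e z + (x * e * x⁻¹) z + (x * (x * e * x⁻¹) * x⁻¹) z := rfl

theorem inv_of_fix (x : AA M) (l : M) (h : x l = l) : x⁻¹ l = l := by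
  conv_lhs => rw [← h]
  exact inv_self x l

theorem trOp_fix (x e : AA M) (l : M) (h : x l = l) : trOp x e l = Nm x (e l) := by
  have h1 := inv_of_fix x l h
  simp only [trOp_apply, Nm, mul_app, h1]

theorem ca (α β : AA M) (h : α * β = β * α) (z : M) : α (β z) = β (α z) :=
  LinearEquiv.congr_fun h z

theorem poly3 (a b c p q s : AA M) (hab : a * b = b * a) (hac : a * c = c * a) (hbc : b * c = c * b)
    (hpa : p * a = a * p) (hpb : p * b = b * p) (hpc : p * c = c * p) (hpq : p * q = q * p)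
    (hps : p * s = s * p) (hqs : q * s = s * q)
    (h1 : a * b * c = 1) (h2 : p * q * s = 1) (w : M)
    (hI : a (p (p w)) + b (p (p w)) + c (p (p w)) = p (p (p w)) + q (p (p w)) + s (p (p w)))
    (hII : a⁻¹ (p w) + b⁻¹ (p w) + c⁻¹ (p w) = p⁻¹ (p w) + q⁻¹ (p w) + s⁻¹ (p w)) :
    p (p (p w - c w) - b (p w - c w)) - a (p (p w - c w) - b (p w - c w)) = 0 := by
  have ia : a⁻¹ = b * c := (eq_inv_of_mul_eq_one_right (by rw [← mul_assoc]; exact h1)).symm
  have ib : b⁻¹ = a * c := (eq_inv_of_mul_eq_one_right (by rw [← mul_assoc, ← hab]; exact h1)).symm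
  have ic : c⁻¹ = a * b := (eq_inv_of_mul_eq_one_left h1).symm
  have iq : q⁻¹ = p * s := (eq_inv_of_mul_eq_one_right (by rw [← mul_assoc, ← hpq]; exact h2)).symm
  have is : s⁻¹ = p * q := (eq_inv_of_mul_eq_one_left h2).symm
  have e1 : p (p (c w)) = c (p (p w)) := by rw [ca p c hpc, ca p c hpc]
  have e2 : p (b (p w)) = b (p (p w)) := ca p b hpb _
  have e3 : p (b (c w)) = a⁻¹ (p w) := by rw [ia, ca p b hpb, ca p c hpc]; rfl
  have e4 : a (p (c w)) = b⁻¹ (p w) := by rw [ib, ca p c hpc]; rfl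
  have e5 : a (b (p w)) = c⁻¹ (p w) := by rw [ic]; rfl
  have e6 : a (b (c w)) = w := by
    have := LinearEquiv.congr_fun h1 w
    exact this
  have e7 : q (p (p w)) = s⁻¹ (p w) := by rw [is, ca q p hpq.symm]; rfl
  have e8 : s (p (p w)) = q⁻¹ (p w) := by rw [iq, ca s p hps.symm]; rfl
  have e9 : p⁻¹ (p w) = w := inv_self p w
  rw [e7, e8] at hI
  rw [e9] at hII
  simp only [map_sub, e1, e2, e3, e4, e5, e6]
  have key : p (p (p w)) - c (p (p w)) - (b (p (p w)) - a⁻¹ (p w)) -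
      (a (p (p w)) - b⁻¹ (p w) - (c⁻¹ (p w) - w)) =
      p (p (p w)) - (a (p (p w)) + b (p (p w)) + c (p (p w))) +
        (a⁻¹ (p w) + b⁻¹ (p w) + c⁻¹ (p w)) - w := by abel
  rw [key, hI, hII]
  abel

/-- Minimal invariant: equal operators on one nonzero vector are equal on everything. -/
theorem fact_inj {E : Subgroup (AA M)} (hc : ∀ a ∈ E, ∀ b ∈ E, a * b = b * a) {W₀ : AddSubgroup M}
    (hinv : ∀ u ∈ E, ∀ w ∈ W₀, u w ∈ W₀)
    (hmin : ∀ W' : AddSubgroup M, W' ≤ W₀ → (∀ u ∈ E, ∀ w ∈ W', u w ∈ W') → W' = ⊥ ∨ W' = W₀)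
    {u v : AA M} (hu : u ∈ E) (hv : v ∈ E) (hnt : ∃ w ∈ W₀, u w ≠ v w) :
    ∀ w ∈ W₀, u w = v w → w = 0 := by
  have hb : v⁻¹ * u ∈ E := E.mul_mem (E.inv_mem hv) hu
  have hnt' : ∃ w ∈ W₀, (v⁻¹ * u) w ≠ w := by
    obtain ⟨w, hw, hne⟩ := hnt
    refine ⟨w, hw, fun h => hne ?_⟩
    have h2 : v ((v⁻¹ * u) w) = v w := by rw [h]
    simpa using h2
  intro w hw he
  apply schur_fix hc hinv hmin hb hnt' w hw
  simp [he]

/-- One minimal section of the main commutator relation. -/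
theorem p1_step (Y : Subgroup (AA M)) (hc : ∀ a ∈ Y, ∀ b ∈ Y, a * b = b * a) (x : AA M)
    (hx3 : x ^ 3 = 1) (hxY : ∀ u ∈ Y, x * u * x⁻¹ ∈ Y) (hfix : ∀ u ∈ Y, x * u * x⁻¹ = u → u = 1)
    (hcop : (Nat.card Y).Coprime (Nat.card M)) (hY6 : (Nat.card Y).Coprime 6)
    (c : AA M) (hcx : c * x = x * c) (hcY : ∀ u ∈ Y, c * u * c⁻¹ ∈ Y)
    (hcL : ∀ w, x w = w → c w = w) (W₀ : AddSubgroup M) (hW₀ : W₀ ≤ kerS Y) (hne : W₀ ≠ ⊥)
    (hinv : ∀ u ∈ Y, ∀ w ∈ W₀, u w ∈ W₀)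
    (hmin : ∀ W' : AddSubgroup M, W' ≤ W₀ → (∀ u ∈ Y, ∀ w ∈ W', u w ∈ W') → W' = ⊥ ∨ W' = W₀) :
    ∀ e ∈ Y, ∀ w ∈ W₀, (c ^ 3 * e * (c ^ 3)⁻¹) w = e w := by
  classical
  have hcx' : ∀ z, c (x z) = x (c z) := ca c x hcx
  have hx3' : x * x * x = 1 := by
    have := hx3
    rwa [pow_succ, pow_two] at this
  -- trace relation
  have htr : ∀ e ∈ Y, ∀ w ∈ kerS Y, trOp x (c * e * c⁻¹) w = trOp x e w := by
    intro e he w hw
    have hd := hcY e he
    have hcomm : ∀ f ∈ Y, ∀ u ∈ Y, ∀ z, trOp x f (u z) = u (trOp x f z) := by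
      intro f hf u hu z
      simp only [trOp_apply, map_add]
      rw [ca u f (hc _ hu _ hf), ca u (x * f * x⁻¹) (hc _ hu _ (hxY f hf)),
        ca u (x * (x * f * x⁻¹) * x⁻¹) (hc _ hu _ (hxY _ (hxY f hf)))]
    refine span_ext Y x hx3 hxY hfix hcop _ _ (hcomm _ hd) (hcomm _ he) ?_ w hw
    intro l hl
    have hcl := hcL l hl
    have hcl' := inv_of_fix c l hcl
    have hxl' := inv_of_fix x l hl
    rw [trOp_fix x _ l hl, trOp_fix x _ l hl]
    have h1 : Nm x ((c * e * c⁻¹) l) = c (Nm x (e l)) := by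
      simp only [Nm, mul_app, hcl', map_add, hcx']
    rw [h1]
    exact hcL _ (nm_fixed x hx3 _)
  -- norm one
  have hn1 : ∀ e ∈ Y, e * (x * e * x⁻¹) * (x * (x * e * x⁻¹) * x⁻¹) = 1 := by
    intro e he
    have h1 := hxY e he
    have h2 := hxY _ h1
    apply hfix _ (Y.mul_mem (Y.mul_mem he h1) h2)
    have h3 : x * (x * (x * e * x⁻¹) * x⁻¹) * x⁻¹ = e := by
      calc x * (x * (x * e * x⁻¹) * x⁻¹) * x⁻¹ = (x * x * x) * e * (x * x * x)⁻¹ := by group
        _ = e := by rw [hx3']; group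
    have h4 : x * (e * (x * e * x⁻¹) * (x * (x * e * x⁻¹) * x⁻¹)) * x⁻¹ =
        (x * e * x⁻¹) * (x * (x * e * x⁻¹) * x⁻¹) * (x * (x * (x * e * x⁻¹) * x⁻¹) * x⁻¹) := by group
    rw [h4, h3, hc _ (Y.mul_mem h1 h2) _ he, mul_assoc e]
  obtain ⟨w₀, hw₀, hw₀ne⟩ : ∃ w ∈ W₀, w ≠ 0 := by
    by_contra h
    push_neg at h
    exact hne ((AddSubgroup.eq_bot_iff_forall _).mpr h)
  -- the kernel is stable
  have hkerY : ∀ u ∈ Y, ∀ w ∈ kerS Y, u w ∈ kerS Y := by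
    intro u hu w hw
    rw [mem_kerS, fS_right Y hu]
    exact hw
  -- each element lies in one of the three relations
  have hthree : ∀ e ∈ Y, (∀ w ∈ W₀, (c * e * c⁻¹) w = e w) ∨
      (∀ w ∈ W₀, (c * e * c⁻¹) w = (x * e * x⁻¹) w) ∨
      (∀ w ∈ W₀, (c * e * c⁻¹) w = (x * (x * e * x⁻¹) * x⁻¹) w) := by
    intro e he
    by_contra hcon
    push_neg at hcon
    obtain ⟨⟨w₁, hw₁, h₁⟩, ⟨w₂, hw₂, h₂⟩, ⟨w₃, hw₃, h₃⟩⟩ := hcon
    set p := c * e * c⁻¹ with hp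
    have hpY : p ∈ Y := hcY e he
    set b := x * e * x⁻¹ with hb
    have hbY : b ∈ Y := hxY e he
    set c' := x * b * x⁻¹ with hc'
    have hc'Y : c' ∈ Y := hxY b hbY
    set q := x * p * x⁻¹ with hq
    have hqY : q ∈ Y := hxY p hpY
    set s := x * q * x⁻¹ with hs
    have hsY : s ∈ Y := hxY q hqY
    have f1 := fact_inj hc hinv hmin hpY he ⟨w₁, hw₁, h₁⟩
    have f2 := fact_inj hc hinv hmin hpY hbY ⟨w₂, hw₂, h₂⟩
    have f3 := fact_inj hc hinv hmin hpY hc'Y ⟨w₃, hw₃, h₃⟩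
    have hWk : ∀ w ∈ W₀, w ∈ kerS Y := fun w hw => hW₀ hw
    have hn1e : e * b * c' = 1 := hn1 e he
    have hn1p : p * q * s = 1 := hn1 p hpY
    have hI := htr e he (p (p w₀)) (hWk _ (hinv p hpY _ (hinv p hpY _ hw₀)))
    have heinv := Y.inv_mem he
    have hII := htr e⁻¹ heinv (p w₀) (hWk _ (hinv p hpY _ hw₀))
    have hcinv : c * e⁻¹ * c⁻¹ = p⁻¹ := by rw [hp]; group
    have hxinv : ∀ u : AA M, x * u⁻¹ * x⁻¹ = (x * u * x⁻¹)⁻¹ := fun u => by group
    rw [hcinv, trOp_apply, trOp_apply, hxinv, hxinv, hxinv, hxinv] at hII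
    rw [trOp_apply, trOp_apply] at hI
    have hI' : e (p (p w₀)) + b (p (p w₀)) + c' (p (p w₀)) =
        p (p (p w₀)) + q (p (p w₀)) + s (p (p w₀)) := hI.symm
    have hII' : e⁻¹ (p w₀) + b⁻¹ (p w₀) + c'⁻¹ (p w₀) =
        p⁻¹ (p w₀) + q⁻¹ (p w₀) + s⁻¹ (p w₀) := hII.symm
    have hpoly := poly3 e b c' p q s (hc _ he _ hbY) (hc _ he _ hc'Y) (hc _ hbY _ hc'Y)
      (hc _ hpY _ he) (hc _ hpY _ hbY) (hc _ hpY _ hc'Y) (hc _ hpY _ hqY) (hc _ hpY _ hsY)
      (hc _ hqY _ hsY) hn1e hn1p w₀ hI' hII'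
    have hy1 : p w₀ - c' w₀ ∈ W₀ := W₀.sub_mem (hinv p hpY _ hw₀) (hinv c' hc'Y _ hw₀)
    have hy2 : p (p w₀ - c' w₀) - b (p w₀ - c' w₀) ∈ W₀ :=
      W₀.sub_mem (hinv p hpY _ hy1) (hinv b hbY _ hy1)
    have z2 := f1 _ hy2 (sub_eq_zero.mp hpoly)
    have z1 := f2 _ hy1 (sub_eq_zero.mp z2)
    exact hw₀ne (f3 _ hw₀ (sub_eq_zero.mp z1))
  -- subgroups
  have hA : ∀ z : AA M, (∀ u ∈ Y, z * u * z⁻¹ ∈ Y) → ∃ S : Subgroup Y, ∀ e : Y, e ∈ S ↔
      ∀ w ∈ W₀, (c * (e : AA M) * c⁻¹) w = (z * (e : AA M) * z⁻¹) w := by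
    intro z hz
    refine ⟨{ carrier := {e : Y | ∀ w ∈ W₀, (c * (e : AA M) * c⁻¹) w = (z * (e : AA M) * z⁻¹) w}
              mul_mem' := ?_, one_mem' := ?_, inv_mem' := ?_ }, fun e => Iff.rfl⟩
    · intro a b ha hb w hw
      have h1 : (c * ((a * b : Y) : AA M) * c⁻¹) = (c * (a : AA M) * c⁻¹) * (c * (b : AA M) * c⁻¹) := by
        simp only [Subgroup.coe_mul]; group
      have h2 : (z * ((a * b : Y) : AA M) * z⁻¹) = (z * (a : AA M) * z⁻¹) * (z * (b : AA M) * z⁻¹) := by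
        simp only [Subgroup.coe_mul]; group
      rw [h1, h2]
      show (c * (a : AA M) * c⁻¹) ((c * (b : AA M) * c⁻¹) w) = (z * (a : AA M) * z⁻¹) ((z * (b : AA M) * z⁻¹) w)
      rw [hb w hw, ha _ (hinv _ (hz _ b.2) w hw)]
    · intro w _
      simp
    · intro a ha w hw
      have hw' : (z * (a : AA M) * z⁻¹)⁻¹ w ∈ W₀ := hinv _ (Y.inv_mem (hz _ a.2)) w hw
      have h1 := ha _ hw'
      rw [self_inv] at h1
      have h2 : (c * ((a⁻¹ : Y) : AA M) * c⁻¹) = (c * (a : AA M) * c⁻¹)⁻¹ := by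
        simp only [Subgroup.coe_inv]; group
      have h3 : (z * ((a⁻¹ : Y) : AA M) * z⁻¹) = (z * (a : AA M) * z⁻¹)⁻¹ := by
        simp only [Subgroup.coe_inv]; group
      rw [h2, h3]
      conv_lhs => rw [← h1]
      exact inv_self _ _
  have hoY : ∀ u ∈ Y, (1 : AA M) * u * (1 : AA M)⁻¹ ∈ Y := fun u hu => by simpa using hu
  have hxxY : ∀ u ∈ Y, (x * x) * u * (x * x)⁻¹ ∈ Y := by
    intro u hu
    have := hxY _ (hxY u hu)
    convert this using 1
    group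
  obtain ⟨S₀, hS₀⟩ := hA 1 hoY
  obtain ⟨S₁, hS₁⟩ := hA x hxY
  obtain ⟨S₂, hS₂⟩ := hA (x * x) hxxY
  haveI : Finite Y := inferInstance
  have hcov := cover3 hY6 S₀ S₁ S₂ (by
    intro e
    rcases hthree e e.2 with h | h | h
    · left
      rw [hS₀]
      intro w hw
      rw [h w hw]; simp
    · right; left
      rw [hS₁]
      exact h
    · right; right
      rw [hS₂]
      intro w hw
      have he2 : x * (x * (e : AA M) * x⁻¹) * x⁻¹ = x * x * (e : AA M) * (x * x)⁻¹ := by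
        simp only [mul_inv_rev, mul_assoc]
      rw [h w hw, he2])
  -- pick z
  obtain ⟨z, hzY, hz3, hzc, hzrel⟩ : ∃ z : AA M, (∀ u ∈ Y, z * u * z⁻¹ ∈ Y) ∧ z ^ 3 = 1 ∧ c * z = z * c ∧
      ∀ e ∈ Y, ∀ w ∈ W₀, (c * e * c⁻¹) w = (z * e * z⁻¹) w := by
    rcases hcov with h | h | h
    · refine ⟨1, hoY, one_pow 3, by simp, fun e he w hw => ?_⟩
      have : (⟨e, he⟩ : Y) ∈ S₀ := by rw [h]; trivial
      exact (hS₀ _).mp this w hw
    · refine ⟨x, hxY, hx3, hcx, fun e he w hw => ?_⟩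
      have : (⟨e, he⟩ : Y) ∈ S₁ := by rw [h]; trivial
      exact (hS₁ _).mp this w hw
    · refine ⟨x * x, hxxY, ?_, ?_, fun e he w hw => ?_⟩
      · have hcomm : Commute x x := Commute.refl x
        rw [hcomm.mul_pow, hx3, one_mul]
      · calc c * (x * x) = (c * x) * x := (mul_assoc _ _ _).symm
          _ = (x * c) * x := by rw [hcx]
          _ = x * (c * x) := mul_assoc _ _ _
          _ = x * (x * c) := by rw [hcx]
          _ = _ := (mul_assoc _ _ _).symm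
      · have : (⟨e, he⟩ : Y) ∈ S₂ := by rw [h]; trivial
        exact (hS₂ _).mp this w hw
  have hz3' : z * z * z = 1 := by
    have := hz3
    rwa [pow_succ, pow_two] at this
  have hzi : z⁻¹ = z * z := by
    rw [inv_eq_iff_mul_eq_one, ← mul_assoc]; exact hz3'
  have hziY : ∀ u ∈ Y, z⁻¹ * u * z ∈ Y := by
    intro u hu
    have := hzY _ (hzY u hu)
    rw [show z * (z * u * z⁻¹) * z⁻¹ = (z * z) * u * (z * z)⁻¹ by simp only [mul_inv_rev, mul_assoc],
      ← hzi, inv_inv] at this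
    exact this
  set c₁ := c * z⁻¹ with hc₁
  have hc₁Y : ∀ u ∈ Y, c₁ * u * c₁⁻¹ ∈ Y := by
    intro u hu
    have := hcY _ (hziY u hu)
    convert this using 1
    rw [hc₁]; group
  have hrel : ∀ e ∈ Y, ∀ w ∈ W₀, (c₁ * e * c₁⁻¹) w = e w := by
    intro e he w hw
    have h1 := hzrel _ (hziY e he) w hw
    have h2 : c₁ * e * c₁⁻¹ = c * (z⁻¹ * e * z) * c⁻¹ := by rw [hc₁]; group
    have h3 : z * (z⁻¹ * e * z) * z⁻¹ = e := by group
    rw [h2, h1, h3]
  have hc3 : c₁ ^ 3 = c ^ 3 := by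
    have hcomm : Commute c z⁻¹ := (show Commute c z from hzc).inv_right
    rw [hc₁, hcomm.mul_pow, inv_pow, hz3, inv_one, mul_one]
  intro e he w hw
  have h1 := hc₁Y e he
  have h2 := hc₁Y _ h1
  have e4 : c ^ 3 * e * (c ^ 3)⁻¹ = c₁ * (c₁ * (c₁ * e * c₁⁻¹) * c₁⁻¹) * c₁⁻¹ := by
    rw [← hc3, pow_succ, pow_two]; group
  rw [e4, hrel _ h2 w hw, hrel _ h1 w hw, hrel e he w hw]

/-- The main commutator relation. -/
theorem p1_main (Y : Subgroup (AA M)) (hc : ∀ a ∈ Y, ∀ b ∈ Y, a * b = b * a) (x : AA M)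
    (hx3 : x ^ 3 = 1) (hxY : ∀ u ∈ Y, x * u * x⁻¹ ∈ Y) (hfix : ∀ u ∈ Y, x * u * x⁻¹ = u → u = 1)
    (hcop : (Nat.card Y).Coprime (Nat.card M)) (hY6 : (Nat.card Y).Coprime 6)
    (c : AA M) (hcx : c * x = x * c) (hcY : ∀ u ∈ Y, c * u * c⁻¹ ∈ Y)
    (hcL : ∀ w, x w = w → c w = w) : ∀ e ∈ Y, c ^ 3 * e * (c ^ 3)⁻¹ = e := by
  classical
  intro e he
  by_contra hne
  have hc3Y : c ^ 3 * e * (c ^ 3)⁻¹ ∈ Y := by
    have := hcY _ (hcY _ (hcY e he))
    convert this using 1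
    rw [pow_succ, pow_two]; group
  set v := (c ^ 3 * e * (c ^ 3)⁻¹) * e⁻¹ with hv
  have hvY : v ∈ Y := Y.mul_mem hc3Y (Y.inv_mem he)
  have hv1 : v ≠ 1 := by
    intro h
    apply hne
    rw [hv, mul_inv_eq_one] at h
    exact h
  have hker : Im1 v ≤ kerS Y := by
    rintro _ ⟨w, rfl⟩
    rw [mem_kerS, fS_sub, fS_right Y hvY, sub_self]
  have hinvI : ∀ u ∈ Y, ∀ w ∈ Im1 v, u w ∈ Im1 v := by
    rintro u hu _ ⟨w, rfl⟩
    refine ⟨u w, ?_⟩
    rw [map_sub, ca u v (hc _ hu _ hvY)]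
  obtain ⟨W₀, hle, hne₀, hinv, hmin⟩ := exists_min_inv Y (Im1 v) (Im1_ne_bot hv1) hinvI
  have hst := p1_step Y hc x hx3 hxY hfix hcop hY6 c hcx hcY hcL W₀ (hle.trans hker) hne₀ hinv hmin
  apply hne₀
  rw [AddSubgroup.eq_bot_iff_forall]
  intro w hw
  have hvw : v w = w := by
    have h1 := hst e he _ (hinv _ (Y.inv_mem he) w hw)
    rw [self_inv] at h1
    rw [hv, mul_app, h1]
  obtain ⟨z, rfl⟩ := hle hw
  have hvcard : v ^ Nat.card Y = 1 := by
    have := pow_card_eq_one' (G := Y) (x := ⟨v, hvY⟩)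
    exact congrArg Subtype.val this
  exact fixed_image_zero v _ hvcard hcop z hvw

end Cfsg.Agent.H13.SF
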