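import Cfsg.Agent.Lib.H13.SF3

set_option autoImplicit false

namespace Cfsg.Agent.H13.SF

variable {M : Type*} [AddCommGroup M] [Finite M]

/-- Conjugation. -/
def cj (g u : AA M) : AA M := g * u * g⁻¹

theorem cj_mul (g a b : AA M) : cj g (a * b) = cj g a * cj g b := by simp only [cj]; group
theorem cj_inv (g a : AA M) : cj g a⁻¹ = (cj g a)⁻¹ := by simp only [cj]; group
theorem cj_cj (g h u : AA M) : cj g (cj h u) = cj (g * h) u := by simp only [cj, mul_inv_rev, mul_assoc]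
theorem cj_app (g u : AA M) (w : M) : (cj g u) w = g (u (g⁻¹ w)) := rfl
theorem cj_one (u : AA M) : cj 1 u = u := by simp [cj]
theorem cj_inv_cj (g u : AA M) : cj g⁻¹ (cj g u) = u := by simp [cj, mul_assoc]
theorem cj_cj_inv (g u : AA M) : cj g (cj g⁻¹ u) = u := by simp [cj, mul_assoc]

theorem xi3 {x : AA M} (hx3 : x ^ 3 = 1) (u : AA M) : cj x (cj x (cj x u)) = u := by
  rw [cj_cj, cj_cj, show x * x * x = x ^ 3 by rw [pow_succ, pow_two], hx3, cj_one]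

/-- Data of the second case. -/
structure SCfg (T E : Subgroup (AA M)) (x : AA M) : Prop where
  hx3 : x ^ 3 = 1
  hET : E ≤ T
  hEn : ∀ g ∈ T, ∀ e ∈ E, cj g e ∈ E
  hEc : ∀ a ∈ E, ∀ b ∈ E, a * b = b * a
  hxE : ∀ e ∈ E, cj x e ∈ E
  hxT : ∀ g ∈ T, cj x g ∈ T
  hTE : ∀ g ∈ T, ∀ h ∈ T, g * h * g⁻¹ * h⁻¹ ∈ E
  hn : ∀ g ∈ T, g * cj x g * cj x (cj x g) ∈ E
  hEM : (Nat.card E).Coprime (Nat.card M)
  hT3 : (Nat.card T).Coprime 3
  hBL : ∀ b ∈ T, cj x b = b → ∀ w, x w = w → b w = w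

variable {T E : Subgroup (AA M)} {x : AA M}

theorem root3 (hT3 : (Nat.card T).Coprime 3) {g : AA M} (hg : g ∈ T) (S : Subgroup (AA M)) (h : g ^ 3 ∈ S) : g ∈ S := by
  have h1 : orderOf g ∣ Nat.card T := Subgroup.orderOf_dvd_natCard T hg
  have h2 : Nat.Coprime 3 (orderOf g) := (Nat.Coprime.coprime_dvd_left h1 hT3).symm
  obtain ⟨m, hm⟩ := exists_pow_eq_self_of_coprime h2
  rw [← hm]
  exact S.pow_mem h m

theorem SCfg.b_mem_E (h : SCfg T E x) {b : AA M} (hb : b ∈ T) (hf : cj x b = b) : b ∈ E := by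
  apply root3 h.hT3 hb
  have := h.hn b hb
  rw [hf, hf] at this
  rwa [pow_succ, pow_two]

theorem cube_one {Y : Subgroup (AA M)} (hY : (Nat.card Y).Coprime 3) {u : AA M} (hu : u ∈ Y) (h : u * u * u = 1) : u = 1 := by
  have h1 : u ^ 3 ∈ (⊥ : Subgroup (AA M)) := by
    rw [pow_succ, pow_two, h]; exact Subgroup.one_mem _
  have := root3 hY hu ⊥ h1
  simpa using this

/-- Norm zero on a minimal section forces the `x`-twist to be trivial on it. -/
theorem SCfg.a_step (h : SCfg T E x) (W₀ : AddSubgroup M) (hinv : ∀ u ∈ E, ∀ w ∈ W₀, u w ∈ W₀)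
    (hmin : ∀ W' : AddSubgroup M, W' ≤ W₀ → (∀ u ∈ E, ∀ w ∈ W', u w ∈ W') → W' = ⊥ ∨ W' = W₀)
    (hN : ∀ w ∈ W₀, Nm x w = 0) : ∀ e ∈ E, ∀ w ∈ W₀, (cj x e) w = e w := by
  classical
  have hE3 : (Nat.card E).Coprime 3 :=
    Nat.Coprime.coprime_dvd_left (Subgroup.card_dvd_of_le h.hET) h.hT3
  by_cases hx : ∀ w ∈ W₀, x w ∈ W₀
  · -- the norm one subgroup
    let P₀ : Subgroup (AA M) :=
      { carrier := {u | u ∈ E ∧ u * cj x u * cj x (cj x u) = 1}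
        one_mem' := ⟨E.one_mem, by simp [cj]⟩
        mul_mem' := by
          rintro a b ⟨ha, ha1⟩ ⟨hb, hb1⟩
          refine ⟨E.mul_mem ha hb, ?_⟩
          have hxa := h.hxE a ha
          have hxb := h.hxE b hb
          have hxxa := h.hxE _ hxa
          have hxxb := h.hxE _ hxb
          rw [cj_mul, cj_mul]
          have c1 := h.hEc b hb _ hxa
          have c2 := h.hEc (b * cj x b) (E.mul_mem hb hxb) _ hxxa
          calc a * b * (cj x a * cj x b) * (cj x (cj x a) * cj x (cj x b))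
              = a * (b * cj x a) * cj x b * (cj x (cj x a) * cj x (cj x b)) := by group
            _ = a * (cj x a * b) * cj x b * (cj x (cj x a) * cj x (cj x b)) := by rw [c1]
            _ = a * cj x a * ((b * cj x b) * cj x (cj x a)) * cj x (cj x b) := by group
            _ = a * cj x a * (cj x (cj x a) * (b * cj x b)) * cj x (cj x b) := by rw [c2]
            _ = (a * cj x a * cj x (cj x a)) * (b * cj x b * cj x (cj x b)) := by group
            _ = 1 := by rw [ha1, hb1, one_mul]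
        inv_mem' := by
          rintro a ⟨ha, ha1⟩
          refine ⟨E.inv_mem ha, ?_⟩
          have hxa := h.hxE a ha
          have hxxa := h.hxE _ hxa
          rw [cj_inv, cj_inv, ← mul_inv_rev, ← mul_inv_rev, inv_eq_one]
          have c1 := h.hEc _ hxxa _ hxa
          have c2 := h.hEc (cj x a * cj x (cj x a)) (E.mul_mem hxa hxxa) _ ha
          calc cj x (cj x a) * (cj x a * a) = (cj x (cj x a) * cj x a) * a := by group
            _ = (cj x a * cj x (cj x a)) * a := by rw [c1]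
            _ = a * (cj x a * cj x (cj x a)) := c2
            _ = a * cj x a * cj x (cj x a) := by group
            _ = 1 := ha1 }
    have hP₀E : P₀ ≤ E := fun u hu => hu.1
    have hc' : ∀ a ∈ P₀, ∀ b ∈ P₀, a * b = b * a := fun a ha b hb => h.hEc a ha.1 b hb.1
    have hxP : ∀ u ∈ P₀, x * u * x⁻¹ ∈ P₀ := by
      rintro u ⟨hu, hu1⟩
      refine ⟨h.hxE u hu, ?_⟩
      have h3 := xi3 h.hx3 u
      have hxu := h.hxE u hu
      have hxxu := h.hxE _ hxu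
      show cj x u * cj x (cj x u) * cj x (cj x (cj x u)) = 1
      rw [h3]
      have c2 := h.hEc (cj x u * cj x (cj x u)) (E.mul_mem hxu hxxu) _ hu
      rw [c2, ← mul_assoc]
      exact hu1
    have hfixP : ∀ u ∈ P₀, x * u * x⁻¹ = u → u = 1 := by
      rintro u ⟨hu, hu1⟩ hf
      have hf' : cj x u = u := hf
      rw [hf', hf'] at hu1
      exact cube_one hE3 hu hu1
    have hcopP : (Nat.card P₀).Coprime (Nat.card M) :=
      Nat.Coprime.coprime_dvd_left (Subgroup.card_dvd_of_le hP₀E) h.hEM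
    have htriv := trivial_of_norm_fixed P₀ hc' x h.hx3 hxP hfixP hcopP W₀
      (fun u hu w hw => hinv u hu.1 w hw) hx (fun w hw u _ => by rw [hN w hw]; simp)
    intro e he w hw
    have hxe := h.hxE e he
    have hxxe := h.hxE _ hxe
    have hu : e⁻¹ * cj x e ∈ P₀ := by
      refine ⟨E.mul_mem (E.inv_mem he) hxe, ?_⟩
      rw [cj_mul, cj_mul, cj_inv, cj_inv, xi3 h.hx3]
      have c1 : cj x e * ((cj x e)⁻¹ * cj x (cj x e)) = cj x (cj x e) := by simp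
      calc e⁻¹ * cj x e * ((cj x e)⁻¹ * cj x (cj x e)) * ((cj x (cj x e))⁻¹ * e)
          = e⁻¹ * (cj x e * ((cj x e)⁻¹ * cj x (cj x e))) * ((cj x (cj x e))⁻¹ * e) := by group
        _ = 1 := by rw [c1]; group
    have h1 := htriv _ hu w hw
    have h2 : e (e⁻¹ (cj x e w)) = e w := by
      have : e⁻¹ (cj x e w) = w := h1
      rw [this]
    simpa using h2
  · push Not at hx
    obtain ⟨w₁, hw₁, hw₁n⟩ := hx
    intro e he w hw
    by_contra hne
    apply hw₁n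
    have hxe := h.hxE e he
    have hxxe := h.hxE _ hxe
    -- the twisted relation
    have hrel : ∀ z ∈ W₀, x (e z - cj x e z) = cj x (cj x e) z - e z := by
      intro z hz
      have h1 := hN _ (hinv e he z hz)
      have h2 := hN z hz
      simp only [Nm] at h1 h2
      have h3 : x (x z) = -z - x z := by
        rw [eq_sub_iff_add_eq, eq_neg_iff_add_eq_zero, ← h2]; abel
      have h4 : x (x (e z)) = cj x (cj x e) (x (x z)) := by
        simp [cj_app]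
      have h5 : x (cj x e z) = cj x (cj x e) (x z) := by
        simp [cj_app]
      rw [map_sub, h5]
      rw [h4, h3, map_sub, map_neg] at h1
      have h6 : x (e z) - cj x (cj x e) (x z) = cj x (cj x e) z - e z + (e z + x (e z) + (-cj x (cj x e) z - cj x (cj x e) (x z))) := by abel
      rw [h6, h1, add_zero]
    set b := (cj x e)⁻¹ * e with hb
    have hbE : b ∈ E := E.mul_mem (E.inv_mem hxe) he
    have hnt : ∃ w ∈ W₀, b w ≠ w := by
      refine ⟨w, hw, fun hh => hne ?_⟩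
      have h2 : cj x e (b w) = cj x e w := by rw [hh]
      have h3 : cj x e (b w) = e w := by simp [hb]
      exact (h3.symm.trans h2).symm
    have honto := schur_onto h.hEc hinv hmin hbE hnt
    obtain ⟨v, hv, hvb⟩ := honto _ (hinv _ (E.inv_mem hxe) w₁ hw₁)
    have h5 : e v - cj x e v = w₁ := by
      have h6 : cj x e (b v - v) = e v - cj x e v := by
        rw [map_sub]; simp [hb]
      rw [← h6, hvb]
      simp
    rw [← h5, hrel v hv]
    exact W₀.sub_mem (hinv _ hxxe v hv) (hinv _ he v hv)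

/-- Preimage of an additive subgroup under an automorphism. -/
def pre (g : AA M) (W : AddSubgroup M) : AddSubgroup M where
  carrier := {z | g z ∈ W}
  add_mem' := by
    intro a b ha hb
    simp only [Set.mem_setOf_eq, map_add] at *
    exact W.add_mem ha hb
  zero_mem' := by simp
  neg_mem' := by
    intro a ha
    simp only [Set.mem_setOf_eq, map_neg] at *
    exact W.neg_mem ha

theorem mem_pre (g : AA M) (W : AddSubgroup M) (z : M) : z ∈ pre g W ↔ g z ∈ W := Iff.rfl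

theorem pre_inv {g : AA M} (hE : ∀ e ∈ E, g * e * g⁻¹ ∈ E) {W₀ : AddSubgroup M}
    (hinv : ∀ u ∈ E, ∀ w ∈ W₀, u w ∈ W₀) : ∀ u ∈ E, ∀ w ∈ pre g W₀, u w ∈ pre g W₀ := by
  intro u hu w hw
  rw [mem_pre] at *
  have := hinv _ (hE u hu) _ hw
  simpa using this

theorem pre_min {g : AA M} (hE' : ∀ e ∈ E, g⁻¹ * e * g ∈ E) {W₀ : AddSubgroup M}
    (hmin : ∀ W' : AddSubgroup M, W' ≤ W₀ → (∀ u ∈ E, ∀ w ∈ W', u w ∈ W') → W' = ⊥ ∨ W' = W₀) :
    ∀ W' : AddSubgroup M, W' ≤ pre g W₀ → (∀ u ∈ E, ∀ w ∈ W', u w ∈ W') → W' = ⊥ ∨ W' = pre g W₀ := by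
  intro W'' hle hinv''
  have hle2 : pre g⁻¹ W'' ≤ W₀ := by
    intro z hz
    have := hle hz
    rw [mem_pre] at this
    simpa using this
  have hinv2 : ∀ u ∈ E, ∀ w ∈ pre g⁻¹ W'', u w ∈ pre g⁻¹ W'' := by
    intro u hu w hw
    rw [mem_pre] at *
    have := hinv'' _ (hE' u hu) _ hw
    simpa using this
  rcases hmin _ hle2 hinv2 with h | h
  · left
    rw [AddSubgroup.eq_bot_iff_forall]
    intro z hz
    have h1 : g z ∈ pre g⁻¹ W'' := by
      rw [mem_pre]; simpa using hz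
    rw [h] at h1
    have h2 : g z = 0 := by simpa using h1
    simpa using h2
  · right
    apply le_antisymm hle
    intro z hz
    rw [mem_pre] at hz
    rw [← h, mem_pre] at hz
    simpa using hz

/-- Norm zero from one nontrivial fixed element. -/
theorem SCfg.nm_zero (h : SCfg T E x) {b : AA M} (hb : b ∈ T) (hf : cj x b = b) (W₀ : AddSubgroup M)
    (hinv : ∀ u ∈ E, ∀ w ∈ W₀, u w ∈ W₀)
    (hmin : ∀ W' : AddSubgroup M, W' ≤ W₀ → (∀ u ∈ E, ∀ w ∈ W', u w ∈ W') → W' = ⊥ ∨ W' = W₀)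
    (hnt : ∃ w ∈ W₀, b w ≠ w) : ∀ w ∈ W₀, Nm x w = 0 := by
  intro z hz
  obtain ⟨v, -, rfl⟩ := schur_onto h.hEc hinv hmin (h.b_mem_E hb hf) hnt z hz
  have hbx : b * x = x * b := by
    have : b = x * b * x⁻¹ := hf.symm
    calc b * x = (x * b * x⁻¹) * x := by rw [← this]
      _ = x * b := by group
  have h1 := h.hBL b hb hf _ (nm_fixed x h.hx3 v)
  have h2 : Nm x (b v) = b (Nm x v) := by
    simp only [Nm, map_add, ca b x hbx]
  have h3 : Nm x (b v - v) = Nm x (b v) - Nm x v := by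
    simp only [Nm, map_sub]; abel
  rw [h3, h2, h1, sub_self]

theorem cj_hom (z g e : AA M) : cj z (cj g e) = cj (cj z g) (cj z e) := by
  simp only [cj]; group

theorem cj_inv_x {x : AA M} (hx3 : x ^ 3 = 1) (e : AA M) : cj x⁻¹ e = cj x (cj x e) := by
  have h := xi3 hx3 (cj x⁻¹ e)
  rw [cj_cj_inv] at h
  exact h.symm

theorem cj_mul_left_triv {E : Subgroup (AA M)} (hc : ∀ a ∈ E, ∀ b ∈ E, a * b = b * a) {ε k u : AA M}
    (hε : ε ∈ E) (h : cj k u ∈ E) : cj (ε * k) u = cj k u := by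
  rw [← cj_cj]
  have := hc _ hε _ h
  simp only [cj] at this ⊢
  rw [this]; simp

theorem SCfg.b_main (h : SCfg T E x) (W₀ : AddSubgroup M) (hinv : ∀ u ∈ E, ∀ w ∈ W₀, u w ∈ W₀)
    (hmin : ∀ W' : AddSubgroup M, W' ≤ W₀ → (∀ u ∈ E, ∀ w ∈ W', u w ∈ W') → W' = ⊥ ∨ W' = W₀)
    (hN : ∀ w ∈ W₀, Nm x w = 0) : ∀ g ∈ T, ∀ e ∈ E, ∀ w ∈ W₀, (cj g e) w = e w := by
  classical
  have ha := h.a_step W₀ hinv hmin hN
  let T₀ : Subgroup (AA M) :=
    { carrier := {g | g ∈ T ∧ ∀ e ∈ E, ∀ w ∈ W₀, (cj g e) w = e w}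
      one_mem' := ⟨T.one_mem, fun e _ w _ => by rw [cj_one]⟩
      mul_mem' := by
        rintro a b ⟨ha', hra⟩ ⟨hb, hrb⟩
        refine ⟨T.mul_mem ha' hb, fun e he w hw => ?_⟩
        rw [← cj_cj, hra _ (h.hEn b hb e he) w hw, hrb e he w hw]
      inv_mem' := by
        rintro a ⟨ha', hra⟩
        refine ⟨T.inv_mem ha', fun e he w hw => ?_⟩
        have h1 := hra _ (h.hEn _ (T.inv_mem ha') e he) w hw
        rw [cj_cj_inv] at h1
        exact h1.symm }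
  have hmemT₀ : ∀ g, g ∈ T₀ ↔ g ∈ T ∧ ∀ e ∈ E, ∀ w ∈ W₀, (cj g e) w = e w := fun g => Iff.rfl
  have hET₀ : ∀ e ∈ E, e ∈ T₀ := by
    intro e he
    refine ⟨h.hET he, fun e' he' w _ => ?_⟩
    have := h.hEc _ he _ he'
    have h2 : cj e e' = e' := by simp only [cj]; rw [this]; simp
    rw [h2]
  have hT₀n : ∀ g ∈ T, ∀ k ∈ T₀, cj g k ∈ T₀ := by
    intro g hg k hk
    have h1 : cj g k = (g * k * g⁻¹ * k⁻¹) * k := by simp [cj]
    rw [h1]
    exact T₀.mul_mem (hET₀ _ (h.hTE g hg k hk.1)) hk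
  have hinvE : ∀ e ∈ E, cj x⁻¹ e ∈ E := by
    intro e he
    rw [cj_inv_x h.hx3]
    exact h.hxE _ (h.hxE e he)
  have hξT₀ : ∀ k ∈ T₀, cj x k ∈ T₀ := by
    intro k hk
    refine ⟨h.hxT k hk.1, fun e he w hw => ?_⟩
    have h1 : cj (cj x k) e = cj x (cj k (cj x⁻¹ e)) := by
      rw [cj_hom, cj_cj_inv]
    have he' := hinvE e he
    rw [h1, ha _ (h.hEn k hk.1 _ he') w hw, hk.2 _ he' w hw, ← ha _ he' w hw, cj_cj_inv]
  have hb1 : ∀ g ∈ T, ∀ b ∈ T, cj x b = b → (∃ w ∈ W₀, (cj g b) w ≠ w) → g ∈ T₀ := by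
    intro g hg b hb hf hex
    have hginv := T.inv_mem hg
    have hE1 : ∀ e ∈ E, g * e * g⁻¹ ∈ E := fun e he => h.hEn g hg e he
    have hE2 : ∀ e ∈ E, g⁻¹ * e * g ∈ E := fun e he => by
      have := h.hEn g⁻¹ hginv e he
      simpa [cj] using this
    have hinv' := pre_inv hE1 hinv
    have hmin' := pre_min hE2 hmin
    have hnt : ∃ z ∈ pre g W₀, b z ≠ z := by
      obtain ⟨w, hw, hne⟩ := hex
      refine ⟨g⁻¹ w, by rw [mem_pre]; simpa using hw, fun hh => hne ?_⟩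
      rw [cj_app, hh]; simp
    have hN' := h.nm_zero hb hf _ hinv' hmin' hnt
    have ha' := h.a_step _ hinv' hmin' hN'
    have hsharp : ∀ v ∈ E, ∀ w ∈ W₀, (cj g (cj x v)) w = (cj g v) w := by
      intro v hv w hw
      show g ((cj x v) (g⁻¹ w)) = g (v (g⁻¹ w))
      rw [ha' v hv (g⁻¹ w) (by rw [mem_pre]; simpa using hw)]
    have hg1 := h.hxT g hg
    set g₁ := cj x g with hg₁
    have hg₁i := T.inv_mem hg1
    set κ := g * g₁⁻¹ with hκ
    have hκT : κ ∈ T := T.mul_mem hg hg₁i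
    have hκ0 : κ ∈ T₀ := by
      refine ⟨hκT, fun u hu w hw => ?_⟩
      have he1 : cj g₁⁻¹ u ∈ E := h.hEn _ hg₁i u hu
      set e := cj x⁻¹ (cj g₁⁻¹ u) with he
      have heE : e ∈ E := hinvE _ he1
      have h1 : cj x e = cj g₁⁻¹ u := cj_cj_inv _ _
      have h2 : cj κ u = cj g (cj x e) := by rw [h1, cj_cj]
      have h3 : u = cj x (cj g e) := by
        rw [cj_hom, h1, ← hg₁, cj_cj_inv]
      rw [h2, hsharp e heE w hw, ← ha _ (h.hEn g hg e heE) w hw, ← h3]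
    have hξκ := hξT₀ κ hκ0
    have hn := hET₀ _ (h.hn g hg)
    have hξκe : cj x κ = g₁ * (cj x g₁)⁻¹ := by rw [hκ, cj_mul, cj_inv]
    set g₂ := cj x g₁ with hg₂
    set α := κ⁻¹ with hα
    have hαT : α ∈ T₀ := T₀.inv_mem hκ0
    set β := (cj x κ)⁻¹ * κ⁻¹ with hβ
    have hβT : β ∈ T₀ := T₀.mul_mem (T₀.inv_mem hξκ) hαT
    have e1 : g₁ = α * g := by rw [hα, hκ]; simp
    have e2 : g₂ = β * g := by
      rw [hβ, hξκe, mul_assoc, ← hα, ← e1]; simp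
    have e3 : g * g₁ * g₂ = cj g α * cj g (cj g β) * (g * g * g) := by
      rw [e2]
      conv_lhs => rw [e1]
      simp only [cj]
      group
    have hm1 := hT₀n g hg _ hαT
    have hm2 := hT₀n g hg _ (hT₀n g hg _ hβT)
    have hn' : g * g₁ * g₂ ∈ T₀ := hn
    rw [e3] at hn'
    have h4 : g ^ 3 ∈ T₀ := by
      have h5 : g ^ 3 = (cj g α * cj g (cj g β))⁻¹ * (cj g α * cj g (cj g β) * (g * g * g)) := by
        rw [pow_succ, pow_two, inv_mul_cancel_left]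
      rw [h5]
      exact T₀.mul_mem (T₀.inv_mem (T₀.mul_mem hm1 hm2)) hn'
    exact root3 h.hT3 hg T₀ h4
  intro g₀ hg₀T
  by_contra hcon
  have hg₀n : g₀ ∉ T₀ := fun hh => hcon hh.2
  have hB : ∀ g' ∈ T, g' ∉ T₀ → ∀ b ∈ T, cj x b = b → ∀ w ∈ W₀, (cj g' b) w = w := by
    intro g' hg' hn b hb hf w hw
    by_contra hne
    exact hn (hb1 g' hg' b hb hf ⟨w, hw, hne⟩)
  have hT1 : ∀ g' ∈ T, g' ∉ T₀ → ∀ u' ∈ E, ∀ w ∈ W₀,
      (cj g' u') ((cj (cj x (cj x g')) u') ((cj (cj x g') u') w)) = w := by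
    intro g' hg' hn' u' hu' w hw
    have hxu := h.hxE u' hu'
    have hxxu := h.hxE _ hxu
    set b := u' * cj x u' * cj x (cj x u') with hb
    have hbE : b ∈ E := E.mul_mem (E.mul_mem hu' hxu) hxxu
    have hfb : cj x b = b := by
      rw [hb, cj_mul, cj_mul, xi3 h.hx3]
      have c2 := h.hEc (cj x u' * cj x (cj x u')) (E.mul_mem hxu hxxu) _ hu'
      rw [c2, mul_assoc]
    have h1 := hB g' hg' hn' b (h.hET hbE) hfb w hw
    set g₁ := cj x g' with hg₁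
    set g₂ := cj x g₁ with hg₂
    have hg₁T : g₁ ∈ T := h.hxT _ hg'
    have hg₂T : g₂ ∈ T := h.hxT _ hg₁T
    have h3 : cj x g₂ = g' := xi3 h.hx3 g'
    have e1 : cj g' (cj x u') = cj x (cj g₂ u') := by rw [cj_hom x g₂ u', h3]
    have e2 : cj g' (cj x (cj x u')) = cj x (cj x (cj g₁ u')) := by
      rw [cj_hom x g₁ u', ← hg₂, cj_hom x g₂ (cj x u'), h3]
    have hv₂ : cj g₂ u' ∈ E := h.hEn _ hg₂T _ hu'
    have hv₁ : cj g₁ u' ∈ E := h.hEn _ hg₁T _ hu'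
    rw [hb, cj_mul, cj_mul, e1, e2] at h1
    have h5 : (cj x (cj x (cj g₁ u'))) w = (cj g₁ u') w := by
      rw [ha _ (h.hxE _ hv₁) w hw, ha _ hv₁ w hw]
    have h6 : (cj x (cj g₂ u')) ((cj g₁ u') w) = (cj g₂ u') ((cj g₁ u') w) :=
      ha _ hv₂ _ (hinv _ hv₁ w hw)
    have h7 : (cj g' u' * cj x (cj g₂ u') * cj x (cj x (cj g₁ u'))) w =
        (cj g' u') ((cj x (cj g₂ u')) ((cj x (cj x (cj g₁ u'))) w)) := rfl
    rw [h7, h5, h6] at h1
    exact h1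
  have hg₀inv := T.inv_mem hg₀T
  set g₁ := cj x g₀ with hg₁
  set g₂ := cj x g₁ with hg₂
  have hg₁T : g₁ ∈ T := h.hxT _ hg₀T
  have hg₂T : g₂ ∈ T := h.hxT _ hg₁T
  have hxg₂ : cj x g₂ = g₀ := xi3 h.hx3 g₀
  have hg₁n : g₁⁻¹ ∉ T₀ := by
    intro hh
    apply hg₀n
    have := hξT₀ _ (hξT₀ _ (T₀.inv_mem hh))
    rw [inv_inv] at this
    rwa [← hg₂, hxg₂] at this
  have hn0 := h.hn g₀ hg₀T
  have hnE : g₀ * g₁ * g₂ ∈ E := hn0
  have hkey : ∀ u ∈ E, ∀ w ∈ W₀, (cj (g₀⁻¹ * (g₀⁻¹ * g₀⁻¹)) u) w = u w := by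
    intro u hu w hw
    have hu' : cj g₀⁻¹ u ∈ E := h.hEn _ hg₀inv u hu
    have hu2 : cj (g₀⁻¹ * g₀⁻¹) u ∈ E := h.hEn _ (T.mul_mem hg₀inv hg₀inv) u hu
    have hA := hT1 g₀ hg₀T hg₀n _ hu'
    have hBB := hT1 g₁⁻¹ (T.inv_mem hg₁T) hg₁n _ hu2
    rw [cj_cj_inv, ← hg₁, ← hg₂, cj_cj, cj_cj] at hA
    have hx1 : cj x g₁⁻¹ = g₂⁻¹ := by rw [cj_inv]
    have hx2 : cj x g₂⁻¹ = g₀⁻¹ := by rw [cj_inv, hxg₂]
    rw [hx1, hx2, cj_cj, cj_cj, cj_cj] at hBB
    set a₁ := cj (g₁ * g₀⁻¹) u with ha₁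
    set a₂ := cj (g₂ * g₀⁻¹) u with ha₂
    set a₃ := cj (g₀⁻¹ * (g₀⁻¹ * g₀⁻¹)) u with ha₃
    have ha₁E : a₁ ∈ E := h.hEn _ (T.mul_mem hg₁T hg₀inv) u hu
    have ha₂E : a₂ ∈ E := h.hEn _ (T.mul_mem hg₂T hg₀inv) u hu
    have ha₃E : a₃ ∈ E := h.hEn _ (T.mul_mem hg₀inv (T.mul_mem hg₀inv hg₀inv)) u hu
    -- congruences modulo E
    have hε₁ : g₁⁻¹ * g₀⁻¹ * g₂⁻¹ ∈ E := by
      have := h.hEn _ hg₂T _ (E.inv_mem hnE)
      convert this using 1
      simp only [cj, mul_inv_rev, mul_assoc, mul_inv_cancel_left]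
    have hn2 : g₀ * g₂ * g₁ ∈ E := by
      have h1 := h.hTE _ (T.inv_mem hg₂T) _ (T.inv_mem hg₁T)
      have h2 := E.mul_mem hnE h1
      convert h2 using 1
      simp only [inv_inv, mul_assoc, mul_inv_cancel_left]
    have hε₂ : g₂⁻¹ * g₀⁻¹ * g₁⁻¹ ∈ E := by
      have := h.hEn _ hg₁T _ (E.inv_mem hn2)
      convert this using 1
      simp only [cj, mul_inv_rev, mul_assoc, mul_inv_cancel_left]
    have e1 : cj (g₁⁻¹ * (g₀⁻¹ * g₀⁻¹)) u = a₂ := by
      have h1 : g₁⁻¹ * (g₀⁻¹ * g₀⁻¹) = (g₁⁻¹ * g₀⁻¹ * g₂⁻¹) * (g₂ * g₀⁻¹) := by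
        simp only [mul_assoc, inv_mul_cancel_left]
      rw [h1, cj_mul_left_triv h.hEc hε₁ ha₂E]
    have e2 : cj (g₂⁻¹ * (g₀⁻¹ * g₀⁻¹)) u = a₁ := by
      have h1 : g₂⁻¹ * (g₀⁻¹ * g₀⁻¹) = (g₂⁻¹ * g₀⁻¹ * g₁⁻¹) * (g₁ * g₀⁻¹) := by
        simp only [mul_assoc, inv_mul_cancel_left]
      rw [h1, cj_mul_left_triv h.hEc hε₂ ha₁E]
    rw [e1, e2] at hBB
    have h1 := hA (a₃ w) (hinv _ ha₃E w hw)
    have h2 := hBB w hw
    rw [ca a₁ a₃ (h.hEc _ ha₁E _ ha₃E), h2] at h1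
    exact h1.symm
  have hk0 : g₀⁻¹ * (g₀⁻¹ * g₀⁻¹) ∈ T₀ :=
    ⟨T.mul_mem hg₀inv (T.mul_mem hg₀inv hg₀inv), hkey⟩
  have h4 : g₀ ^ 3 ∈ T₀ := by
    have h5 : g₀ ^ 3 = (g₀⁻¹ * (g₀⁻¹ * g₀⁻¹))⁻¹ := by
      rw [pow_succ, pow_two]; simp only [mul_inv_rev, inv_inv, mul_assoc]
    rw [h5]
    exact T₀.inv_mem hk0
  exact hg₀n (root3 h.hT3 hg₀T T₀ h4)

/-- Fixed elements are central. -/
theorem SCfg.c_step (h : SCfg T E x) {b g : AA M} (hb : b ∈ T) (hf : cj x b = b) (hg : g ∈ T) :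
    cj g b = b := by
  classical
  by_contra hne
  have hbE := h.b_mem_E hb hf
  set v := cj g b * b⁻¹ with hv
  have hvE : v ∈ E := h.hTE g hg b hb
  have hv1 : v ≠ 1 := by
    intro hh
    rw [hv, mul_inv_eq_one] at hh
    exact hne hh
  have hinvI : ∀ u ∈ E, ∀ w ∈ Im1 v, u w ∈ Im1 v := by
    rintro u hu _ ⟨w, rfl⟩
    refine ⟨u w, ?_⟩
    rw [map_sub, ca u v (h.hEc _ hu _ hvE)]
  obtain ⟨W₀, hle, hne₀, hinv, hmin⟩ := exists_min_inv E (Im1 v) (Im1_ne_bot hv1) hinvI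
  have hginv := T.inv_mem hg
  have hE1 : ∀ e ∈ E, g * e * g⁻¹ ∈ E := fun e he => h.hEn g hg e he
  have hE2 : ∀ e ∈ E, g⁻¹ * e * g ∈ E := fun e he => by
    have := h.hEn g⁻¹ hginv e he
    simpa [cj] using this
  have hinv' := pre_inv hE1 hinv
  have hmin' := pre_min hE2 hmin
  have hmemg : ∀ w ∈ W₀, g⁻¹ w ∈ pre g W₀ := by
    intro w hw
    rw [mem_pre]; simpa using hw
  have htriv : ∀ w ∈ W₀, v w = w := by
    by_cases h1 : ∃ w ∈ W₀, b w ≠ w
    · have hN := h.nm_zero hb hf W₀ hinv hmin h1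
      have hm := h.b_main W₀ hinv hmin hN g hg b hbE
      intro w hw
      rw [hv, mul_app, hm _ (hinv _ (E.inv_mem hbE) w hw)]
      simp
    · push Not at h1
      by_cases h2 : ∃ z ∈ pre g W₀, b z ≠ z
      · have hN := h.nm_zero hb hf _ hinv' hmin' h2
        have hm := h.b_main _ hinv' hmin' hN g⁻¹ hginv b⁻¹ (E.inv_mem hbE)
        intro w hw
        have h3 : cj g⁻¹ v = b * cj g⁻¹ b⁻¹ := by
          rw [hv, cj_mul, cj_inv_cj]
        have h4 : v = cj g (cj g⁻¹ v) := (cj_cj_inv _ _).symm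
        rw [h4, cj_app, h3, mul_app, hm _ (hmemg w hw)]
        simp
      · push Not at h2
        intro w hw
        have h3 : b⁻¹ w = w := inv_of_fix b w (h1 w hw)
        rw [hv, mul_app, h3, cj_app, h2 _ (hmemg w hw)]
        simp
  apply hne₀
  rw [AddSubgroup.eq_bot_iff_forall]
  intro w hw
  obtain ⟨z, rfl⟩ := hle hw
  have hvcard : v ^ Nat.card E = 1 := by
    have := pow_card_eq_one' (G := E) (x := ⟨v, hvE⟩)
    exact congrArg Subtype.val this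
  exact fixed_image_zero v _ hvcard h.hEM z (htriv _ hw)

end Cfsg.Agent.H13.SF
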