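import Cfsg.Agent.Lib.H13.SF4

set_option autoImplicit false

namespace Cfsg.Agent.H13.SF

variable {M : Type*} [AddCommGroup M] [Finite M]

theorem cyc_triv (t : ℕ) [Fact t.Prime] (ht : t.Coprime (Nat.card M)) (ht3 : t ≠ 3)
    (x a₀ b₀ : AA M) (hx3 : x ^ 3 = 1) (hN : ∀ w, Nm x w = 0) (hab : a₀ * b₀ = b₀ * a₀)
    (hxa : x * a₀ * x⁻¹ = b₀) (hxb : x * b₀ * x⁻¹ = (a₀ * b₀)⁻¹) (k : ℕ)
    (ha0 : a₀ ^ (t ^ k) = 1) (hb0 : b₀ ^ (t ^ k) = 1) : b₀ = 1 := by
  classical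
  have htp : t.Prime := Fact.out
  have hx3' : x * x * x = 1 := by
    have := hx3
    rwa [pow_succ, pow_two] at this
  let S : Set (AA M) := {a₀, b₀}
  have hS : ∀ u ∈ S, ∀ v ∈ S, u * v = v * u := by
    intro u hu v hv
    rcases hu with rfl | hu <;> rcases hv with rfl | hv
    · rfl
    · rw [Set.mem_singleton_iff.mp hv]; exact hab
    · rw [Set.mem_singleton_iff.mp hu]; exact hab.symm
    · rw [Set.mem_singleton_iff.mp hu, Set.mem_singleton_iff.mp hv]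
  let Y := Subgroup.closure S
  have hc : ∀ u ∈ Y, ∀ v ∈ Y, u * v = v * u := by
    intro u hu v hv
    letI := Subgroup.closureCommGroupOfComm hS
    have := mul_comm (⟨u, hu⟩ : Subgroup.closure S) ⟨v, hv⟩
    exact congrArg Subtype.val this
  have haY : a₀ ∈ Y := Subgroup.subset_closure (Or.inl rfl)
  have hbY : b₀ ∈ Y := Subgroup.subset_closure (Or.inr rfl)
  have hxY : ∀ u ∈ Y, x * u * x⁻¹ ∈ Y := by
    intro u hu
    induction hu using Subgroup.closure_induction with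
    | mem u hu =>
      rcases hu with rfl | hu
      · rw [hxa]; exact hbY
      · rw [Set.mem_singleton_iff.mp hu, hxb]; exact Y.inv_mem (Y.mul_mem haY hbY)
    | one => simp
    | mul u v _ _ ihu ihv =>
      have : x * (u * v) * x⁻¹ = (x * u * x⁻¹) * (x * v * x⁻¹) := by group
      rw [this]; exact Y.mul_mem ihu ihv
    | inv u _ ih =>
      have : x * u⁻¹ * x⁻¹ = (x * u * x⁻¹)⁻¹ := by group
      rw [this]; exact Y.inv_mem ih
  have hQ : ∀ u ∈ Y, u * (x * u * x⁻¹) * (x * (x * u * x⁻¹) * x⁻¹) = 1 ∧ u ^ (t ^ k) = 1 := by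
    intro u hu
    induction hu using Subgroup.closure_induction with
    | mem u hu =>
      rcases hu with rfl | hu
      · refine ⟨?_, ?_⟩
        · rw [hxa, hxb]; group
        · exact ha0
      · rw [Set.mem_singleton_iff.mp hu]
        refine ⟨?_, ?_⟩
        · rw [hxb]
          have : x * (a₀ * b₀)⁻¹ * x⁻¹ = ((x * a₀ * x⁻¹) * (x * b₀ * x⁻¹))⁻¹ := by group
          rw [this, hxa, hxb]; group
        · exact hb0
    | one => simp
    | mul u v hu hv ihu ihv =>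
      refine ⟨?_, ?_⟩
      · have e1 : x * (u * v) * x⁻¹ = (x * u * x⁻¹) * (x * v * x⁻¹) := by group
        have e2 : x * ((x * u * x⁻¹) * (x * v * x⁻¹)) * x⁻¹ =
            (x * (x * u * x⁻¹) * x⁻¹) * (x * (x * v * x⁻¹) * x⁻¹) := by group
        rw [e1, e2]
        set p := x * u * x⁻¹
        set p' := x * v * x⁻¹
        set r := x * p * x⁻¹
        set r' := x * p' * x⁻¹
        have hp : p ∈ Y := hxY u hu
        have hp' : p' ∈ Y := hxY v hv
        have hr : r ∈ Y := hxY p hp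
        have c1 : v * p = p * v := hc v hv p hp
        have c2 : (v * p') * r = r * (v * p') := hc _ (Y.mul_mem hv hp') r hr
        calc u * v * (p * p') * (r * r') = u * (v * p) * p' * (r * r') := by group
          _ = u * (p * v) * p' * (r * r') := by rw [c1]
          _ = u * p * ((v * p') * r) * r' := by group
          _ = u * p * (r * (v * p')) * r' := by rw [c2]
          _ = (u * p * r) * (v * p' * r') := by group
          _ = 1 := by rw [ihu.1, ihv.1, one_mul]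
      · have : Commute u v := hc u hu v hv
        rw [this.mul_pow, ihu.2, ihv.2, one_mul]
    | inv u hu ih =>
      refine ⟨?_, by rw [inv_pow, ih.2, inv_one]⟩
      have e1 : x * u⁻¹ * x⁻¹ = (x * u * x⁻¹)⁻¹ := by group
      have e2 : x * (x * u * x⁻¹)⁻¹ * x⁻¹ = (x * (x * u * x⁻¹) * x⁻¹)⁻¹ := by simp only [mul_inv_rev, inv_inv, mul_assoc]
      rw [e1, e2, ← mul_inv_rev, ← mul_inv_rev, inv_eq_one]
      set p := x * u * x⁻¹
      set r := x * p * x⁻¹
      have hp : p ∈ Y := hxY u hu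
      have hr : r ∈ Y := hxY p hp
      have c1 : r * p = p * r := hc r hr p hp
      have c2 : (p * r) * u = u * (p * r) := hc _ (Y.mul_mem hp hr) u hu
      calc r * (p * u) = (r * p) * u := by group
        _ = (p * r) * u := by rw [c1]
        _ = u * (p * r) := c2
        _ = u * p * r := by group
        _ = 1 := ih.1
  have hfixY : ∀ u ∈ Y, x * u * x⁻¹ = u → u = 1 := by
    intro u hu h1
    have h2 := (hQ u hu).1
    rw [h1, h1] at h2
    have h3 : u ^ 3 = 1 := by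
      rw [pow_succ, pow_two]; exact h2
    have h4 := (hQ u hu).2
    have h5 := Nat.dvd_gcd (orderOf_dvd_of_pow_eq_one h3) (orderOf_dvd_of_pow_eq_one h4)
    have h6 : Nat.Coprime 3 (t ^ k) :=
      Nat.Coprime.pow_right k ((Nat.coprime_primes Nat.prime_three htp).2 (Ne.symm ht3))
    rw [h6.gcd_eq_one] at h5
    exact orderOf_eq_one_iff.mp (Nat.dvd_one.mp h5)
  have hcopY : (Nat.card Y).Coprime (Nat.card M) := by
    have hp : IsPGroup t Y := fun u => ⟨k, Subtype.ext (by simpa using (hQ u u.2).2)⟩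
    obtain ⟨n, hn⟩ := IsPGroup.iff_card.mp hp
    rw [hn]
    exact Nat.Coprime.pow_left n ht
  have htriv := trivial_of_norm_fixed Y hc x hx3 hxY hfixY hcopY ⊤ (by simp) (by simp)
    (fun w _ u _ => by rw [hN w]; simp)
  have hb1 : b₀ = 1 := LinearEquiv.ext fun w => htriv b₀ hbY w trivial
  exact hb1

/-- Restriction of an automorphism. -/
def resA (W : AddSubgroup M) (φ : AA M) (h : ∀ w ∈ W, φ w ∈ W) (h' : ∀ w ∈ W, φ⁻¹ w ∈ W) : AA W :=
  AddEquiv.toIntLinearEquiv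
    { toFun := fun w => ⟨φ w, h w w.2⟩
      invFun := fun w => ⟨φ⁻¹ w, h' w w.2⟩
      left_inv := fun w => Subtype.ext (inv_self φ w)
      right_inv := fun w => Subtype.ext (self_inv φ w)
      map_add' := fun a b => Subtype.ext (map_add φ (a : M) (b : M)) }

theorem resA_coe (W : AddSubgroup M) (φ : AA M) (h : ∀ w ∈ W, φ w ∈ W) (h' : ∀ w ∈ W, φ⁻¹ w ∈ W) (w : W) :
    ((resA W φ h h' w : W) : M) = φ (w : M) := rfl

theorem resA_pow (W : AddSubgroup M) (φ : AA M) (h : ∀ w ∈ W, φ w ∈ W) (h' : ∀ w ∈ W, φ⁻¹ w ∈ W) (n : ℕ) (w : W) :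
    ((((resA W φ h h') ^ n) w : W) : M) = (φ ^ n) (w : M) := by
  induction n generalizing w with
  | zero => rfl
  | succ n ih =>
    rw [pow_succ_app, ih, pow_succ_app, resA_coe]

theorem good_triv (t : ℕ) [Fact t.Prime] (ht : t.Coprime (Nat.card M)) (ht3 : t ≠ 3) (ht2 : t ≠ 2)
    (W : AddSubgroup M) (x g : AA M) (hxW : ∀ w ∈ W, x w ∈ W) (hxW' : ∀ w ∈ W, x⁻¹ w ∈ W)
    (hgW : ∀ w ∈ W, g w ∈ W) (hgW' : ∀ w ∈ W, g⁻¹ w ∈ W) (hx3 : x ^ 3 = 1)
    (hN : ∀ w ∈ W, Nm x w = 0) (hN' : ∀ w ∈ W, Nm (x * g) w = 0)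
    (hfg : g * (x * g * x⁻¹) * (x * (x * g * x⁻¹) * x⁻¹) = 1) (k : ℕ) (hg : g ^ (t ^ k) = 1)
    (hdg : (g * (x * g * x⁻¹) * g⁻¹ * (x * g * x⁻¹)⁻¹) * g = g * (g * (x * g * x⁻¹) * g⁻¹ * (x * g * x⁻¹)⁻¹))
    (hdh : (g * (x * g * x⁻¹) * g⁻¹ * (x * g * x⁻¹)⁻¹) * (x * g * x⁻¹) =
      (x * g * x⁻¹) * (g * (x * g * x⁻¹) * g⁻¹ * (x * g * x⁻¹)⁻¹)) : ∀ w ∈ W, g w = w := by
  classical
  set X := resA W x hxW hxW' with hX
  set G := resA W g hgW hgW' with hG
  have htW : t.Coprime (Nat.card W) :=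
    Nat.Coprime.coprime_dvd_right (AddSubgroup.card_addSubgroup_dvd_card W) ht
  have hX3 : X ^ 3 = 1 := LinearEquiv.ext fun w => Subtype.ext (by
    rw [resA_pow, hx3]; rfl)
  have hNX : ∀ w, Nm X w = 0 := fun w => Subtype.ext (hN w w.2)
  have hNXG : ∀ w, Nm (X * G) w = 0 := fun w => Subtype.ext (hN' w w.2)
  have hGk : G ^ (t ^ k) = 1 := LinearEquiv.ext fun w => Subtype.ext (by
    rw [resA_pow, hg]; rfl)
  have hD := hh_prime t htW ht3 ht2 X G hX3 hNX hNXG k hGk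
    (LinearEquiv.ext fun w => Subtype.ext (LinearEquiv.congr_fun hdg (w : M)))
    (LinearEquiv.ext fun w => Subtype.ext (LinearEquiv.congr_fun hdh (w : M)))
  set H := X * G * X⁻¹ with hH
  have hGH : G * H = H * G := by
    have h1 : G * H * G⁻¹ = H := by
      rw [mul_inv_eq_one] at hD
      exact hD
    calc G * H = (G * H * G⁻¹) * G := by group
      _ = H * G := by rw [h1]
  have hfgX : G * H * (X * H * X⁻¹) = 1 :=
    LinearEquiv.ext fun w => Subtype.ext (LinearEquiv.congr_fun hfg (w : M))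
  have hHk : H ^ (t ^ k) = 1 := by
    rw [hH, conj_pow, hGk]; group
  have hH1 := cyc_triv t htW ht3 X G H hX3 hNX hGH rfl (eq_inv_of_mul_eq_one_right hfgX) k hGk hHk
  have hG1 : G = 1 := by
    rw [hH] at hH1
    exact conj_eq_one_iff.mp hH1
  intro w hw
  have := LinearEquiv.congr_fun hG1 ⟨w, hw⟩
  exact congrArg Subtype.val this

variable {T E : Subgroup (AA M)} {x : AA M}

theorem SCfg.e_step (h : SCfg T E x) (hEle : E ≤ ⁅T, T⁆) (t : ℕ) [Fact t.Prime]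
    (ht : t.Coprime (Nat.card M)) (ht3 : t ≠ 3) (ht2 : t ≠ 2) (htT : ∀ g ∈ T, ∃ k, g ^ (t ^ k) = 1)
    {b : AA M} (hb : b ∈ T) (hf : cj x b = b) : b = 1 := by
  classical
  by_contra hb1
  have hbE := h.b_mem_E hb hf
  have hcen : ∀ c ∈ T, cj x c = c → ∀ g ∈ T, c * g = g * c := by
    intro c hc hfc g hg
    have := h.c_step hc hfc hg
    simp only [cj] at this
    calc c * g = (g * c * g⁻¹) * g := by rw [this]
      _ = g * c := by group
  have hcx : ∀ c, cj x c = c → c * x = x * c := by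
    intro c hfc
    simp only [cj] at hfc
    calc c * x = (x * c * x⁻¹) * x := by rw [hfc]
      _ = x * c := by group
  have hbx := hcx b hf
  set W := Im1 b with hW
  have hWT : ∀ g ∈ T, ∀ w ∈ W, g w ∈ W := by
    rintro g hg _ ⟨z, rfl⟩
    refine ⟨g z, ?_⟩
    rw [map_sub, ca g b (hcen b hb hf g hg).symm]
  have hWx : ∀ w ∈ W, x w ∈ W := by
    rintro _ ⟨z, rfl⟩
    refine ⟨x z, ?_⟩
    rw [map_sub, ca x b hbx.symm]
  have hxx3 : x * x * x = 1 := by
    have := h.hx3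
    rwa [pow_succ, pow_two] at this
  have hxi : x⁻¹ = x * x := by
    rw [inv_eq_iff_mul_eq_one, ← mul_assoc]; exact hxx3
  have hWx' : ∀ w ∈ W, x⁻¹ w ∈ W := by
    intro w hw
    rw [hxi]
    exact hWx _ (hWx _ hw)
  have hNW : ∀ w ∈ W, Nm x w = 0 := by
    rintro _ ⟨v, rfl⟩
    have h1 := h.hBL b hb hf _ (nm_fixed x h.hx3 v)
    have h2 : Nm x (b v) = b (Nm x v) := by
      simp only [Nm, map_add, ca b x hbx]
    have h3 : Nm x (b v - v) = Nm x (b v) - Nm x v := by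
      simp only [Nm, map_sub]; abel
    rw [h3, h2, h1, sub_self]
  have hordx : (orderOf x).Coprime (Nat.card T) :=
    (Nat.Coprime.coprime_dvd_right (orderOf_dvd_of_pow_eq_one h.hx3) h.hT3).symm
  have hgood : ∀ g ∈ T, ∃ c ∈ T, cj x c = c ∧ ∃ u ∈ T, x * (c⁻¹ * g) = u⁻¹ * x * u := by
    intro g hg
    obtain ⟨u, hu, c, hc, hcc, he⟩ :=
      Cfsg.Agent.H06.exists_conj_mul_eq (H := T) (g := x) h.hxT hordx (h.hxT g hg)
    have hfc : cj x c = c := by
      simp only [cj]; rw [← hcc]; simp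
    refine ⟨c, hc, hfc, u, hu, ?_⟩
    have e1 : u * (cj x g * x) * u⁻¹ = u * (x * g) * u⁻¹ := by simp [cj]
    rw [e1] at he
    have e2 : x * g = u⁻¹ * (c * x) * u := by
      rw [← he]; group
    have e3 : u⁻¹ * (c * x) * u = c * (u⁻¹ * x * u) := by
      have h1 := hcen c hc hfc u⁻¹ (T.inv_mem hu)
      calc u⁻¹ * (c * x) * u = (u⁻¹ * c) * x * u := by group
        _ = (c * u⁻¹) * x * u := by rw [h1]
        _ = _ := by group
    calc x * (c⁻¹ * g) = (x * c⁻¹) * g := by group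
      _ = (c⁻¹ * x) * g := by
        have := (show Commute c x from hcx c hfc).inv_left.eq
        rw [this]
      _ = c⁻¹ * (x * g) := by group
      _ = _ := by rw [e2, e3]; group
  have htriv : ∀ g ∈ T, (∃ u ∈ T, x * g = u⁻¹ * x * u) → ∀ w ∈ W, g w = w := by
    rintro g hg ⟨u, hu, hgu⟩
    obtain ⟨k, hk⟩ := htT g hg
    have hN' : ∀ w ∈ W, Nm (x * g) w = 0 := by
      intro w hw
      rw [hgu]
      have h1 := hNW _ (hWT u hu w hw)
      have h2 : Nm (u⁻¹ * x * u) w = u⁻¹ (Nm x (u w)) := by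
        simp only [Nm, mul_app, map_add, inv_self, self_inv]
      rw [h2, h1, map_zero]
    set h₁ := x * g * x⁻¹ with hh₁
    set f := x * h₁ * x⁻¹ with hf₁
    have h1 : h₁ * f * g = 1 := by
      have e1 : (x * g) ^ 3 = 1 := by
        rw [hgu]
        have : u⁻¹ * x * u = u⁻¹ * x * u⁻¹⁻¹ := by rw [inv_inv]
        rw [this, conj_pow, h.hx3]; group
      have e2 : (x * g) ^ 3 = h₁ * f * ((x * x * x) * g * (x * x * x)⁻¹) * (x * x * x) := by
        simp only [hf₁, hh₁, pow_succ, pow_zero]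
        group
      rw [e1, hxx3] at e2
      simpa using e2.symm
    have h2 : g * h₁ * f = 1 := by
      have : g * h₁ * f = g * (h₁ * f * g) * g⁻¹ := by group
      rw [this, h1]; group
    have h3 : f * g * h₁ = 1 := by
      have : f * g * h₁ = h₁⁻¹ * (h₁ * f * g) * h₁ := by group
      rw [this, h1]; group
    have hxf : x * f * x⁻¹ = g := by
      calc x * f * x⁻¹ = (x * x * x) * g * (x * x * x)⁻¹ := by
            simp only [hf₁, hh₁]; group
        _ = g := by rw [hxx3]; group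
    -- the commutator is a cube of a central element
    have hh₁T : h₁ ∈ T := h.hxT g hg
    obtain ⟨c₁, hc₁, hfc₁, u₁, hu₁, hgu₁⟩ := hgood (g * h₁) (T.mul_mem hg hh₁T)
    set g₁ := c₁⁻¹ * (g * h₁) with hg₁
    have hg₁T : g₁ ∈ T := T.mul_mem (T.inv_mem hc₁) (T.mul_mem hg hh₁T)
    have hcen₁ := hcen c₁ hc₁ hfc₁
    have hd : g * h₁ * g⁻¹ * h₁⁻¹ = c₁ * c₁ * c₁ := by
      -- norm of g * h₁
      have n1 : (g * h₁) * (h₁ * f) * (f * g) = g * h₁ * g⁻¹ * h₁⁻¹ := by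
        have e1 : h₁ * f = g⁻¹ := eq_inv_of_mul_eq_one_left h1
        have e2 : f * g = h₁⁻¹ := eq_inv_of_mul_eq_one_left h3
        rw [e1, e2]
      have hgh : g * h₁ = c₁ * g₁ := by rw [hg₁]; group
      have hξ : x * (g * h₁) * x⁻¹ = h₁ * f := by
        show x * (g * h₁) * x⁻¹ = (x * g * x⁻¹) * (x * h₁ * x⁻¹)
        group
      have hξξ : x * (h₁ * f) * x⁻¹ = f * g := by
        rw [← hxf]
        show x * (h₁ * f) * x⁻¹ = (x * h₁ * x⁻¹) * (x * f * x⁻¹)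
        group
      have hg₁1 : g₁ * (x * g₁ * x⁻¹) * (x * (x * g₁ * x⁻¹) * x⁻¹) = 1 := by
        have e1 : (x * g₁) ^ 3 = 1 := by
          rw [hgu₁]
          have : u₁⁻¹ * x * u₁ = u₁⁻¹ * x * u₁⁻¹⁻¹ := by rw [inv_inv]
          rw [this, conj_pow, h.hx3]; group
        have e2 : (x * g₁) ^ 3 = (x * g₁ * x⁻¹) * (x * (x * g₁ * x⁻¹) * x⁻¹) * ((x * x * x) * g₁ * (x * x * x)⁻¹) * (x * x * x) := by
          simp only [pow_succ, pow_zero]
          group
        rw [e1, hxx3] at e2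
        have e3 : (x * g₁ * x⁻¹) * (x * (x * g₁ * x⁻¹) * x⁻¹) * g₁ = 1 := by
          simpa using e2.symm
        have e4 : g₁ * (x * g₁ * x⁻¹) * (x * (x * g₁ * x⁻¹) * x⁻¹) =
            g₁ * ((x * g₁ * x⁻¹) * (x * (x * g₁ * x⁻¹) * x⁻¹) * g₁) * g₁⁻¹ := by group
        rw [e4, e3]; group
      have hxc : x * c₁ * x⁻¹ = c₁ := hfc₁
      have hξg₁ : x * (c₁ * g₁) * x⁻¹ = c₁ * (x * g₁ * x⁻¹) := by
        calc x * (c₁ * g₁) * x⁻¹ = (x * c₁ * x⁻¹) * (x * g₁ * x⁻¹) := by group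
          _ = _ := by rw [hxc]
      have hξξg₁ : x * (c₁ * (x * g₁ * x⁻¹)) * x⁻¹ = c₁ * (x * (x * g₁ * x⁻¹) * x⁻¹) := by
        calc x * (c₁ * (x * g₁ * x⁻¹)) * x⁻¹ = (x * c₁ * x⁻¹) * (x * (x * g₁ * x⁻¹) * x⁻¹) := by group
          _ = _ := by rw [hxc]
      have n2 : (g * h₁) * (h₁ * f) * (f * g) = c₁ * c₁ * c₁ := by
        rw [← hξξ, ← hξ, hgh, hξg₁, hξξg₁]
        have hx1 := h.hxT g₁ hg₁T
        have hx2 := h.hxT _ hx1
        have e5 := hcen₁ g₁ hg₁T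
        have e6 := hcen₁ _ hx1
        calc c₁ * g₁ * (c₁ * (x * g₁ * x⁻¹)) * (c₁ * (x * (x * g₁ * x⁻¹) * x⁻¹))
            = c₁ * (g₁ * c₁) * (x * g₁ * x⁻¹) * (c₁ * (x * (x * g₁ * x⁻¹) * x⁻¹)) := by group
          _ = c₁ * (c₁ * g₁) * (x * g₁ * x⁻¹) * (c₁ * (x * (x * g₁ * x⁻¹) * x⁻¹)) := by rw [e5]
          _ = c₁ * c₁ * (g₁ * (x * g₁ * x⁻¹) * c₁) * (x * (x * g₁ * x⁻¹) * x⁻¹) := by group
          _ = c₁ * c₁ * (c₁ * (g₁ * (x * g₁ * x⁻¹))) * (x * (x * g₁ * x⁻¹) * x⁻¹) := by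
              have e7 : c₁ * (g₁ * (x * g₁ * x⁻¹)) = (g₁ * (x * g₁ * x⁻¹)) * c₁ := hcen₁ _ (T.mul_mem hg₁T hx1)
              rw [e7]
          _ = c₁ * c₁ * c₁ * (g₁ * (x * g₁ * x⁻¹) * (x * (x * g₁ * x⁻¹) * x⁻¹)) := by group
          _ = _ := by rw [hg₁1, mul_one]
      rw [← n1, n2]
    have hcube := T.mul_mem (T.mul_mem hc₁ hc₁) hc₁
    have hcubef : cj x (c₁ * c₁ * c₁) = c₁ * c₁ * c₁ := by
      rw [cj_mul, cj_mul, hfc₁]
    have hcub := hcen _ hcube hcubef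
    exact good_triv t ht ht3 ht2 W x g hWx hWx' (hWT g hg) (hWT _ (T.inv_mem hg)) h.hx3 hNW hN' h2 k hk
      (by rw [hd]; exact hcub g hg) (by rw [hd]; exact hcub h₁ hh₁T)
  -- all commutators act trivially
  let C₁ : Subgroup (AA M) :=
    { carrier := {e | ∀ w ∈ W, e w = w}
      one_mem' := fun w _ => rfl
      mul_mem' := by
        intro a c ha hc w hw
        rw [mul_app, hc w hw, ha w hw]
      inv_mem' := by
        intro a ha w hw
        exact inv_of_fix a w (ha w hw) }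
  have hcomm : ⁅T, T⁆ ≤ C₁ := by
    rw [Subgroup.commutator_le]
    intro g₁ hg₁ g₂ hg₂ w hw
    rw [commutatorElement_def]
    obtain ⟨c₁, hc₁, hfc₁, hk₁⟩ := hgood g₁ hg₁
    obtain ⟨c₂, hc₂, hfc₂, hk₂⟩ := hgood g₂ hg₂
    have ht₁ := htriv _ (T.mul_mem (T.inv_mem hc₁) hg₁) hk₁
    have ht₂ := htriv _ (T.mul_mem (T.inv_mem hc₂) hg₂) hk₂
    set g₁' := c₁⁻¹ * g₁ with hg₁'
    have hg₁'T : g₁' ∈ T := T.mul_mem (T.inv_mem hc₁) hg₁
    have e1 : g₁ = c₁ * g₁' := by rw [hg₁']; group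
    -- first conjugation
    have hw₂ := hWT _ (T.inv_mem hg₂) w hw
    set z := g₂⁻¹ w with hz
    have hg₂z : g₂ z = w := by rw [hz]; simp
    have e2 : cj g₁ g₂ = cj g₁' g₂ := by
      rw [e1, ← cj_cj]
      have hc := hcen c₁ hc₁ hfc₁ _ (T.mul_mem (T.mul_mem hg₁'T hg₂) (T.inv_mem hg₁'T))
      simp only [cj]
      have hc' : c₁ * (g₁' * g₂ * g₁'⁻¹) = (g₁' * g₂ * g₁'⁻¹) * c₁ := hc
      rw [hc']; simp
    have e3 : (g₁ * g₂ * g₁⁻¹) z = g₂ z := by
      have e4 : (cj g₁ g₂) z = g₂ z := by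
        rw [e2, cj_app, inv_of_fix g₁' z (ht₁ z hw₂)]
        have h5 : g₂ z ∈ W := hWT g₂ hg₂ z hw₂
        exact ht₁ _ h5
      exact e4
    show (g₁ * g₂ * g₁⁻¹) (g₂⁻¹ w) = w
    rw [← hz, e3, hg₂z]
  have hbtriv : ∀ w ∈ W, b w = w := hcomm (hEle hbE)
  apply hb1
  apply LinearEquiv.ext
  intro z
  have hvcard : b ^ Nat.card E = 1 := by
    have := pow_card_eq_one' (G := E) (x := ⟨b, hbE⟩)
    exact congrArg Subtype.val this
  have := fixed_image_zero b _ hvcard h.hEM z (hbtriv _ ⟨z, rfl⟩)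
  simpa [sub_eq_zero] using this

end Cfsg.Agent.H13.SF
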