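import Cfsg.Agent.Lib.H13.SF5

set_option autoImplicit false

namespace Cfsg.Agent.H13.SF

theorem Qab {Γ : Type*} [Group Γ] (Q : Subgroup Γ)
    (hid : ∀ a ∈ Q, ∀ b ∈ Q, (a * b) * (a * b) = b * b * (a * a))
    (hroot2 : ∀ a ∈ Q, ∃ m : ℕ, (a * a) ^ m = a) (hroot3 : ∀ a ∈ Q, ∃ m : ℕ, (a * a * a) ^ m = a) :
    ∀ a ∈ Q, ∀ b ∈ Q, a * b = b * a := by
  have hc : ∀ a ∈ Q, ∀ b ∈ Q, Commute (a * a) (b * b * b) := by
    intro a ha b hb
    have hbi := Q.inv_mem hb
    have h3 := hid b hb (a * b⁻¹) (Q.mul_mem ha hbi)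
    have h4 := hid a ha b⁻¹ hbi
    have e1 : (b * (a * b⁻¹)) * (b * (a * b⁻¹)) = b * (a * a) * b⁻¹ := by
      simp only [mul_assoc, inv_mul_cancel_left]
    rw [e1, h4] at h3
    show (a * a) * (b * b * b) = (b * b * b) * (a * a)
    calc (a * a) * (b * b * b) = b * b * (b⁻¹ * b⁻¹ * (a * a) * (b * b)) * b := by
          simp only [mul_assoc, mul_inv_cancel_left]
      _ = b * b * (b * (a * a) * b⁻¹) * b := by rw [h3]
      _ = (b * b * b) * (a * a) := by
          simp only [mul_assoc, inv_mul_cancel, mul_one]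
  intro a ha b hb
  obtain ⟨m, hm⟩ := hroot2 a ha
  obtain ⟨l, hl⟩ := hroot3 b hb
  have := ((hc a ha b hb).pow_left m).pow_right l
  rw [hm, hl] at this
  exact this

variable {M : Type*} [AddCommGroup M] [Finite M]

theorem r1_comm (T : Subgroup (AA M)) (x y' : AA M) (hx3 : x ^ 3 = 1) (hy' : y' * y' = 1)
    (hyx : cj y' x = x⁻¹) (hxT : ∀ g ∈ T, cj x g ∈ T) (hyT : ∀ g ∈ T, cj y' g ∈ T)
    (hT6 : (Nat.card T).Coprime 6) (hn : ∀ g ∈ T, g * cj x g * cj x (cj x g) = 1)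
    (W : AddSubgroup M) (hW : ∀ g ∈ T, ∀ w ∈ W, g w ∈ W) (hyW : ∀ w ∈ W, y' w = -w) :
    ∀ e ∈ ⁅T, T⁆, ∀ w ∈ W, e w = w := by
  classical
  have hyi : y'⁻¹ = y' := inv_eq_of_mul_eq_one_left hy'
  have hηW : ∀ v ∈ T, ∀ w ∈ W, (cj y' v) w = v w := by
    intro v hv w hw
    rw [cj_app, hyi, hyW w hw, map_neg, map_neg, hyW _ (hW v hv w hw), neg_neg]
  -- the coset lift
  let C₁ : Subgroup (AA M) :=
    { carrier := {c | c ∈ T ∧ ∀ w ∈ W, c w = w}
      one_mem' := ⟨T.one_mem, fun w _ => rfl⟩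
      mul_mem' := by
        rintro a c ⟨ha, ha'⟩ ⟨hc, hc'⟩
        refine ⟨T.mul_mem ha hc, fun w hw => ?_⟩
        rw [mul_app, hc' w hw, ha' w hw]
      inv_mem' := by
        rintro a ⟨ha, ha'⟩
        exact ⟨T.inv_mem ha, fun w hw => inv_of_fix a w (ha' w hw)⟩ }
  have hT2 : (Nat.card T).Coprime 2 := Nat.Coprime.coprime_dvd_right (by norm_num) hT6
  have hT3 : (Nat.card T).Coprime 3 := Nat.Coprime.coprime_dvd_right (by norm_num) hT6
  have hlift : ∀ u ∈ T, ∃ g ∈ T, cj y' g = g ∧ ∀ w ∈ W, g w = u w := by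
    intro u hu
    have hC1T : C₁ ≤ T := fun c hc => hc.1
    have hy2 : y' ^ 2 = 1 := by rw [pow_two]; exact hy'
    have hcop : (orderOf y').Coprime (Nat.card C₁) := by
      have h1 : (Nat.card C₁).Coprime 2 :=
        Nat.Coprime.coprime_dvd_left (Subgroup.card_dvd_of_le hC1T) hT2
      exact (Nat.Coprime.coprime_dvd_right (orderOf_dvd_of_pow_eq_one hy2) h1).symm
    have hnorm : ∀ c ∈ C₁, y' * c * y'⁻¹ ∈ C₁ := by
      rintro c ⟨hc, hc'⟩
      refine ⟨hyT c hc, fun w hw => ?_⟩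
      have := hηW c hc w hw
      rw [hc' w hw] at this
      exact this
    have hw0 : u⁻¹ * (y' * u * y'⁻¹) ∈ C₁ := by
      refine ⟨T.mul_mem (T.inv_mem hu) (hyT u hu), fun w hw => ?_⟩
      have := hηW u hu w hw
      show u⁻¹ ((cj y' u) w) = w
      rw [this]; simp
    obtain ⟨n, hn1, hcomm⟩ := Cfsg.Agent.H06.exists_fixed_of_coset hnorm hcop hw0
    refine ⟨u * n, T.mul_mem hu hn1.1, ?_, fun w hw => ?_⟩
    · have := hcomm.eq
      simp only [cj]
      rw [hyi]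
      calc y' * (u * n) * y' = (y' * (u * n)) * y' := rfl
        _ = ((u * n) * y') * y' := by rw [this]
        _ = (u * n) * (y' * y') := by group
        _ = u * n := by rw [hy', mul_one]
    · rw [mul_app, hn1.2 w hw]
  -- the homomorphism
  let ρ : T →* AA W := MonoidHom.mk' (fun g => resA W (g : AA M) (hW g g.2) (hW _ (T.inv_mem g.2)))
    (fun a b => LinearEquiv.ext fun w => Subtype.ext rfl)
  have hρ : ∀ (g : T) (w : W), ((ρ g w : W) : M) = (g : AA M) w := fun g w => rfl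
  have hρeq : ∀ (a b : T), (∀ w ∈ W, (a : AA M) w = (b : AA M) w) → ρ a = ρ b := by
    intro a b h
    exact LinearEquiv.ext fun w => Subtype.ext (h w w.2)
  let ξ : T →* T := MonoidHom.mk' (fun g => ⟨cj x g, hxT g g.2⟩)
    (fun a b => Subtype.ext (cj_mul x a b))
  let η : T → T := fun g => ⟨cj y' g, hyT g g.2⟩
  have hηρ : ∀ g : T, ρ (η g) = ρ g := fun g => hρeq _ _ (fun w hw => hηW g g.2 w hw)
  have hηmul : ∀ a b : T, η (a * b) = η a * η b := fun a b => Subtype.ext (cj_mul y' a b)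
  let C' : Set T := {g | η g = g}
  have hC'mul : ∀ a ∈ C', ∀ b ∈ C', a * b ∈ C' := by
    intro a ha b hb
    show η (a * b) = a * b
    rw [hηmul, ha, hb]
  have hC'inv : ∀ a ∈ C', a⁻¹ ∈ C' := by
    intro a ha
    show η a⁻¹ = a⁻¹
    have h1 : η a⁻¹ * η a = 1 := by rw [← hηmul]; exact Subtype.ext (by simp [η, cj])
    rw [ha] at h1
    exact eq_inv_of_mul_eq_one_left h1
  -- main identity on the fixed part
  have hkey : ∀ g ∈ C', ρ g * ρ (ξ g) * ρ (ξ g) = 1 := by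
    intro g hg
    have h1 : (g * ξ g) * ξ (ξ g) = 1 := Subtype.ext (hn g g.2)
    have h2 : η (ξ g) = ξ (ξ g) := by
      apply Subtype.ext
      show cj y' (cj x g) = cj x (cj x g)
      have hg' : cj y' (g : AA M) = g := congrArg Subtype.val hg
      rw [cj_hom, hg', hyx, cj_inv_x hx3]
    have h3 : ρ (ξ (ξ g)) = ρ (ξ g) := by rw [← h2, hηρ]
    have h4 := congrArg ρ h1
    rw [map_mul, map_mul, h3, map_one] at h4
    exact h4
  have hsurj : ∀ α ∈ ρ.range, ∃ g ∈ C', ρ (ξ g) = α := by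
    rintro _ ⟨u, rfl⟩
    obtain ⟨g₀, hg₀, hfix, hgu⟩ := hlift u u.2
    let g₁ : T := ⟨g₀, hg₀⟩
    have hg₁C : g₁ ∈ C' := Subtype.ext hfix
    have hg₁u : ρ g₁ = ρ u := hρeq _ _ hgu
    refine ⟨g₁⁻¹ * g₁⁻¹, hC'mul _ (hC'inv _ hg₁C) _ (hC'inv _ hg₁C), ?_⟩
    have h1 := hkey g₁ hg₁C
    have h2 : ρ g₁ = (ρ (ξ g₁) * ρ (ξ g₁))⁻¹ := by
      rw [mul_assoc] at h1
      exact eq_inv_of_mul_eq_one_left h1
    have e : ξ (g₁⁻¹ * g₁⁻¹) = (ξ g₁)⁻¹ * (ξ g₁)⁻¹ := by rw [map_mul, map_inv]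
    rw [e, map_mul, map_inv, ← hg₁u, h2, mul_inv_rev]
  have hid : ∀ a ∈ ρ.range, ∀ b ∈ ρ.range, (a * b) * (a * b) = b * b * (a * a) := by
    intro a ha b hb
    obtain ⟨g, hg, rfl⟩ := hsurj a ha
    obtain ⟨k, hk, rfl⟩ := hsurj b hb
    have h1 := hkey g hg
    have h2 := hkey k hk
    have h3 := hkey (g * k) (hC'mul g hg k hk)
    rw [map_mul ξ, map_mul ρ, map_mul ρ] at h3
    have h4 : ρ (ξ g) * ρ (ξ g) = (ρ g)⁻¹ := by
      rw [mul_assoc] at h1
      exact eq_inv_of_mul_eq_one_right h1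
    have h5 : ρ (ξ k) * ρ (ξ k) = (ρ k)⁻¹ := by
      rw [mul_assoc] at h2
      exact eq_inv_of_mul_eq_one_right h2
    rw [h4, h5]
    rw [mul_assoc (ρ g * ρ k)] at h3
    have h6 := eq_inv_of_mul_eq_one_right h3
    rw [h6]
    group
  have hroot : ∀ n : ℕ, (Nat.card T).Coprime n → ∀ a ∈ ρ.range, ∃ m : ℕ, (a ^ n) ^ m = a := by
    rintro n hcop _ ⟨g, rfl⟩
    have h1 : orderOf g ∣ Nat.card T := orderOf_dvd_natCard g
    have h2 : n.Coprime (orderOf g) := (Nat.Coprime.coprime_dvd_left h1 hcop).symm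
    obtain ⟨m, hm⟩ := exists_pow_eq_self_of_coprime h2
    refine ⟨m, ?_⟩
    rw [← map_pow, ← map_pow, hm]
  have hcomm := Qab ρ.range hid
    (fun a ha => by
      obtain ⟨m, hm⟩ := hroot 2 hT2 a ha
      exact ⟨m, by rw [← pow_two]; exact hm⟩)
    (fun a ha => by
      obtain ⟨m, hm⟩ := hroot 3 hT3 a ha
      exact ⟨m, by rw [show a * a * a = a ^ 3 by rw [pow_succ, pow_two]]; exact hm⟩)
  let C₂ : Subgroup (AA M) :=
    { carrier := {e | ∀ w ∈ W, e w = w}
      one_mem' := fun w _ => rfl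
      mul_mem' := by
        intro a c ha hc w hw
        rw [mul_app, hc w hw, ha w hw]
      inv_mem' := by
        intro a ha w hw
        exact inv_of_fix a w (ha w hw) }
  have hle : ⁅T, T⁆ ≤ C₂ := by
    rw [Subgroup.commutator_le]
    intro g₁ hg₁ g₂ hg₂ w hw
    rw [commutatorElement_def]
    have h1 := hcomm _ ⟨⟨g₁, hg₁⟩, rfl⟩ _ ⟨⟨g₂, hg₂⟩, rfl⟩
    have hz : g₁⁻¹ (g₂⁻¹ w) ∈ W := hW _ (T.inv_mem hg₁) _ (hW _ (T.inv_mem hg₂) _ hw)
    have h2 := congrArg Subtype.val (LinearEquiv.congr_fun h1 ⟨_, hz⟩)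
    have h3 : g₁ (g₂ (g₁⁻¹ (g₂⁻¹ w))) = g₂ (g₁ (g₁⁻¹ (g₂⁻¹ w))) := h2
    show g₁ (g₂ (g₁⁻¹ (g₂⁻¹ w))) = w
    rw [h3]; simp
  intro e he w hw
  exact hle he w hw

theorem stab_inv (K : Subgroup (AA M)) (a : AA M) (h : ∀ k ∈ K, cj a k ∈ K) : ∀ k ∈ K, cj a⁻¹ k ∈ K := by
  have hp : ∀ j : ℕ, ∀ k ∈ K, cj (a ^ j) k ∈ K := by
    intro j
    induction j with
    | zero => intro k hk; rwa [pow_zero, cj_one]
    | succ j ih =>
      intro k hk
      rw [pow_succ', ← cj_cj]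
      exact h _ (ih k hk)
  have hpos : 0 < orderOf a := orderOf_pos a
  have hi : a⁻¹ = a ^ (orderOf a - 1) := by
    have h1 : a ^ (orderOf a - 1) * a = 1 := by
      rw [← pow_succ, Nat.sub_add_cancel hpos, pow_orderOf_eq_one]
    exact (eq_inv_of_mul_eq_one_left h1).symm
  intro k hk
  rw [hi]
  exact hp _ k hk

/-- Stabilizer of a vector. -/
def stabS (z : M) : Subgroup (AA M) where
  carrier := {u | u z = z}
  one_mem' := rfl
  mul_mem' := by
    intro a b ha hb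
    show a (b z) = z
    rw [show b z = z from hb]; exact ha
  inv_mem' := by
    intro a ha
    exact inv_of_fix a z ha

/-- Normalizing elements as a subgroup. -/
def normS (K : Subgroup (AA M)) : Subgroup (AA M) where
  carrier := {a | ∀ k ∈ K, cj a k ∈ K}
  one_mem' := by
    intro k hk
    rwa [cj_one]
  mul_mem' := by
    intro a b ha hb k hk
    rw [← cj_cj]
    exact ha _ (hb k hk)
  inv_mem' := by
    intro a ha
    exact stab_inv K a ha

theorem f_step (T R : Subgroup (AA M)) (x y : AA M) (hx3 : x ^ 3 = 1) (hy : y * y = 1)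
    (hyx : cj y x = x⁻¹) (hxT : ∀ g ∈ T, cj x g ∈ T) (hyT : ∀ g ∈ T, cj y g ∈ T)
    (hT6 : (Nat.card T).Coprime 6) (hTM : (Nat.card T).Coprime (Nat.card M))
    (hM6 : (Nat.card M).Coprime 6) (hfix : ∀ g ∈ T, cj x g = g → g = 1)
    (hn : ∀ g ∈ T, g * cj x g * cj x (cj x g) = 1) (hA : ∀ w, Nm x w + Nm x (y w) = 0)
    (hRT : R ≤ T) (hRc : ∀ u ∈ R, ∀ g ∈ T, u * g = g * u) (hRx : ∀ u ∈ R, cj x u ∈ R)
    (hRy : ∀ u ∈ R, cj y u ∈ R) (hRE : R ≤ ⁅T, T⁆) : R = ⊥ := by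
  classical
  by_contra hRne
  have hRcomm : ∀ a ∈ R, ∀ b ∈ R, a * b = b * a := fun a ha b hb => hRc a ha b (hRT hb)
  have hT2 : (Nat.card T).Coprime 2 := Nat.Coprime.coprime_dvd_right (by norm_num) hT6
  have hT3 : (Nat.card T).Coprime 3 := Nat.Coprime.coprime_dvd_right (by norm_num) hT6
  have hcopR : (Nat.card R).Coprime (Nat.card M) :=
    Nat.Coprime.coprime_dvd_left (Subgroup.card_dvd_of_le hRT) hTM
  have hM3 : Nat.Coprime 3 (Nat.card M) :=
    (Nat.Coprime.coprime_dvd_right (by norm_num : 3 ∣ 6) hM6).symm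
  obtain ⟨r, hrR, hr1⟩ : ∃ r ∈ R, r ≠ 1 := by
    rcases R.bot_or_exists_ne_one with h | h
    · exact absurd h hRne
    · exact h
  have hex0 : ∃ w ∈ kerS R, w ≠ 0 := by
    have h1 := Im1_ne_bot hr1
    by_contra hcon
    push Not at hcon
    apply h1
    rw [AddSubgroup.eq_bot_iff_forall]
    rintro _ ⟨z, rfl⟩
    apply hcon
    rw [mem_kerS, fS_sub, fS_right R hrR, sub_self]
  obtain ⟨K, hK⟩ := (Set.toFinite {K : Subgroup (AA M) | K ≤ R ∧ ∃ w ∈ kerS R, w ≠ 0 ∧ ∀ k ∈ K, k w = w}).exists_maximal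
    ⟨⊥, bot_le, by
      obtain ⟨w, hw, hne⟩ := hex0
      refine ⟨w, hw, hne, fun k hk => ?_⟩
      rw [Subgroup.mem_bot.mp hk]; rfl⟩
  have hKR : K ≤ R := hK.1.1
  obtain ⟨w₁, hw₁, hw₁ne, hw₁K⟩ := hK.1.2
  have hmaxK : ∀ K₂ : Subgroup (AA M), K ≤ K₂ → K₂ ≤ R → ∀ z ∈ kerS R, z ≠ 0 → (∀ u ∈ K₂, u z = z) → K₂ ≤ K :=
    fun K₂ h1 h2 z hz hz0 hz1 => hK.2 ⟨h2, z, hz, hz0, hz1⟩ h1
  have hK0 : (Nat.card K).Coprime (Nat.card M) :=
    Nat.Coprime.coprime_dvd_left (Subgroup.card_dvd_of_le hKR) hcopR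
  let W : AddSubgroup M :=
    { carrier := {w | w ∈ kerS R ∧ ∀ k ∈ K, k w = w}
      add_mem' := by
        rintro a b ⟨ha, ha'⟩ ⟨hb, hb'⟩
        refine ⟨(kerS R).add_mem ha hb, fun k hk => ?_⟩
        rw [map_add, ha' k hk, hb' k hk]
      zero_mem' := ⟨(kerS R).zero_mem, fun k _ => map_zero k⟩
      neg_mem' := by
        rintro a ⟨ha, ha'⟩
        refine ⟨(kerS R).neg_mem ha, fun k hk => ?_⟩
        rw [map_neg, ha' k hk] }
  have hmemW : ∀ w, w ∈ W ↔ w ∈ kerS R ∧ ∀ k ∈ K, k w = w := fun w => Iff.rfl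
  have hnofix : ∀ v ∈ R, v ∉ K → ∀ z ∈ W, v z = z → z = 0 := by
    intro v hv hvK z hz hvz
    by_contra hz0
    have h1 : K ⊔ Subgroup.zpowers v ≤ stabS z :=
      sup_le (fun k hk => hz.2 k hk) ((Subgroup.zpowers_le).2 hvz)
    have h2 := hmaxK (K ⊔ Subgroup.zpowers v) le_sup_left
      (sup_le hKR ((Subgroup.zpowers_le).2 hv)) z hz.1 hz0 (fun u hu => h1 hu)
    exact hvK (h2 (Subgroup.mem_sup_right (Subgroup.mem_zpowers v)))
  have hWT : ∀ g ∈ T, ∀ w ∈ W, g w ∈ W := by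
    intro g hg w hw
    refine ⟨?_, fun k hk => ?_⟩
    · rw [mem_kerS, ← fS_comm R g (fun u hu => (hRc u hu g hg).symm), show fS R w = 0 from hw.1, map_zero]
    · rw [ca k g (hRc k (hKR hk) g hg), hw.2 k hk]
  have hdead : (∀ u ∈ R, ∀ w ∈ W, u w = w) → False := by
    intro h
    have h1 : w₁ ∈ W := ⟨hw₁, hw₁K⟩
    have h2 := fS_const R w₁ (fun u hu => h u hu w₁ h1)
    rw [show fS R w₁ = 0 from hw₁] at h2
    exact hw₁ne (eq_zero_of_nsmul hcopR h2.symm)
  let NR := normS R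
  let NK := normS K
  have hxNR : x ∈ NR := hRx
  have hyNR : y ∈ NR := hRy
  have hkerA : ∀ a ∈ NR, ∀ w ∈ W, a w ∈ kerS R := by
    intro a ha w hw
    rw [mem_kerS, ← fS_conj R a ha, show fS R w = 0 from hw.1, map_zero]
  have hf1 : ∀ a ∈ NR, a ∉ NK → ∀ w ∈ W, fS K (a w) = 0 := by
    intro a ha hnot w hw
    have hnot' : ¬ ∀ k ∈ K, cj a k ∈ K := hnot
    push Not at hnot'
    obtain ⟨k₀, hk₀, hk₀n⟩ := hnot'
    by_contra hz0
    have hu : cj a k₀ ∈ R := ha _ (hKR hk₀)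
    have hz : fS K (a w) ∈ kerS R := by
      letI := Fintype.ofFinite K
      rw [fS_def]
      apply AddSubgroup.sum_mem
      intro k _
      rw [mem_kerS, fS_right R (hKR k.2)]
      exact hkerA a ha w hw
    have hfixz : cj a k₀ (fS K (a w)) = fS K (a w) := by
      rw [fS_comm K (cj a k₀) (fun v hv => hRcomm _ hu _ (hKR hv))]
      have : (cj a k₀) (a w) = a (k₀ w) := by simp [cj_app]
      rw [this, hw.2 k₀ hk₀]
    have h1 : K ⊔ Subgroup.zpowers (cj a k₀) ≤ stabS (fS K (a w)) :=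
      sup_le (fun k hk => fS_left K hk _) ((Subgroup.zpowers_le).2 hfixz)
    have h2 := hmaxK _ le_sup_left (sup_le hKR ((Subgroup.zpowers_le).2 hu)) _ hz hz0 (fun u hu' => h1 hu')
    exact hk₀n (h2 (Subgroup.mem_sup_right (Subgroup.mem_zpowers _)))
  have hf2 : ∀ a ∈ NR, a ∈ NK → ∀ w ∈ W, a w ∈ W ∧ fS K (a w) = Nat.card K • a w := by
    intro a ha hak w hw
    have hmem : a w ∈ W := by
      refine ⟨hkerA a ha w hw, fun k hk => ?_⟩
      have h1 : cj a⁻¹ k ∈ K := stab_inv K a hak k hk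
      have h2 := hw.2 _ h1
      rw [cj_app, inv_inv] at h2
      have h3 := congrArg a h2
      simpa using h3
    exact ⟨hmem, fS_const K _ hmem.2⟩
  -- the sum identity
  have hzeroK : fS K (0 : M) = 0 := by
    have := fS_sub K (0 : M) 0
    simpa using this
  have hsum : ∀ w ∈ W, Nat.card K • w + fS K (x w) + fS K (x (x w)) + fS K (y w) + fS K (x (y w)) +
      fS K (x (x (y w))) = 0 := by
    intro w hw
    have h1 := congrArg (fS K) (hA w)
    simp only [Nm, fS_add] at h1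
    rw [hzeroK, fS_const K w hw.2] at h1
    rw [← h1]
    abel
  have hxx3 : x * x * x = 1 := by
    have := hx3
    rwa [pow_succ, pow_two] at this
  have hxi : x⁻¹ = x * x := by
    rw [inv_eq_iff_mul_eq_one, ← mul_assoc]; exact hxx3
  have hyi : y⁻¹ = y := inv_eq_of_mul_eq_one_left hy
  have hcancel : ∀ z : M, Nat.card K • z = 0 → z = 0 := fun z hz => eq_zero_of_nsmul hK0 hz
  have hxxNR : x * x ∈ NR := NR.mul_mem hxNR hxNR
  have hxyNR : x * y ∈ NR := NR.mul_mem hxNR hyNR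
  have hxxyNR : x * x * y ∈ NR := NR.mul_mem hxxNR hyNR
  have hwmul : ∀ (a b : AA M) (w : M), (a * b) w = a (b w) := fun _ _ _ => rfl
  -- dead ends
  have hdead2 : x ∈ NK → (∀ w ∈ W, Nm x w = 0) → False := by
    intro hxK hN
    apply hdead
    exact trivial_of_norm_fixed R hRcomm x hx3 hRx (fun u hu h => hfix u (hRT hu) h) hcopR W
      (fun u hu w hw => hWT u (hRT hu) w hw) (fun w hw => (hf2 x hxNR hxK w hw).1)
      (fun w hw u _ => by rw [hN w hw]; simp)
  have hdead1 : ∀ y' : AA M, y' * y' = 1 → cj y' x = x⁻¹ → (∀ g ∈ T, cj y' g ∈ T) →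
      (∀ w ∈ W, y' w = -w) → False := by
    intro y' h1 h2 h3 h4
    apply hdead
    intro u hu w hw
    exact r1_comm T x y' hx3 h1 h2 hxT h3 hT6 hn W hWT h4 u (hRE hu) w hw
  have hinvx : cj y (x * x) = (x * x)⁻¹ := by
    rw [cj_mul, hyx]; simp only [mul_inv_rev]
  have htw : ∀ z : AA M, cj y z = z⁻¹ → (z * x = x * z) → (∀ g ∈ T, cj z g ∈ T) →
      (z * y) * (z * y) = 1 ∧ cj (z * y) x = x⁻¹ ∧ ∀ g ∈ T, cj (z * y) g ∈ T := by
    intro z hz hzx hzT
    refine ⟨?_, ?_, ?_⟩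
    · have h1 : y * z = z⁻¹ * y := by
        have : y * z * y⁻¹ = z⁻¹ := hz
        calc y * z = (y * z * y⁻¹) * y := by group
          _ = z⁻¹ * y := by rw [this]
      calc (z * y) * (z * y) = z * (y * z) * y := by group
        _ = z * (z⁻¹ * y) * y := by rw [h1]
        _ = y * y := by group
        _ = 1 := hy
    · rw [← cj_cj, hyx]
      have : z * x⁻¹ = x⁻¹ * z := by
        have := (show Commute z x from hzx).inv_right.eq
        exact this
      simp only [cj]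
      rw [this]; simp
    · intro g hg
      rw [← cj_cj]
      exact hzT _ (hyT g hg)
  have hxxT : ∀ g ∈ T, cj (x * x) g ∈ T := by
    intro g hg
    rw [← cj_cj]
    exact hxT _ (hxT g hg)
  have hexW : ∃ w₀ ∈ W, w₀ ≠ 0 := ⟨w₁, ⟨hw₁, hw₁K⟩, hw₁ne⟩
  by_cases hxK : x ∈ NK
  · have hxxK : x * x ∈ NK := NK.mul_mem hxK hxK
    by_cases hyK : y ∈ NK
    · -- the whole group stabilizes
      have hxWW : ∀ w ∈ W, x w ∈ W := fun w hw => (hf2 x hxNR hxK w hw).1
      obtain ⟨w₂, hw₂, hw₂ne⟩ : ∃ w ∈ W, Nm x w ≠ 0 := by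
        by_contra hcon
        push Not at hcon
        exact hdead2 hxK hcon
      set w₀ := Nm x w₂ with hw₀
      have hw₀W : w₀ ∈ W := W.add_mem (W.add_mem hw₂ (hxWW _ hw₂)) (hxWW _ (hxWW _ hw₂))
      have hxw₀ : x w₀ = w₀ := nm_fixed x hx3 w₂
      have hxy : x * y = y * x⁻¹ := by
        have h1 : y * x⁻¹ * y⁻¹ = x := by
          have : y * x * y⁻¹ = x⁻¹ := hyx
          calc y * x⁻¹ * y⁻¹ = (y * x * y⁻¹)⁻¹ := by group
            _ = x := by rw [this]; simp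
        calc x * y = (y * x⁻¹ * y⁻¹) * y := by rw [h1]
          _ = y * x⁻¹ := by group
      have hy1 : ∀ z, x z = z → y z = -z := by
        intro z hz
        have h1 : x (y z) = y z := by
          have h2 : (x * y) z = (y * x⁻¹) z := by rw [hxy]
          have h3 : x⁻¹ z = z := inv_of_fix x z hz
          simpa [h3] using h2
        have h2 := hA z
        simp only [Nm, h1, hz] at h2
        have h3 : 3 • (z + y z) = 0 := by
          rw [← h2]
          simp only [succ_nsmul, zero_smul, zero_add]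
          abel
        have h4 := eq_zero_of_nsmul hM3 h3
        exact eq_neg_of_add_eq_zero_right h4
      have hKx : ∀ k ∈ K, cj x k ∈ K := hxK
      have hKy : ∀ k ∈ K, cj y k ∈ K := hyK
      -- a suitable element
      obtain ⟨u, huR, hgK⟩ : ∃ u ∈ R, u⁻¹ * cj y u ∉ K := by
        by_contra hcon
        push Not at hcon
        have h2 : ∀ v ∈ R, (cj x v)⁻¹ * cj x (cj x v) ∈ K := by
          intro v hv
          have hA' := hcon _ (hRx v hv)
          have hB := hKx _ (hKx _ (hcon v hv))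
          have e1 : cj y (cj x v) = cj x (cj x (cj y v)) := by
            rw [cj_hom, hyx, cj_inv_x hx3]
          rw [e1] at hA'
          rw [cj_mul, cj_mul, cj_inv, cj_inv] at hB
          have := K.mul_mem hA' (K.inv_mem hB)
          convert this using 1
          simp only [mul_inv_rev, inv_inv, mul_assoc, mul_inv_cancel_left]
        have h3 : ∀ u ∈ R, u⁻¹ * cj x u ∈ K := by
          intro u hu
          have := h2 _ (hRx _ (hRx u hu))
          rw [xi3 hx3] at this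
          exact this
        have h4 : ∀ u ∈ R, u ∈ K := by
          intro u hu
          apply root3 hT3 (hRT hu)
          have hxu := hRx u hu
          have hxxu := hRx _ hxu
          have e1 := h3 u hu
          have e2 := h2 u hu
          have e3 : cj x u * cj x (cj x u) = u⁻¹ := by
            have := hn u (hRT hu)
            rw [mul_assoc] at this
            exact eq_inv_of_mul_eq_one_right this
          have e4 : (u⁻¹ * cj x u) * ((u⁻¹ * cj x u) * ((cj x u)⁻¹ * cj x (cj x u))) = (u ^ 3)⁻¹ := by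
            have e5 : cj x u * u⁻¹ = u⁻¹ * cj x u := hRcomm _ hxu _ (R.inv_mem hu)
            calc (u⁻¹ * cj x u) * ((u⁻¹ * cj x u) * ((cj x u)⁻¹ * cj x (cj x u)))
                = u⁻¹ * (cj x u * u⁻¹) * cj x (cj x u) := by
                  simp only [mul_assoc, mul_inv_cancel_left]
              _ = u⁻¹ * (u⁻¹ * cj x u) * cj x (cj x u) := by rw [e5]
              _ = u⁻¹ * u⁻¹ * (cj x u * cj x (cj x u)) := by simp only [mul_assoc]
              _ = u⁻¹ * u⁻¹ * u⁻¹ := by rw [e3]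
              _ = (u ^ 3)⁻¹ := by
                  rw [pow_succ, pow_two]; simp only [mul_inv_rev, mul_assoc]
          have e6 : (u ^ 3)⁻¹ ∈ K := by
            rw [← e4]
            exact K.mul_mem e1 (K.mul_mem e1 e2)
          simpa using K.inv_mem e6
        exact hdead (fun u hu w hw => hw.2 u (h4 u hu))
      set g := u⁻¹ * cj y u with hg
      have hgR : g ∈ R := R.mul_mem (R.inv_mem huR) (hRy u huR)
      have hgy : cj y g = g⁻¹ := by
        have e1 : cj y (cj y u) = u := by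
          rw [cj_cj, hy, cj_one]
        rw [hg, cj_mul, cj_inv, e1]
        simp only [mul_inv_rev, inv_inv]
      set c₁ := cj x g with hc₁
      set c₂ := cj x c₁ with hc₂
      have hc₁R : c₁ ∈ R := hRx g hgR
      have hc₂R : c₂ ∈ R := hRx c₁ hc₁R
      have hxc₂ : cj x c₂ = g := xi3 hx3 g
      have hc₂K : c₂ ∉ K := by
        intro hh
        apply hgK
        have := hKx _ hh
        rwa [hxc₂] at this
      have hc₁K : c₁ ∉ K := fun hh => hc₂K (hKx _ hh)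
      have hnorm : g * c₁ * c₂ = 1 := hn g (hRT hgR)
      have h3c : c₁ * c₂ = g⁻¹ := by
        rw [mul_assoc] at hnorm
        exact eq_inv_of_mul_eq_one_right hnorm
      have h4c : g * c₁ = c₂⁻¹ := eq_inv_of_mul_eq_one_left hnorm
      have h5c : g * c₂ = c₁⁻¹ := by
        have : g * c₂ * c₁ = 1 := by
          rw [mul_assoc, hRcomm _ hc₂R _ hc₁R, ← mul_assoc]; exact hnorm
        exact eq_inv_of_mul_eq_one_left this
      have hyw₀ := hy1 w₀ hxw₀
      have hz₀ := hy1 _ (nm_fixed x hx3 (g w₀))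
      rw [← trOp_fix x g w₀ hxw₀] at hz₀
      have hyc : ∀ c : AA M, ∀ z, y (c z) = (cj y c) (y z) := by
        intro c z
        rw [cj_app]; simp
      have hη₁ : cj y c₁ = c₂⁻¹ := by
        rw [hc₁, cj_hom, hyx, hgy, cj_inv_x hx3, cj_inv, cj_inv]
      have hη₂ : cj y c₂ = c₁⁻¹ := by
        rw [hc₂, cj_hom, hyx, hη₁, cj_inv, hc₂, cj_inv_cj]
      have hE : g w₀ + c₁ w₀ + c₂ w₀ = g⁻¹ w₀ + c₁⁻¹ w₀ + c₂⁻¹ w₀ := by
        have e0 : trOp x g w₀ = g w₀ + c₁ w₀ + c₂ w₀ := rfl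
        rw [e0, map_add, map_add, hyc g, hyc c₁, hyc c₂, hyw₀, hgy, hη₁, hη₂, map_neg, map_neg, map_neg] at hz₀
        have e1 : -(g⁻¹ w₀) + -(c₂⁻¹ w₀) + -(c₁⁻¹ w₀) = -(g⁻¹ w₀ + c₁⁻¹ w₀ + c₂⁻¹ w₀) := by abel
        rw [e1] at hz₀
        exact (neg_injective hz₀).symm
      have hgW : ∀ c ∈ R, ∀ z ∈ W, c z ∈ W := fun c hc z hz => hWT c (hRT hc) z hz
      have hy1m : w₀ - c₂ w₀ ∈ W := W.sub_mem hw₀W (hgW _ hc₂R _ hw₀W)
      have hy2m : (w₀ - c₂ w₀) - c₁ (w₀ - c₂ w₀) ∈ W := W.sub_mem hy1m (hgW _ hc₁R _ hy1m)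
      have hfin : ((w₀ - c₂ w₀) - c₁ (w₀ - c₂ w₀)) - g ((w₀ - c₂ w₀) - c₁ (w₀ - c₂ w₀)) = 0 := by
        have e1 : c₁ (c₂ w₀) = g⁻¹ w₀ := by rw [← h3c]; rfl
        have e2 : g (c₂ w₀) = c₁⁻¹ w₀ := by rw [← h5c]; rfl
        have e3 : g (c₁ w₀) = c₂⁻¹ w₀ := by rw [← h4c]; rfl
        simp only [map_sub, e1, e2, e3, self_inv]
        have key : w₀ - c₂ w₀ - (c₁ w₀ - g⁻¹ w₀) - (g w₀ - c₁⁻¹ w₀ - (c₂⁻¹ w₀ - w₀)) =
            (g⁻¹ w₀ + c₁⁻¹ w₀ + c₂⁻¹ w₀) - (g w₀ + c₁ w₀ + c₂ w₀) := by abel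
        rw [key, hE, sub_self]
      have z2 := hnofix g hgR hgK _ hy2m (sub_eq_zero.mp hfin).symm
      have z1 := hnofix c₁ hc₁R hc₁K _ hy1m (sub_eq_zero.mp z2).symm
      exact (hnofix c₂ hc₂R hc₂K _ hw₀W (sub_eq_zero.mp z1).symm) |> fun h0 => by
        rw [hw₀] at h0
        exact hw₂ne h0
    · -- only `x`
      have h1 : x * y ∉ NK := fun h => hyK (by
        have := NK.mul_mem (NK.inv_mem hxK) h
        simpa using this)
      have h2 : x * x * y ∉ NK := fun h => hyK (by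
        have := NK.mul_mem (NK.inv_mem hxxK) h
        rwa [inv_mul_cancel_left] at this)
      apply hdead2 hxK
      intro w hw
      have h3 := hsum w hw
      rw [(hf2 x hxNR hxK w hw).2, show fS K (x (x w)) = fS K ((x * x) w) from rfl, (hf2 _ hxxNR hxxK w hw).2,
        hf1 y hyNR hyK w hw, show fS K (x (y w)) = fS K ((x * y) w) from rfl, hf1 _ hxyNR h1 w hw,
        show fS K (x (x (y w))) = fS K ((x * x * y) w) from rfl, hf1 _ hxxyNR h2 w hw] at h3
      apply hcancel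
      simp only [add_zero] at h3
      show Nat.card K • (w + x w + x (x w)) = 0
      rw [nsmul_add, nsmul_add]
      exact h3
  · have hxxK : x * x ∉ NK := fun h => hxK (by
      have := NK.inv_mem h
      rw [← hxi] at this
      simpa using this)
    have hp1 : y ∈ NK → x * y ∈ NK → False := fun h1 h2 => hxK (by
      have := NK.mul_mem h2 (NK.inv_mem h1)
      simpa using this)
    have hp2 : y ∈ NK → x * x * y ∈ NK → False := fun h1 h2 => hxxK (by
      have := NK.mul_mem h2 (NK.inv_mem h1)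
      simpa using this)
    have hp3 : x * y ∈ NK → x * x * y ∈ NK → False := fun h1 h2 => hxK (by
      have := NK.mul_mem h2 (NK.inv_mem h1)
      have e : x * x * y * (x * y)⁻¹ = x := by simp only [mul_inv_rev, mul_assoc, mul_inv_cancel_left, mul_inv_cancel, mul_one]
      rwa [e] at this)
    have hgen : ∀ w ∈ W, fS K (x w) = 0 ∧ fS K (x (x w)) = 0 := fun w hw =>
      ⟨hf1 x hxNR hxK w hw, hf1 _ hxxNR hxxK w hw⟩
    by_cases h1 : y ∈ NK
    · have h2 : x * y ∉ NK := hp1 h1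
      have h3 : x * x * y ∉ NK := hp2 h1
      apply hdead1 y hy hyx hyT
      intro w hw
      have h4 := hsum w hw
      rw [(hgen w hw).1, (hgen w hw).2, (hf2 y hyNR h1 w hw).2,
        show fS K (x (y w)) = fS K ((x * y) w) from rfl, hf1 _ hxyNR h2 w hw,
        show fS K (x (x (y w))) = fS K ((x * x * y) w) from rfl, hf1 _ hxxyNR h3 w hw] at h4
      simp only [add_zero, ← nsmul_add] at h4
      exact eq_neg_of_add_eq_zero_right (hcancel _ h4)
    · by_cases h2 : x * y ∈ NK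
      · have h3 : x * x * y ∉ NK := hp3 h2
        obtain ⟨t1, t2, t3⟩ := htw x (hyx) rfl hxT
        apply hdead1 (x * y) t1 t2 t3
        intro w hw
        have h4 := hsum w hw
        rw [(hgen w hw).1, (hgen w hw).2, hf1 y hyNR h1 w hw,
          show fS K (x (y w)) = fS K ((x * y) w) from rfl, (hf2 _ hxyNR h2 w hw).2,
          show fS K (x (x (y w))) = fS K ((x * x * y) w) from rfl, hf1 _ hxxyNR h3 w hw] at h4
        simp only [add_zero, zero_add, ← nsmul_add] at h4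
        exact eq_neg_of_add_eq_zero_right (hcancel _ h4)
      · by_cases h3 : x * x * y ∈ NK
        · obtain ⟨t1, t2, t3⟩ := htw (x * x) hinvx (by simp only [mul_assoc]) hxxT
          apply hdead1 (x * x * y) t1 t2 t3
          intro w hw
          have h4 := hsum w hw
          rw [(hgen w hw).1, (hgen w hw).2, hf1 y hyNR h1 w hw,
            show fS K (x (y w)) = fS K ((x * y) w) from rfl, hf1 _ hxyNR h2 w hw,
            show fS K (x (x (y w))) = fS K ((x * x * y) w) from rfl, (hf2 _ hxxyNR h3 w hw).2] at h4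
          simp only [add_zero, zero_add, ← nsmul_add] at h4
          exact eq_neg_of_add_eq_zero_right (hcancel _ h4)
        · obtain ⟨w₀, hw₀, hw₀ne⟩ := hexW
          apply hw₀ne
          have h4 := hsum w₀ hw₀
          rw [(hgen w₀ hw₀).1, (hgen w₀ hw₀).2, hf1 y hyNR h1 w₀ hw₀,
            show fS K (x (y w₀)) = fS K ((x * y) w₀) from rfl, hf1 _ hxyNR h2 w₀ hw₀,
            show fS K (x (x (y w₀))) = fS K ((x * x * y) w₀) from rfl, hf1 _ hxxyNR h3 w₀ hw₀] at h4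
          simp only [add_zero] at h4
          exact hcancel _ h4

end Cfsg.Agent.H13.SF
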