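import Cfsg.Agent.Lib.H13.SF6

set_option autoImplicit false

namespace Cfsg.Agent.H13.SF

variable {M : Type*} [AddCommGroup M] [Finite M]

theorem conj_pow_aux (z u : AA M) (n : ℕ) : cj z (u ^ n) = (cj z u) ^ n := by
  simp only [cj]; rw [conj_pow]

theorem exists_normOne (S : Subgroup (AA M)) (x : AA M) (hc : ∀ a ∈ S, ∀ b ∈ S, a * b = b * a)
    (hxS : ∀ u ∈ S, cj x u ∈ S) : ∃ P : Subgroup (AA M), ∀ u, u ∈ P ↔ u ∈ S ∧ u * cj x u * cj x (cj x u) = 1 := by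
  refine ⟨{ carrier := {u | u ∈ S ∧ u * cj x u * cj x (cj x u) = 1}
            one_mem' := ⟨S.one_mem, by simp [cj]⟩
            mul_mem' := ?_
            inv_mem' := ?_ }, fun u => Iff.rfl⟩
  · rintro a b ⟨ha, ha1⟩ ⟨hb, hb1⟩
    refine ⟨S.mul_mem ha hb, ?_⟩
    have hxa := hxS a ha
    have hxb := hxS b hb
    have hxxa := hxS _ hxa
    have hxxb := hxS _ hxb
    rw [cj_mul, cj_mul]
    have c1 := hc b hb _ hxa
    have c2 := hc (b * cj x b) (S.mul_mem hb hxb) _ hxxa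
    calc a * b * (cj x a * cj x b) * (cj x (cj x a) * cj x (cj x b))
        = a * (b * cj x a) * cj x b * (cj x (cj x a) * cj x (cj x b)) := by group
      _ = a * (cj x a * b) * cj x b * (cj x (cj x a) * cj x (cj x b)) := by rw [c1]
      _ = a * cj x a * ((b * cj x b) * cj x (cj x a)) * cj x (cj x b) := by group
      _ = a * cj x a * (cj x (cj x a) * (b * cj x b)) * cj x (cj x b) := by rw [c2]
      _ = (a * cj x a * cj x (cj x a)) * (b * cj x b * cj x (cj x b)) := by group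
      _ = 1 := by rw [ha1, hb1, one_mul]
  · rintro a ⟨ha, ha1⟩
    refine ⟨S.inv_mem ha, ?_⟩
    have hxa := hxS a ha
    have hxxa := hxS _ hxa
    rw [cj_inv, cj_inv, ← mul_inv_rev, ← mul_inv_rev, inv_eq_one]
    have c1 := hc _ hxxa _ hxa
    have c2 := hc (cj x a * cj x (cj x a)) (S.mul_mem hxa hxxa) _ ha
    calc cj x (cj x a) * (cj x a * a) = (cj x (cj x a) * cj x a) * a := by group
      _ = (cj x a * cj x (cj x a)) * a := by rw [c1]
      _ = a * (cj x a * cj x (cj x a)) := c2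
      _ = a * cj x a * cj x (cj x a) := by group
      _ = 1 := ha1

/-- Splitting off the part of order prime to `r`. -/
theorem p1_split (Y : Subgroup (AA M)) (hc : ∀ a ∈ Y, ∀ b ∈ Y, a * b = b * a) (x : AA M)
    (hx3 : x ^ 3 = 1) (hxY : ∀ u ∈ Y, cj x u ∈ Y) (hfix : ∀ u ∈ Y, cj x u = u → u = 1)
    (r : ℕ) (hr : r.Prime) (hMr : ∃ s, Nat.card M = r ^ s) (hY6 : (Nat.card Y).Coprime 6)
    (c : AA M) (hcx : c * x = x * c) (hcY : ∀ u ∈ Y, cj c u ∈ Y)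
    (hcL : ∀ w, x w = w → c w = w) (hroot : ∃ m : ℕ, (c ^ 3) ^ m = c)
    (hv : ∀ e ∈ Y, ∀ a : ℕ, e ^ (r ^ a) = 1 → cj c e = e) : ∀ e ∈ Y, cj c e = e := by
  classical
  obtain ⟨a, β, hβ, hcard⟩ := Nat.exists_eq_pow_mul_and_not_dvd (Nat.card_pos (α := Y)).ne' r hr.ne_one
  let Y₀ : Subgroup (AA M) :=
    { carrier := {e | e ∈ Y ∧ e ^ β = 1}
      one_mem' := ⟨Y.one_mem, one_pow _⟩
      mul_mem' := by
        rintro p q ⟨hp, hp'⟩ ⟨hq, hq'⟩
        have : Commute p q := hc p hp q hq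
        exact ⟨Y.mul_mem hp hq, by rw [this.mul_pow, hp', hq', one_mul]⟩
      inv_mem' := by
        rintro p ⟨hp, hp'⟩
        exact ⟨Y.inv_mem hp, by rw [inv_pow, hp', inv_one]⟩ }
  have hY₀Y : Y₀ ≤ Y := fun e he => he.1
  have hcopr : (Nat.card Y₀).Coprime r := by
    rw [Nat.coprime_comm, Nat.Prime.coprime_iff_not_dvd hr]
    intro hd
    haveI : Fact r.Prime := ⟨hr⟩
    obtain ⟨e, he⟩ := exists_prime_orderOf_dvd_card' (G := Y₀) r hd
    have h1 : (e : AA M) ^ β = 1 := e.2.2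
    have h2 : orderOf (e : AA M) = r := by
      rw [Subgroup.orderOf_coe]; exact he
    exact hβ (h2 ▸ orderOf_dvd_of_pow_eq_one h1)
  have hcopY₀ : (Nat.card Y₀).Coprime (Nat.card M) := by
    obtain ⟨s, hs⟩ := hMr
    rw [hs]
    exact Nat.Coprime.pow_right s hcopr
  have hY₀6 : (Nat.card Y₀).Coprime 6 := Nat.Coprime.coprime_dvd_left (Subgroup.card_dvd_of_le hY₀Y) hY6
  have hP := p1_main Y₀ (fun p hp q hq => hc p hp.1 q hq.1) x hx3
    (fun u hu => by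
      refine ⟨hxY u hu.1, ?_⟩
      show (cj x u) ^ β = 1
      rw [← conj_pow_aux x u β, hu.2]
      simp [cj])
    (fun u hu h => hfix u hu.1 h)
    hcopY₀ hY₀6 c hcx
    (fun u hu => by
      refine ⟨hcY u hu.1, ?_⟩
      show (cj c u) ^ β = 1
      rw [← conj_pow_aux c u β, hu.2]
      simp [cj])
    hcL
  obtain ⟨m, hm⟩ := hroot
  have hβcop : Nat.Coprime (r ^ a) β :=
    Nat.Coprime.pow_left a ((Nat.Prime.coprime_iff_not_dvd hr).2 hβ)
  have hbez : IsCoprime ((r ^ a : ℕ) : ℤ) (β : ℤ) := Nat.isCoprime_iff_coprime.mpr hβcop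
  obtain ⟨A, B, hAB⟩ := hbez
  intro e he
  set e₂ := e ^ (A * ((r ^ a : ℕ) : ℤ)) with he₂
  set e₁ := e ^ (B * (β : ℤ)) with he₁
  have hcardY : e ^ Nat.card Y = 1 := by
    have := pow_card_eq_one' (G := Y) (x := ⟨e, he⟩)
    exact congrArg Subtype.val this
  have hee : e = e₂ * e₁ := by
    rw [he₂, he₁, ← zpow_add, hAB, zpow_one]
  have he₂Y : e₂ ∈ Y := Y.zpow_mem he _
  have he₁Y : e₁ ∈ Y := Y.zpow_mem he _
  have h1 : e₂ ^ β = 1 := by
    rw [he₂, ← zpow_natCast, ← zpow_mul]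
    have : A * ((r ^ a : ℕ) : ℤ) * (β : ℤ) = A * (Nat.card Y : ℤ) := by
      rw [hcard]; push_cast; ring
    rw [this, mul_comm, zpow_mul, zpow_natCast, hcardY, one_zpow]
  have h2 : e₁ ^ (r ^ a) = 1 := by
    rw [he₁, ← zpow_natCast, ← zpow_mul]
    have : B * (β : ℤ) * ((r ^ a : ℕ) : ℤ) = B * (Nat.card Y : ℤ) := by
      rw [hcard]; push_cast; ring
    rw [this, mul_comm, zpow_mul, zpow_natCast, hcardY, one_zpow]
  have h3 : cj c e₁ = e₁ := hv e₁ he₁Y a h2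
  have h4 : cj (c ^ 3) e₂ = e₂ := hP e₂ ⟨he₂Y, h1⟩
  have h5 : cj c e₂ = e₂ := by
    have hC : Commute (c ^ 3) e₂ := by
      have h6 : c ^ 3 * e₂ * (c ^ 3)⁻¹ = e₂ := h4
      show c ^ 3 * e₂ = e₂ * c ^ 3
      calc c ^ 3 * e₂ = (c ^ 3 * e₂ * (c ^ 3)⁻¹) * c ^ 3 := by group
        _ = e₂ * c ^ 3 := by rw [h6]
    have hC2 := hC.pow_left m
    rw [hm] at hC2
    have : c * e₂ = e₂ * c := hC2
    simp only [cj]
    rw [this]; simp
  rw [hee, cj_mul, h3, h5]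

/-- The configuration for a minimal noncommutative subgroup. -/
structure TCfg (T : Subgroup (AA M)) (x y : AA M) (r : ℕ) : Prop where
  hx3 : x ^ 3 = 1
  hy : y * y = 1
  hyx : cj y x = x⁻¹
  hxT : ∀ g ∈ T, cj x g ∈ T
  hyT : ∀ g ∈ T, cj y g ∈ T
  hT6 : (Nat.card T).Coprime 6
  hM6 : (Nat.card M).Coprime 6
  hr : r.Prime
  hMr : ∃ s, Nat.card M = r ^ s
  hEr : (Nat.card (⁅T, T⁆ : Subgroup (AA M))).Coprime r
  hBab : ∀ a ∈ T, ∀ b ∈ T, cj x a = a → cj x b = b → a * b = b * a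
  hBL : ∀ b ∈ T, cj x b = b → ∀ w, x w = w → b w = w
  hA : ∀ w, Nm x w + Nm x (y w) = 0
  hEne : T ≠ ⊥ → ⁅T, T⁆ ≠ T
  hmin : ∀ S : Subgroup (AA M), S ≤ T → (∀ g ∈ S, cj x g ∈ S) → (∀ g ∈ S, cj y g ∈ S) → S ≠ T →
    ∀ a ∈ S, ∀ b ∈ S, a * b = b * a

variable {T : Subgroup (AA M)} {x y : AA M} {r : ℕ}

theorem com_mem {g k : AA M} (hg : g ∈ T) (hk : k ∈ T) : g * k * g⁻¹ * k⁻¹ ∈ ⁅T, T⁆ := by
  have := Subgroup.commutator_mem_commutator hg hk
  rwa [commutatorElement_def] at this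

theorem E_le : ⁅T, T⁆ ≤ T := by
  rw [Subgroup.commutator_le]
  intro g hg k hk
  rw [commutatorElement_def]
  exact T.mul_mem (T.mul_mem (T.mul_mem hg hk) (T.inv_mem hg)) (T.inv_mem hk)

theorem E_conj {z : AA M} (hz : ∀ g ∈ T, cj z g ∈ T) : ∀ e ∈ ⁅T, T⁆, cj z e ∈ ⁅T, T⁆ := by
  let S := (⁅T, T⁆ : Subgroup (AA M)).comap (MulAut.conj z).toMonoidHom
  have hle : ⁅T, T⁆ ≤ S := by
    rw [Subgroup.commutator_le]
    intro g hg k hk
    rw [Subgroup.mem_comap]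
    have := map_commutatorElement (MulAut.conj z).toMonoidHom g k
    rw [this]
    exact Subgroup.commutator_mem_commutator (hz g hg) (hz k hk)
  exact fun e he => hle he

theorem E_norm {g : AA M} (hg : g ∈ T) : ∀ e ∈ ⁅T, T⁆, cj g e ∈ ⁅T, T⁆ := by
  intro e he
  have h1 : cj g e = (g * e * g⁻¹ * e⁻¹) * e := by simp [cj]
  rw [h1]
  exact Subgroup.mul_mem _ (com_mem hg (E_le he)) he

theorem of_iff (g : T) : (g : AA M) ∈ ⁅T, T⁆ ↔ Abelianization.of g = 1 := by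
  rw [← Subgroup.map_subtype_commutator]
  constructor
  · intro h
    obtain ⟨g', hg', he⟩ := Subgroup.mem_map.mp h
    have : g' = g := Subtype.ext he
    subst this
    exact (QuotientGroup.eq_one_iff g').2 hg'
  · intro h
    have : g ∈ commutator T := (QuotientGroup.eq_one_iff g).1 h
    exact Subgroup.mem_map_of_mem _ this

theorem TCfg.T3 (h : TCfg T x y r) : (Nat.card T).Coprime 3 :=
  Nat.Coprime.coprime_dvd_right (by norm_num) h.hT6

theorem TCfg.hEc (h : TCfg T x y r) : ∀ a ∈ ⁅T, T⁆, ∀ b ∈ ⁅T, T⁆, a * b = b * a := by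
  by_cases hb : T = ⊥
  · intro a ha b hb'
    have h1 := E_le ha
    have h2 := E_le hb'
    rw [hb] at h1 h2
    rw [Subgroup.mem_bot.mp h1, Subgroup.mem_bot.mp h2]
  · exact h.hmin _ E_le (E_conj h.hxT) (E_conj h.hyT) (h.hEne hb)

theorem ordx_cop (h : x ^ 3 = 1) {S : Subgroup (AA M)} (hS : (Nat.card S).Coprime 3) : (orderOf x).Coprime (Nat.card S) :=
  (Nat.Coprime.coprime_dvd_right (orderOf_dvd_of_pow_eq_one h) hS).symm

set_option maxHeartbeats 2000000 in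
theorem TCfg.case1 (h : TCfg T x y r) (hex : ∃ g ∈ T, g * cj x g * cj x (cj x g) ∉ ⁅T, T⁆) :
    ∀ a ∈ T, ∀ b ∈ T, a * b = b * a := by
  classical
  have hx3 := h.hx3
  have hT3 := h.T3
  let ξ : T →* T := MonoidHom.mk' (fun g => ⟨cj x g, h.hxT g g.2⟩) (fun a b => Subtype.ext (cj_mul x a b))
  let η : T →* T := MonoidHom.mk' (fun g => ⟨cj y g, h.hyT g g.2⟩) (fun a b => Subtype.ext (cj_mul y a b))
  let of := Abelianization.of (G := T)
  let nb : T →* Abelianization T := of * (of.comp ξ) * (of.comp (ξ.comp ξ))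
  have hnb : ∀ g : T, nb g = of (g * ξ g * ξ (ξ g)) := fun g => by
    simp only [map_mul]; rfl
  have hnbE : ∀ g : T, nb g = 1 ↔ (g : AA M) * cj x g * cj x (cj x g) ∈ ⁅T, T⁆ := by
    intro g
    rw [hnb]
    exact (of_iff (g * ξ g * ξ (ξ g))).symm
  let S₁ : Subgroup (AA M) := (nb.ker).map T.subtype
  have hmemS : ∀ g : T, (g : AA M) ∈ S₁ ↔ nb g = 1 := by
    intro g
    constructor
    · intro hh
      obtain ⟨g', hg', he⟩ := Subgroup.mem_map.mp hh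
      have : g' = g := Subtype.ext he
      subst this
      exact hg'
    · intro hh
      exact Subgroup.mem_map_of_mem _ hh
  have hS₁T : S₁ ≤ T := by
    rintro _ ⟨g, -, rfl⟩
    exact g.2
  have hξ3 : ∀ g : T, ξ (ξ (ξ g)) = g := fun g => Subtype.ext (xi3 hx3 g)
  have hnbξ : ∀ g : T, nb (ξ g) = nb g := by
    intro g
    rw [hnb, hnb, hξ3, map_mul, map_mul, map_mul, map_mul]
    ac_rfl
  have hcyx : cj y x⁻¹ = x := by rw [cj_inv, h.hyx, inv_inv]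
  have hξη : ∀ g : T, ξ (η g) = η (ξ (ξ g)) := by
    intro g
    apply Subtype.ext
    show cj x (cj y g) = cj y (cj x (cj x g))
    rw [← cj_inv_x hx3, cj_hom y x⁻¹ g, hcyx]
  have hxS : ∀ u ∈ S₁, cj x u ∈ S₁ := by
    rintro _ ⟨g, hg, rfl⟩
    have : (ξ g : AA M) ∈ S₁ := (hmemS _).2 (by rw [hnbξ]; exact hg)
    exact this
  have hyS : ∀ u ∈ S₁, cj y u ∈ S₁ := by
    rintro _ ⟨g, hg, rfl⟩
    have h1 : nb g = 1 := hg
    have : (η g : AA M) ∈ S₁ := by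
      rw [hmemS, hnb, hξη, hξη, hξ3]
      have h2 : (of (g * ξ (ξ g) * ξ g)) = 1 := by
        rw [hnb] at h1
        rw [← h1, map_mul, map_mul, map_mul, map_mul]
        ac_rfl
      have h3 := (of_iff _).2 h2
      have h4 := E_conj h.hyT _ h3
      have h5 : ((η (g * ξ (ξ g) * ξ g) : T) : AA M) ∈ ⁅T, T⁆ := h4
      have h6 := (of_iff _).1 h5
      simp only [map_mul] at h6 ⊢
      exact h6
    exact this
  obtain ⟨g₀, hg₀, hg₀n⟩ := hex
  have hne : S₁ ≠ T := by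
    intro he
    apply hg₀n
    have : ((⟨g₀, hg₀⟩ : T) : AA M) ∈ S₁ := by rw [he]; exact hg₀
    exact (hnbE _).1 ((hmemS _).1 this)
  have hc := h.hmin S₁ hS₁T hxS hyS hne
  obtain ⟨P, hP⟩ := exists_normOne S₁ x hc hxS
  have hPS : P ≤ S₁ := fun u hu => ((hP u).1 hu).1
  have hxP : ∀ u ∈ P, cj x u ∈ P := by
    intro u hu
    obtain ⟨hu1, hu2⟩ := (hP u).1 hu
    rw [hP]
    refine ⟨hxS u hu1, ?_⟩
    rw [xi3 hx3, hc _ (S₁.mul_mem (hxS u hu1) (hxS _ (hxS u hu1))) _ hu1, ← mul_assoc]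
    exact hu2
  have hS3 : (Nat.card S₁).Coprime 3 := Nat.Coprime.coprime_dvd_left (Subgroup.card_dvd_of_le hS₁T) hT3
  have hP3 : (Nat.card P).Coprime 3 := Nat.Coprime.coprime_dvd_left (Subgroup.card_dvd_of_le hPS) hS3
  have hfixP : ∀ u ∈ P, cj x u = u → u = 1 := by
    intro u hu hf
    have hu2 := ((hP u).1 hu).2
    rw [hf, hf] at hu2
    exact cube_one hP3 hu hu2
  have hcxc : ∀ c, cj x c = c → c * x = x * c := by
    intro c hfc
    simp only [cj] at hfc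
    calc c * x = (x * c * x⁻¹) * x := by rw [hfc]
      _ = x * c := by group
  have hdec : ∀ g ∈ T, ∃ c ∈ T, cj x c = c ∧ ∃ e ∈ P, g = c * e := by
    intro g hg
    have hw : g⁻¹ * (x * g * x⁻¹) ∈ S₁ := by
      have h1 : ((⟨g, hg⟩⁻¹ * ξ ⟨g, hg⟩ : T) : AA M) ∈ S₁ := by
        rw [hmemS, map_mul, map_inv, hnbξ]
        simp
      exact h1
    obtain ⟨n₁, hn₁, hcomm₁⟩ := Cfsg.Agent.H06.exists_fixed_of_coset (N := S₁) (g := x) hxS (ordx_cop hx3 hS3) hw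
    have hw2 : (n₁⁻¹)⁻¹ * (x * n₁⁻¹ * x⁻¹) ∈ P := by
      rw [hP]
      have hn₁x := hxS n₁ hn₁
      have hmem : n₁ * (cj x n₁)⁻¹ ∈ S₁ := S₁.mul_mem hn₁ (S₁.inv_mem hn₁x)
      have e1 : (n₁⁻¹)⁻¹ * (x * n₁⁻¹ * x⁻¹) = n₁ * (cj x n₁)⁻¹ := by simp [cj, mul_assoc]
      rw [e1]
      refine ⟨hmem, ?_⟩
      rw [cj_mul, cj_mul, cj_inv, cj_inv, xi3 hx3]
      calc n₁ * (cj x n₁)⁻¹ * (cj x n₁ * (cj x (cj x n₁))⁻¹) * (cj x (cj x n₁) * n₁⁻¹)
          = n₁ * ((cj x n₁)⁻¹ * cj x n₁) * ((cj x (cj x n₁))⁻¹ * cj x (cj x n₁)) * n₁⁻¹ := by group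
        _ = 1 := by simp
    obtain ⟨n₂, hn₂, hcomm₂⟩ := Cfsg.Agent.H06.exists_fixed_of_coset (N := P) (g := x) hxP (ordx_cop hx3 hP3) hw2
    refine ⟨(g * n₁) * (n₁⁻¹ * n₂), ?_, ?_, n₂⁻¹, P.inv_mem hn₂, ?_⟩
    · exact T.mul_mem (T.mul_mem hg (hS₁T hn₁)) (T.mul_mem (T.inv_mem (hS₁T hn₁)) (hS₁T (hPS hn₂)))
    · have := (hcomm₁.mul_left hcomm₂).eq
      simp only [cj]
      rw [← this]; simp
    · simp [mul_assoc]
  have hcL := h.hBL
  -- central action on the norm one part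
  have hcY : ∀ c ∈ T, cj x c = c → ∀ u ∈ P, cj c u ∈ P := by
    intro c hc' hf u hu
    obtain ⟨hu1, hu2⟩ := (hP u).1 hu
    have hcu : cj c u ∈ S₁ := by
      have h1 : ((⟨c, hc'⟩ * ⟨u, hS₁T hu1⟩ * ⟨c, hc'⟩⁻¹ : T) : AA M) ∈ S₁ := by
        rw [hmemS]
        have h2 := (hmemS ⟨u, hS₁T hu1⟩).1 hu1
        rw [map_mul, map_mul, h2, map_inv]
        simp
      exact h1
    rw [hP]
    refine ⟨hcu, ?_⟩
    have e1 : cj x (cj c u) = cj c (cj x u) := by rw [cj_hom, hf]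
    have e2 : cj x (cj c (cj x u)) = cj c (cj x (cj x u)) := by rw [cj_hom x c, hf]
    rw [e1, e2, ← cj_mul, ← cj_mul, hu2]
    simp [cj]
  have hE2 := h.hEr
  have hcomm : ∀ c ∈ T, cj x c = c → ∀ e ∈ P, cj c e = e := by
    intro c hc' hf
    have hroot : ∃ m : ℕ, (c ^ 3) ^ m = c := by
      have h1 : orderOf c ∣ Nat.card T := Subgroup.orderOf_dvd_natCard T hc'
      have h2 : Nat.Coprime 3 (orderOf c) := (Nat.Coprime.coprime_dvd_left h1 hT3).symm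
      exact exists_pow_eq_self_of_coprime h2
    have hP6 : (Nat.card P).Coprime 6 :=
      Nat.Coprime.coprime_dvd_left (Subgroup.card_dvd_of_le (hPS.trans hS₁T)) h.hT6
    refine p1_split P (fun p hp q hq => hc p (hPS hp) q (hPS hq)) x hx3 hxP hfixP r h.hr h.hMr hP6 c (hcxc c hf)
      (hcY c hc' hf) (hcL c hc' hf) hroot ?_
    intro e he a hea
    have hce := hcY c hc' hf e he
    set v := cj c e * e⁻¹ with hv
    have hvE : v ∈ ⁅T, T⁆ := com_mem hc' (hS₁T (hPS he))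
    have hcomm2 : Commute (cj c e) e⁻¹ := hc _ (hPS hce) _ (hPS (P.inv_mem he))
    have hv1 : v ^ (r ^ a) = 1 := by
      rw [hv, hcomm2.mul_pow, inv_pow, hea, ← conj_pow_aux, hea]
      simp [cj]
    have hv2 : v ^ Nat.card (⁅T, T⁆ : Subgroup (AA M)) = 1 := by
      have := pow_card_eq_one' (G := (⁅T, T⁆ : Subgroup (AA M))) (x := ⟨v, hvE⟩)
      exact congrArg Subtype.val this
    have hv3 : v = 1 := by
      have h1 := Nat.dvd_gcd (orderOf_dvd_of_pow_eq_one hv1) (orderOf_dvd_of_pow_eq_one hv2)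
      have h2 : Nat.Coprime (r ^ a) (Nat.card (⁅T, T⁆ : Subgroup (AA M))) :=
        Nat.Coprime.pow_left a hE2.symm
      rw [h2.gcd_eq_one] at h1
      exact orderOf_eq_one_iff.mp (Nat.dvd_one.mp h1)
    rw [hv, mul_inv_eq_one] at hv3
    exact hv3
  intro a ha b hb
  obtain ⟨c₁, hc₁, hf₁, e₁, he₁, rfl⟩ := hdec a ha
  obtain ⟨c₂, hc₂, hf₂, e₂, he₂, rfl⟩ := hdec b hb
  have h1 : c₁ * c₂ = c₂ * c₁ := h.hBab c₁ hc₁ c₂ hc₂ hf₁ hf₂
  have h2 : e₁ * e₂ = e₂ * e₁ := hc e₁ (hPS he₁) e₂ (hPS he₂)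
  have hcen : ∀ c ∈ T, cj x c = c → ∀ e ∈ P, c * e = e * c := by
    intro c hc' hf e he
    have := hcomm c hc' hf e he
    simp only [cj] at this
    calc c * e = (c * e * c⁻¹) * c := by group
      _ = e * c := by rw [this]
  calc c₁ * e₁ * (c₂ * e₂) = c₁ * (e₁ * c₂) * e₂ := by group
    _ = c₁ * (c₂ * e₁) * e₂ := by rw [hcen c₂ hc₂ hf₂ e₁ he₁]
    _ = (c₁ * c₂) * (e₁ * e₂) := by group
    _ = (c₂ * c₁) * (e₂ * e₁) := by rw [h1, h2]
    _ = c₂ * (c₁ * e₂) * e₁ := by group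
    _ = c₂ * (e₂ * c₁) * e₁ := by rw [hcen c₁ hc₁ hf₁ e₂ he₂]
    _ = _ := by group

end Cfsg.Agent.H13.SF
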