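import Cfsg.Agent.Lib.H13.SF7

set_option autoImplicit false

namespace Cfsg.Agent.H13.SF

variable {M : Type*} [AddCommGroup M] [Finite M]

theorem center_meet (T E : Subgroup (AA M)) (hET : E ≤ T) (t : ℕ) [Fact t.Prime] (htT : ∀ g ∈ T, ∃ k, g ^ (t ^ k) = 1)
    (hEn : ∀ g ∈ T, ∀ e ∈ E, cj g e ∈ E) (hne : E ≠ ⊥) : ∃ e ∈ E, e ≠ 1 ∧ ∀ g ∈ T, cj g e = e := by
  classical
  letI : MulAction T E :=
    { smul := fun g e => ⟨cj g e, hEn g g.2 e e.2⟩
      one_smul := fun e => Subtype.ext (by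
        show cj ((1 : T) : AA M) (e : AA M) = e
        simp [cj])
      mul_smul := fun a b e => Subtype.ext (by
        show cj ((a * b : T) : AA M) (e : AA M) = cj (a : AA M) (cj (b : AA M) e)
        rw [cj_cj]; rfl) }
  have hp : IsPGroup t T := fun g => (htT g g.2).imp (fun k hk => Subtype.ext hk)
  have hpE : IsPGroup t E := fun g => (htT g (hET g.2)).imp (fun k hk => Subtype.ext hk)
  have hmod := hp.card_modEq_card_fixedPoints E
  obtain ⟨n, hn⟩ := IsPGroup.iff_card.mp hpE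
  have hn0 : n ≠ 0 := by
    rintro rfl
    rw [pow_zero] at hn
    apply hne
    exact (Subgroup.eq_bot_iff_card E).mpr hn
  have hdvd : t ∣ Nat.card E := by
    rw [hn]; exact dvd_pow_self t hn0
  have hdvd2 : t ∣ Nat.card (MulAction.fixedPoints T E) := by
    have := (Nat.modEq_zero_iff_dvd.mpr hdvd).symm.trans hmod
    exact Nat.modEq_zero_iff_dvd.mp this.symm
  have hfix1 : (1 : E) ∈ MulAction.fixedPoints T E := by
    intro g
    apply Subtype.ext
    show cj (g : AA M) ((1 : E) : AA M) = _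
    simp [cj]
  haveI : Finite (MulAction.fixedPoints T E) := inferInstance
  have hpos : 0 < Nat.card (MulAction.fixedPoints T E) := by
    haveI : Nonempty (MulAction.fixedPoints T E) := ⟨⟨1, hfix1⟩⟩
    exact Nat.card_pos
  have hgt : 1 < Nat.card (MulAction.fixedPoints T E) :=
    lt_of_lt_of_le (Fact.out : t.Prime).one_lt (Nat.le_of_dvd hpos hdvd2)
  haveI := Finite.one_lt_card_iff_nontrivial.mp hgt
  obtain ⟨e, he⟩ := exists_ne (⟨1, hfix1⟩ : MulAction.fixedPoints T E)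
  refine ⟨e.1.1, e.1.2, ?_, ?_⟩
  · intro h1
    apply he
    exact Subtype.ext (Subtype.ext h1)
  · intro g hg
    have := e.2 ⟨g, hg⟩
    exact congrArg Subtype.val this

theorem norm_one_of_conj {x g u : AA M} (hx3 : x ^ 3 = 1) (h : x * g = u⁻¹ * x * u) :
    g * cj x g * cj x (cj x g) = 1 := by
  have hxx3 : x * x * x = 1 := by
    have := hx3
    rwa [pow_succ, pow_two] at this
  have e1 : (x * g) ^ 3 = 1 := by
    rw [h]
    have : u⁻¹ * x * u = u⁻¹ * x * u⁻¹⁻¹ := by rw [inv_inv]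
    rw [this, conj_pow, hx3]; group
  have e2 : (x * g) ^ 3 = (x * g * x⁻¹) * (x * (x * g * x⁻¹) * x⁻¹) * ((x * x * x) * g * (x * x * x)⁻¹) * (x * x * x) := by
    simp only [pow_succ, pow_zero]
    group
  rw [e1, hxx3] at e2
  have e3 : (x * g * x⁻¹) * (x * (x * g * x⁻¹) * x⁻¹) * g = 1 := by
    simpa using e2.symm
  have e4 : g * cj x g * cj x (cj x g) = g * ((x * g * x⁻¹) * (x * (x * g * x⁻¹) * x⁻¹) * g) * g⁻¹ := by
    simp only [cj]; group
  rw [e4, e3]; group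

theorem P_central (T P : Subgroup (AA M)) (x : AA M) (t : ℕ) [Fact t.Prime] (ht3 : t ≠ 3)
    (hPc : ∀ a ∈ P, ∀ b ∈ P, a * b = b * a) (hx3 : x ^ 3 = 1) (hxT : ∀ g ∈ T, cj x g ∈ T)
    (hPn : ∀ g ∈ T, ∀ p ∈ P, cj g p ∈ P) (hPx : ∀ p ∈ P, cj x p ∈ P)
    (hcomm : ∀ g ∈ T, ∀ k ∈ T, ∀ p ∈ P, cj (g * k * g⁻¹ * k⁻¹) p = p)
    (hn : ∀ g ∈ T, ∀ p ∈ P, cj (g * cj x g * cj x (cj x g)) p = p)
    (hact : ∀ g ∈ T, ∃ k : ℕ, ∀ p ∈ P, cj (g ^ (t ^ k)) p = p)
    (hPcop : (Nat.card P).Coprime t)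
    (hNm : ∀ g ∈ T, ∀ p ∈ P, cj g (p * cj x p * cj x (cj x p)) = p * cj x p * cj x (cj x p)) :
    ∀ g ∈ T, ∀ p ∈ P, cj g p = p := by
  classical
  letI instP : CommGroup P := { (inferInstance : Group P) with
    mul_comm := fun a b => Subtype.ext (hPc a a.2 b b.2) }
  let cP : (z : AA M) → (∀ p ∈ P, cj z p ∈ P) → (∀ p ∈ P, cj z⁻¹ p ∈ P) → AA (Additive P) :=
    fun z hz hz' => AddEquiv.toIntLinearEquiv
      { toFun := fun p => Additive.ofMul ⟨cj z (p.toMul : AA M), hz _ p.toMul.2⟩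
        invFun := fun p => Additive.ofMul ⟨cj z⁻¹ (p.toMul : AA M), hz' _ p.toMul.2⟩
        left_inv := fun p => by
          apply Additive.toMul.injective
          exact Subtype.ext (cj_inv_cj z _)
        right_inv := fun p => by
          apply Additive.toMul.injective
          exact Subtype.ext (cj_cj_inv z _)
        map_add' := fun a b => by
          apply Additive.toMul.injective
          exact Subtype.ext (cj_mul z _ _) }
  have hcPv : ∀ (z : AA M) (hz : ∀ p ∈ P, cj z p ∈ P) (hz' : ∀ p ∈ P, cj z⁻¹ p ∈ P) (p : Additive P),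
      (((cP z hz hz' p).toMul : P) : AA M) = cj z (p.toMul : AA M) := fun _ _ _ _ => rfl
  let ρ : T →* AA (Additive P) := MonoidHom.mk'
    (fun g => cP g (hPn g g.2) (hPn _ (T.inv_mem g.2)))
    (fun a b => LinearEquiv.ext fun p => by
      apply Additive.toMul.injective
      exact Subtype.ext (cj_cj (a : AA M) (b : AA M) _).symm)
  have hρv : ∀ (g : T) (p : Additive P), (((ρ g p).toMul : P) : AA M) = cj (g : AA M) (p.toMul : AA M) :=
    fun _ _ => rfl
  have hextA : ∀ φ ψ : AA (Additive P), (∀ p : Additive P, ((φ p).toMul : AA M) = ((ψ p).toMul : AA M)) → φ = ψ :=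
    fun φ ψ hh => LinearEquiv.ext fun p => Additive.toMul.injective (Subtype.ext (hh p))
  have hPxi : ∀ p ∈ P, cj x⁻¹ p ∈ P := by
    intro p hp
    rw [cj_inv_x hx3]
    exact hPx _ (hPx p hp)
  set X := cP x hPx hPxi with hX
  set Y := ρ.range with hY
  have hρtriv : ∀ (k : T), (∀ p ∈ P, cj (k : AA M) p = p) → ρ k = 1 := by
    intro k hk
    apply hextA
    intro p
    rw [hρv, hk _ p.toMul.2]
    rfl
  have hcY : ∀ a ∈ Y, ∀ b ∈ Y, a * b = b * a := by
    rintro _ ⟨g, rfl⟩ _ ⟨k, rfl⟩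
    rw [← map_mul, ← map_mul]
    have h1 : ρ (g * k * g⁻¹ * k⁻¹) = 1 := by
      apply hρtriv
      intro p hp
      exact hcomm g g.2 k k.2 p hp
    rw [map_mul, map_mul, map_mul, map_inv, map_inv] at h1
    rw [map_mul, map_mul]
    have h2 := mul_inv_eq_one.mp h1
    exact mul_inv_eq_iff_eq_mul.mp h2
  have hX3 : X ^ 3 = 1 := by
    apply hextA
    intro p
    exact xi3 hx3 _
  let ξ : T →* T := MonoidHom.mk' (fun g => ⟨cj x g, hxT g g.2⟩) (fun a b => Subtype.ext (cj_mul x a b))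
  have hXρ : ∀ g : T, X * ρ g * X⁻¹ = ρ (ξ g) := by
    intro g
    apply hextA
    intro p
    show cj x (cj (g : AA M) (cj x⁻¹ (p.toMul : AA M))) = cj (cj x (g : AA M)) (p.toMul : AA M)
    rw [cj_hom, cj_cj_inv]
  have hxY : ∀ u ∈ Y, X * u * X⁻¹ ∈ Y := by
    rintro _ ⟨g, rfl⟩
    rw [hXρ]
    exact ⟨_, rfl⟩
  have hYt : ∀ u ∈ Y, ∃ k : ℕ, u ^ (t ^ k) = 1 := by
    rintro _ ⟨g, rfl⟩
    obtain ⟨k, hk⟩ := hact g g.2
    refine ⟨k, ?_⟩
    rw [← map_pow]
    apply hρtriv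
    exact hk
  have hpY : IsPGroup t Y := fun u => (hYt u u.2).imp (fun k hk => Subtype.ext hk)
  obtain ⟨nY, hnY⟩ := IsPGroup.iff_card.mp hpY
  have htp : t.Prime := Fact.out
  have hY3 : (Nat.card Y).Coprime 3 := by
    rw [hnY]
    exact Nat.Coprime.pow_left nY ((Nat.coprime_primes htp Nat.prime_three).2 ht3)
  have hcardP : Nat.card (Additive P) = Nat.card P := rfl
  have hcopY : (Nat.card Y).Coprime (Nat.card (Additive P)) := by
    rw [hnY, hcardP]
    exact Nat.Coprime.pow_left nY hPcop.symm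
  have hfixY : ∀ u ∈ Y, X * u * X⁻¹ = u → u = 1 := by
    rintro _ ⟨g, rfl⟩ hf
    have h1 : ρ (ξ g) = ρ g := by rw [← hXρ]; exact hf
    have h2 : ρ (ξ (ξ g)) = ρ g := by
      rw [← hXρ, h1]; exact hf
    have h3 : ρ (g * ξ g * ξ (ξ g)) = 1 := by
      apply hρtriv
      intro p hp
      exact hn g g.2 p hp
    rw [map_mul, map_mul, h1, h2] at h3
    exact cube_one hY3 ⟨g, rfl⟩ h3
  have htriv := trivial_of_norm_fixed Y hcY X hX3 hxY hfixY hcopY ⊤ (by simp) (by simp) (by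
    rintro w - _ ⟨g, rfl⟩
    apply Additive.toMul.injective
    apply Subtype.ext
    rw [hρv]
    exact hNm g g.2 _ w.toMul.2)
  intro g hg p hp
  have h1 := htriv (ρ ⟨g, hg⟩) ⟨_, rfl⟩ (Additive.ofMul ⟨p, hp⟩) trivial
  have h2 := congrArg (fun z : Additive P => ((z.toMul : P) : AA M)) h1
  exact h2

end Cfsg.Agent.H13.SF
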