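import Cfsg.Agent.Lib.H13.SF8

set_option autoImplicit false

namespace Cfsg.Agent.H13.SF

variable {M : Type*} [AddCommGroup M] [Finite M]
variable {T : Subgroup (AA M)} {x y : AA M} {r : ℕ}

set_option maxHeartbeats 4000000 in
theorem TCfg.comm (h : TCfg T x y r) : ∀ a ∈ T, ∀ b ∈ T, a * b = b * a := by
  classical
  by_contra hnc
  have hnall : ∀ g ∈ T, g * cj x g * cj x (cj x g) ∈ ⁅T, T⁆ := by
    by_contra hcon
    push Not at hcon
    exact hnc (h.case1 hcon)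
  have hEc := h.hEc
  have hEM : (Nat.card (⁅T, T⁆ : Subgroup (AA M))).Coprime (Nat.card M) := by
    obtain ⟨s, hs⟩ := h.hMr
    rw [hs]
    exact Nat.Coprime.pow_right s h.hEr
  have hS : SCfg T ⁅T, T⁆ x :=
    { hx3 := h.hx3, hET := E_le, hEn := fun g hg => E_norm hg, hEc := hEc, hxE := E_conj h.hxT
      hxT := h.hxT, hTE := fun g hg k hk => com_mem hg hk, hn := hnall, hEM := hEM, hT3 := h.T3
      hBL := h.hBL }
  have hcommOfBot : ⁅T, T⁆ = ⊥ → False := by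
    intro hb
    apply hnc
    intro a ha b hb'
    have h1 := com_mem ha hb'
    rw [hb, Subgroup.mem_bot] at h1
    have h2 := mul_inv_eq_one.mp h1
    exact mul_inv_eq_iff_eq_mul.mp h2
  have hTbot : T ≠ ⊥ := by
    intro hb
    apply hcommOfBot
    exact le_bot_iff.mp (E_le.trans hb.le)
  have hne := h.hEne hTbot
  obtain ⟨g₀, hg₀, hg₀n⟩ : ∃ g ∈ T, g ∉ ⁅T, T⁆ := by
    by_contra hcon
    push Not at hcon
    exact hne (le_antisymm E_le hcon)
  let of := Abelianization.of (G := T)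
  have hof : of ⟨g₀, hg₀⟩ ≠ 1 := fun hh => hg₀n ((of_iff ⟨g₀, hg₀⟩).2 hh)
  have ho1 : orderOf (of ⟨g₀, hg₀⟩) ≠ 1 := fun hh => hof (orderOf_eq_one_iff.mp hh)
  set t := (orderOf (of ⟨g₀, hg₀⟩)).minFac with ht
  have htp : t.Prime := Nat.minFac_prime ho1
  haveI : Fact t.Prime := ⟨htp⟩
  have htdvd0 : t ∣ orderOf (of ⟨g₀, hg₀⟩) := Nat.minFac_dvd _
  have htdvd : t ∣ Nat.card T :=
    htdvd0.trans ((orderOf_map_dvd of ⟨g₀, hg₀⟩).trans (orderOf_dvd_natCard _))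
  obtain ⟨a, m', hm', hcard⟩ := Nat.exists_eq_pow_mul_and_not_dvd (Nat.card_pos (α := T)).ne' t htp.ne_one
  have hpowcard : ∀ g : T, g ^ (t ^ a * m') = 1 := by
    intro g
    rw [← hcard]
    exact pow_card_eq_one'
  let Hk : ℕ → Subgroup (AA M) := fun k => (((powMonoidHom k : Abelianization T →* Abelianization T).comp of).ker).map T.subtype
  have hmemH : ∀ (k : ℕ) (g : T), (g : AA M) ∈ Hk k ↔ (of g) ^ k = 1 := by
    intro k g
    constructor
    · intro hh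
      obtain ⟨g', hg', he⟩ := Subgroup.mem_map.mp hh
      have : g' = g := Subtype.ext he
      subst this
      exact hg'
    · intro hh
      exact Subgroup.mem_map_of_mem _ hh
  have hHT : ∀ k, Hk k ≤ T := by
    rintro k _ ⟨g, -, rfl⟩
    exact g.2
  have hHE : ∀ (k : ℕ) (g : T), (g : AA M) ∈ Hk k ↔ ((g ^ k : T) : AA M) ∈ ⁅T, T⁆ := by
    intro k g
    rw [hmemH, of_iff, map_pow]
  have hHz : ∀ z : AA M, (∀ g ∈ T, cj z g ∈ T) → ∀ k, ∀ u ∈ Hk k, cj z u ∈ Hk k := by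
    intro z hz k u hu
    have hu' : ((⟨u, hHT k hu⟩ : T) : AA M) ∈ Hk k := hu
    rw [hHE] at hu'
    have h1 := E_conj hz _ hu'
    have h2 : ((⟨cj z u, hz u (hHT k hu)⟩ : T) : AA M) ∈ Hk k := by
      rw [hHE]
      convert h1 using 1
      show (cj z u) ^ k = cj z (u ^ k)
      rw [conj_pow_aux]
    exact h2
  have hEH : ∀ k, ∀ e ∈ ⁅T, T⁆, e ∈ Hk k := by
    intro k e he
    have h1 : ((⟨e, E_le he⟩ : T) : AA M) ∈ Hk k := by
      rw [hmemH, (of_iff _).1 he, one_pow]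
    exact h1
  have hH'ne : Hk m' ≠ T := by
    intro he
    have h1 : ((⟨g₀, hg₀⟩ : T) : AA M) ∈ Hk m' := by rw [he]; exact hg₀
    rw [hmemH] at h1
    exact hm' (htdvd0.trans (orderOf_dvd_of_pow_eq_one h1))
  have hH'c := h.hmin (Hk m') (hHT _) (hHz x h.hxT m') (hHz y h.hyT m') hH'ne
  have hbez : IsCoprime ((t ^ a : ℕ) : ℤ) (m' : ℤ) := Nat.isCoprime_iff_coprime.mpr
    (Nat.Coprime.pow_left a ((Nat.Prime.coprime_iff_not_dvd htp).2 hm'))
  have hgcd : Nat.Coprime (t ^ a) m' := Nat.Coprime.pow_left a ((Nat.Prime.coprime_iff_not_dvd htp).2 hm')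
  have hHall : ∀ g : T, (of g) ^ (t ^ a) = 1 := by
    by_contra hcon
    push Not at hcon
    obtain ⟨gc, hgc⟩ := hcon
    have hHne : Hk (t ^ a) ≠ T := by
      intro he
      have h1 : (gc : AA M) ∈ Hk (t ^ a) := by rw [he]; exact gc.2
      exact hgc ((hmemH _ _).1 h1)
    have hHc := h.hmin (Hk (t ^ a)) (hHT _) (hHz x h.hxT _) (hHz y h.hyT _) hHne
    apply hnc
    have hcross : ∀ a₁ ∈ Hk (t ^ a), ∀ b₁ ∈ Hk m', a₁ * b₁ = b₁ * a₁ := by
      intro a₁ ha₁ b₁ hb₁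
      have ha₁T := hHT _ ha₁
      have hb₁T := hHT _ hb₁
      set c := a₁ * b₁ * a₁⁻¹ * b₁⁻¹ with hc
      have hcE : c ∈ ⁅T, T⁆ := com_mem ha₁T hb₁T
      have hca : c * a₁ = a₁ * c := hHc c (hEH _ c hcE) a₁ ha₁
      have hcb : c * b₁ = b₁ * c := hH'c c (hEH _ c hcE) b₁ hb₁
      have hpa : a₁ ^ (t ^ a) ∈ ⁅T, T⁆ := by
        have : ((⟨a₁, ha₁T⟩ : T) : AA M) ∈ Hk (t ^ a) := ha₁
        rw [hHE] at this
        exact this
      have hpb : b₁ ^ m' ∈ ⁅T, T⁆ := by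
        have : ((⟨b₁, hb₁T⟩ : T) : AA M) ∈ Hk m' := hb₁
        rw [hHE] at this
        exact this
      have h1 := conj_pow_eq (show a₁ * b₁ * a₁⁻¹ = c * b₁ by rw [hc]; group) hca (t ^ a)
      have hcm1 : a₁ ^ (t ^ a) * b₁ = b₁ * a₁ ^ (t ^ a) := hH'c _ (hEH _ _ hpa) b₁ hb₁
      have hc1 : c ^ (t ^ a) = 1 := by
        have h2 : a₁ ^ (t ^ a) * b₁ * (a₁ ^ (t ^ a))⁻¹ = b₁ := by rw [hcm1]; simp
        rw [h2] at h1
        have h3 : c ^ (t ^ a) * b₁ = 1 * b₁ := by rw [one_mul]; exact h1.symm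
        exact mul_right_cancel h3
      have hcinv : c⁻¹ * b₁ = b₁ * c⁻¹ := (Commute.inv_left (show Commute c b₁ from hcb)).eq
      have h4 := conj_pow_eq (show b₁ * a₁ * b₁⁻¹ = c⁻¹ * a₁ by rw [hc]; group) hcinv m'
      have hcm2 : b₁ ^ m' * a₁ = a₁ * b₁ ^ m' := hHc _ (hEH _ _ hpb) a₁ ha₁
      have hc2 : c ^ m' = 1 := by
        have h2 : b₁ ^ m' * a₁ * (b₁ ^ m')⁻¹ = a₁ := by rw [hcm2]; simp
        rw [h2] at h4
        have h3 : (c⁻¹) ^ m' * a₁ = 1 * a₁ := by rw [one_mul]; exact h4.symm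
        have h5 := mul_right_cancel h3
        rwa [inv_pow, inv_eq_one] at h5
      have hc3 : c = 1 := by
        have h6 := Nat.dvd_gcd (orderOf_dvd_of_pow_eq_one hc1) (orderOf_dvd_of_pow_eq_one hc2)
        rw [hgcd.gcd_eq_one] at h6
        exact orderOf_eq_one_iff.mp (Nat.dvd_one.mp h6)
      rw [hc] at hc3
      have h7 := mul_inv_eq_one.mp hc3
      exact mul_inv_eq_iff_eq_mul.mp h7
    obtain ⟨A, B, hAB⟩ := hbez
    have hdec : ∀ g : T, ∃ u ∈ Hk m', ∃ v ∈ Hk (t ^ a), (g : AA M) = u * v := by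
      intro g
      refine ⟨((g ^ (A * ((t ^ a : ℕ) : ℤ)) : T) : AA M), ?_, ((g ^ (B * (m' : ℤ)) : T) : AA M), ?_, ?_⟩
      · rw [hHE]
        have : (g ^ (A * ((t ^ a : ℕ) : ℤ))) ^ m' = 1 := by
          rw [← zpow_natCast, ← zpow_mul]
          have e : A * ((t ^ a : ℕ) : ℤ) * (m' : ℤ) = (((t ^ a * m' : ℕ) : ℤ)) * A := by
            push_cast; ring
          rw [e, zpow_mul, zpow_natCast, hpowcard, one_zpow]
        rw [this]
        exact Subgroup.one_mem _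
      · rw [hHE]
        have : (g ^ (B * (m' : ℤ))) ^ (t ^ a) = 1 := by
          rw [← zpow_natCast, ← zpow_mul]
          have e : B * (m' : ℤ) * ((t ^ a : ℕ) : ℤ) = (((t ^ a * m' : ℕ) : ℤ)) * B := by
            push_cast; ring
          rw [e, zpow_mul, zpow_natCast, hpowcard, one_zpow]
        rw [this]
        exact Subgroup.one_mem _
      · rw [← Subgroup.coe_mul, ← zpow_add, hAB, zpow_one]
    intro p hp q hq
    obtain ⟨u₁, hu₁, v₁, hv₁, e₁⟩ := hdec ⟨p, hp⟩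
    obtain ⟨u₂, hu₂, v₂, hv₂, e₂⟩ := hdec ⟨q, hq⟩
    have e₁' : p = u₁ * v₁ := e₁
    have e₂' : q = u₂ * v₂ := e₂
    rw [e₁', e₂']
    have c1 := hH'c u₁ hu₁ u₂ hu₂
    have c2 := hHc v₁ hv₁ v₂ hv₂
    have c3 := hcross v₁ hv₁ u₂ hu₂
    have c4 := hcross v₂ hv₂ u₁ hu₁
    calc u₁ * v₁ * (u₂ * v₂) = u₁ * (v₁ * u₂) * v₂ := by group
      _ = u₁ * (u₂ * v₁) * v₂ := by rw [c3]
      _ = (u₁ * u₂) * (v₁ * v₂) := by group
      _ = (u₂ * u₁) * (v₂ * v₁) := by rw [c1, c2]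
      _ = u₂ * (u₁ * v₂) * v₁ := by group
      _ = u₂ * (v₂ * u₁) * v₁ := by rw [c4]
      _ = _ := by group
  have ht6 : t.Coprime 6 := Nat.Coprime.coprime_dvd_left htdvd h.hT6
  have ht3 : t ≠ 3 := by
    intro hh
    rw [hh] at ht6
    exact absurd ht6 (by decide)
  have ht2 : t ≠ 2 := by
    intro hh
    rw [hh] at ht6
    exact absurd ht6 (by decide)
  -- the part of order prime to t
  let P : Subgroup (AA M) :=
    { carrier := {e | e ∈ ⁅T, T⁆ ∧ e ^ m' = 1}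
      one_mem' := ⟨Subgroup.one_mem _, one_pow _⟩
      mul_mem' := by
        rintro p q ⟨hp, hp'⟩ ⟨hq, hq'⟩
        have : Commute p q := hEc p hp q hq
        exact ⟨Subgroup.mul_mem _ hp hq, by rw [this.mul_pow, hp', hq', one_mul]⟩
      inv_mem' := by
        rintro p ⟨hp, hp'⟩
        exact ⟨Subgroup.inv_mem _ hp, by rw [inv_pow, hp', inv_one]⟩ }
  have hPE : P ≤ ⁅T, T⁆ := fun e he => he.1
  have hcjP : ∀ z : AA M, (∀ g ∈ T, cj z g ∈ T) → ∀ p ∈ P, cj z p ∈ P := by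
    rintro z hz p ⟨hp, hp'⟩
    refine ⟨E_conj hz p hp, ?_⟩
    rw [← conj_pow_aux, hp']
    simp [cj]
  have hPcop : (Nat.card P).Coprime t := by
    rw [Nat.coprime_comm, Nat.Prime.coprime_iff_not_dvd htp]
    intro hd
    obtain ⟨e, he⟩ := exists_prime_orderOf_dvd_card' (G := P) t hd
    have h1 : (e : AA M) ^ m' = 1 := e.2.2
    have h2 : orderOf (e : AA M) = t := by
      rw [Subgroup.orderOf_coe]; exact he
    exact hm' (h2 ▸ orderOf_dvd_of_pow_eq_one h1)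
  have hcjE : ∀ e ∈ ⁅T, T⁆, ∀ p ∈ ⁅T, T⁆, cj e p = p := by
    intro e he p hp
    have := hEc e he p hp
    simp only [cj]
    rw [this]; simp
  have hPcen := P_central T P x t ht3 (fun p hp q hq => hEc p hp.1 q hq.1) h.hx3 h.hxT
    (fun g hg p hp => hcjP g (fun k hk => by
      have := com_mem hg hk
      have h1 : cj g k = (g * k * g⁻¹ * k⁻¹) * k := by simp [cj]
      rw [h1]
      exact T.mul_mem (E_le this) hk) p hp)
    (hcjP x h.hxT)
    (fun g hg k hk p hp => hcjE _ (com_mem hg hk) p hp.1)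
    (fun g hg p hp => hcjE _ (hnall g hg) p hp.1)
    (fun g hg => ⟨a, fun p hp => by
      have h1 := (hHE (t ^ a) ⟨g, hg⟩).1 ((hmemH _ _).2 (hHall _))
      exact hcjE _ h1 p hp.1⟩)
    hPcop
    (fun g hg p hp => by
      have hxp := hS.hxE p hp.1
      have hxxp := hS.hxE _ hxp
      have hN : p * cj x p * cj x (cj x p) ∈ ⁅T, T⁆ :=
        Subgroup.mul_mem _ (Subgroup.mul_mem _ hp.1 hxp) hxxp
      apply hS.c_step (E_le hN) ?_ hg
      rw [cj_mul, cj_mul, xi3 h.hx3]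
      have c2 := hEc (cj x p * cj x (cj x p)) (Subgroup.mul_mem _ hxp hxxp) _ hp.1
      rw [c2, mul_assoc])
  -- transfer
  have hZ : ∀ g : T, g ^ (t ^ (a + a)) ∈ Subgroup.center T := by
    intro g
    have h1 := (hHE (t ^ a) g).1 ((hmemH _ _).2 (hHall _))
    have hw : (((g ^ (t ^ a)) ^ (t ^ a) : T) : AA M) ∈ P := by
      refine ⟨?_, ?_⟩
      · rw [Subgroup.coe_pow]; exact Subgroup.pow_mem _ h1 _
      · have e1 : ((g ^ (t ^ a)) ^ (t ^ a)) ^ m' = 1 := by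
          rw [← pow_mul, ← pow_mul, pow_mul, hpowcard]
        exact congrArg Subtype.val e1
    have e2 : g ^ (t ^ (a + a)) = (g ^ (t ^ a)) ^ (t ^ a) := by rw [← pow_mul, pow_add]
    rw [e2, Subgroup.mem_center_iff]
    intro z
    have h3 := hPcen z z.2 _ hw
    apply Subtype.ext
    have h4 : (z : AA M) * (((g ^ (t ^ a)) ^ (t ^ a) : T) : AA M) * (z : AA M)⁻¹ = (((g ^ (t ^ a)) ^ (t ^ a) : T) : AA M) := h3
    show (z : AA M) * (((g ^ (t ^ a)) ^ (t ^ a) : T) : AA M) = (((g ^ (t ^ a)) ^ (t ^ a) : T) : AA M) * (z : AA M)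
    calc (z : AA M) * (((g ^ (t ^ a)) ^ (t ^ a) : T) : AA M)
        = ((z : AA M) * (((g ^ (t ^ a)) ^ (t ^ a) : T) : AA M) * (z : AA M)⁻¹) * (z : AA M) := by simp
      _ = _ := by rw [h4]
  have hp : IsPGroup t (T ⧸ Subgroup.center T) := fun q => by
    induction q using QuotientGroup.induction_on with
    | H g =>
      exact ⟨a + a, by rw [← QuotientGroup.mk_pow]; exact (QuotientGroup.eq_one_iff _).2 (hZ g)⟩
  obtain ⟨n, hn⟩ := IsPGroup.iff_card.mp hp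
  have hidx : (Subgroup.center T).index = t ^ n := hn
  have hEt : ∀ e ∈ ⁅T, T⁆, e ^ (t ^ n) = 1 := by
    intro e he
    have h1 : (⟨e, E_le he⟩ : T) ∈ commutator T := (QuotientGroup.eq_one_iff _).1 ((of_iff _).1 he)
    have hle : commutator T ≤ (MonoidHom.transferCenterPow T).ker := by
      rw [commutator_def, Subgroup.commutator_le]
      intro g₁ _ g₂ _
      rw [MonoidHom.mem_ker, map_commutatorElement, commutatorElement_eq_one_iff_mul_comm]
      apply Subtype.ext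
      exact Subgroup.mem_center_iff.mp (MonoidHom.transferCenterPow T g₂).2 (MonoidHom.transferCenterPow T g₁)
    have h2 := hle h1
    rw [MonoidHom.mem_ker] at h2
    have h3 := MonoidHom.transferCenterPow_apply (⟨e, E_le he⟩ : T)
    rw [h2] at h3
    have h4 : (⟨e, E_le he⟩ : T) ^ (t ^ n) = 1 := by
      rw [← hidx]; exact h3.symm
    exact congrArg Subtype.val h4
  have hTt : ∀ g ∈ T, ∃ k, g ^ (t ^ k) = 1 := by
    intro g hg
    have h1 := (hHE (t ^ a) ⟨g, hg⟩).1 ((hmemH _ _).2 (hHall _))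
    refine ⟨a + n, ?_⟩
    rw [pow_add, pow_mul]
    exact hEt _ h1
  have hcop : t.Coprime (Nat.card M) := by
    rw [Nat.Prime.coprime_iff_not_dvd htp]
    intro hd
    obtain ⟨s, hs⟩ := h.hMr
    rw [hs] at hd
    have h1 := (Nat.prime_dvd_prime_iff_eq htp h.hr).1 (htp.dvd_of_dvd_pow hd)
    apply hcommOfBot
    rw [Subgroup.eq_bot_iff_forall]
    intro e he
    have h2 := hEt e he
    rw [h1] at h2
    have h3 : e ^ Nat.card (⁅T, T⁆ : Subgroup (AA M)) = 1 := by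
      have := pow_card_eq_one' (G := (⁅T, T⁆ : Subgroup (AA M))) (x := ⟨e, he⟩)
      exact congrArg Subtype.val this
    have h4 := Nat.dvd_gcd (orderOf_dvd_of_pow_eq_one h2) (orderOf_dvd_of_pow_eq_one h3)
    have h5 : Nat.Coprime (r ^ n) (Nat.card (⁅T, T⁆ : Subgroup (AA M))) := Nat.Coprime.pow_left n h.hEr.symm
    rw [h5.gcd_eq_one] at h4
    exact orderOf_eq_one_iff.mp (Nat.dvd_one.mp h4)
  have hfix : ∀ g ∈ T, cj x g = g → g = 1 :=
    fun b hb hf => hS.e_step le_rfl t hcop ht3 ht2 hTt hb hf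
  have hn1 : ∀ g ∈ T, g * cj x g * cj x (cj x g) = 1 := by
    intro g hg
    obtain ⟨u, hu, c, hc, hcc, he⟩ :=
      Cfsg.Agent.H06.exists_conj_mul_eq (H := T) (g := x) h.hxT (ordx_cop h.hx3 h.T3) (h.hxT g hg)
    have hfc : cj x c = c := by
      simp only [cj]; rw [← hcc]; simp
    have hc1 := hfix c hc hfc
    rw [hc1, one_mul] at he
    have e1 : u * (cj x g * x) * u⁻¹ = u * (x * g) * u⁻¹ := by simp [cj]
    rw [e1] at he
    have e2 : x * g = u⁻¹ * x * u := by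
      calc x * g = u⁻¹ * (u * (x * g) * u⁻¹) * u := by group
        _ = u⁻¹ * x * u := by rw [he]
    exact norm_one_of_conj h.hx3 e2
  let R₀ : Subgroup (AA M) :=
    { carrier := {e | e ∈ ⁅T, T⁆ ∧ ∀ g ∈ T, e * g = g * e}
      one_mem' := ⟨Subgroup.one_mem _, fun g _ => by simp⟩
      mul_mem' := by
        rintro p q ⟨hp, hp'⟩ ⟨hq, hq'⟩
        refine ⟨Subgroup.mul_mem _ hp hq, fun g hg => ?_⟩
        rw [mul_assoc, hq' g hg, ← mul_assoc, hp' g hg, mul_assoc]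
      inv_mem' := by
        rintro p ⟨hp, hp'⟩
        refine ⟨Subgroup.inv_mem _ hp, fun g hg => ?_⟩
        exact (Commute.inv_left (show Commute p g from hp' g hg)).eq }
  have hR₀z : ∀ z : AA M, (∀ g ∈ T, cj z g ∈ T) → (∀ g ∈ T, cj z⁻¹ g ∈ T) → ∀ u ∈ R₀, cj z u ∈ R₀ := by
    rintro z hz hz' u ⟨hu, hu'⟩
    refine ⟨E_conj hz u hu, fun g hg => ?_⟩
    have h1 := hu' _ (hz' g hg)
    have h2 : cj z u * g = z * (u * cj z⁻¹ g) * z⁻¹ := by simp [cj, mul_assoc]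
    have h3 : g * cj z u = z * (cj z⁻¹ g * u) * z⁻¹ := by simp [cj, mul_assoc]
    rw [h2, h3, h1]
  have hxi : ∀ g ∈ T, cj x⁻¹ g ∈ T := by
    intro g hg
    rw [cj_inv_x h.hx3]
    exact h.hxT _ (h.hxT g hg)
  have hyi : ∀ g ∈ T, cj y⁻¹ g ∈ T := by
    intro g hg
    rw [inv_eq_of_mul_eq_one_left h.hy]
    exact h.hyT g hg
  have hpT : IsPGroup t T := fun g => (hTt g g.2).imp (fun k hk => Subtype.ext hk)
  obtain ⟨nT, hnT⟩ := IsPGroup.iff_card.mp hpT
  have hTM : (Nat.card T).Coprime (Nat.card M) := by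
    rw [hnT]
    exact Nat.Coprime.pow_left nT hcop
  have hR := f_step T R₀ x y h.hx3 h.hy h.hyx h.hxT h.hyT h.hT6 hTM h.hM6 hfix hn1 h.hA
    (fun u hu => E_le hu.1) (fun u hu g hg => hu.2 g hg) (hR₀z x h.hxT hxi) (hR₀z y h.hyT hyi)
    (fun u hu => hu.1)
  obtain ⟨e, he, he1, hcen⟩ := center_meet T _ E_le t hTt (fun g hg => E_norm hg)
    (fun hb => hcommOfBot hb)
  have heR : e ∈ R₀ := by
    refine ⟨he, fun g hg => ?_⟩
    have h1 := hcen g hg
    simp only [cj] at h1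
    calc e * g = g * e * g⁻¹ * g := by rw [h1]
      _ = g * e := by simp
  rw [hR, Subgroup.mem_bot] at heR
  exact he1 heR

/-- Commutativity for the whole group. -/
theorem D_comm (D : Subgroup (AA M)) (x y : AA M) (r : ℕ) (hx3 : x ^ 3 = 1) (hy : y * y = 1)
    (hyx : cj y x = x⁻¹) (hxD : ∀ g ∈ D, cj x g ∈ D) (hyD : ∀ g ∈ D, cj y g ∈ D)
    (hD6 : (Nat.card D).Coprime 6) (hM6 : (Nat.card M).Coprime 6) (hr : r.Prime)
    (hMr : ∃ s, Nat.card M = r ^ s) (hEr : (Nat.card (⁅D, D⁆ : Subgroup (AA M))).Coprime r)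
    (hBab : ∀ a ∈ D, ∀ b ∈ D, cj x a = a → cj x b = b → a * b = b * a)
    (hBL : ∀ b ∈ D, cj x b = b → ∀ w, x w = w → b w = w)
    (hA : ∀ w, Nm x w + Nm x (y w) = 0) (hsol : Group.IsSolvable D) : ∀ a ∈ D, ∀ b ∈ D, a * b = b * a := by
  classical
  by_contra hnc
  obtain ⟨T, hT⟩ := (Set.toFinite {S : Subgroup (AA M) | S ≤ D ∧ (∀ g ∈ S, cj x g ∈ S) ∧ (∀ g ∈ S, cj y g ∈ S) ∧
    ¬ ∀ a ∈ S, ∀ b ∈ S, a * b = b * a}).exists_minimal ⟨D, le_rfl, hxD, hyD, hnc⟩
  obtain ⟨hTD, hxT, hyT, hTnc⟩ := hT.1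
  have hcfg : TCfg T x y r :=
    { hx3 := hx3, hy := hy, hyx := hyx, hxT := hxT, hyT := hyT
      hT6 := Nat.Coprime.coprime_dvd_left (Subgroup.card_dvd_of_le hTD) hD6
      hM6 := hM6, hr := hr, hMr := hMr
      hEr := Nat.Coprime.coprime_dvd_left (Subgroup.card_dvd_of_le (Subgroup.commutator_mono hTD hTD)) hEr
      hBab := fun a ha b hb => hBab a (hTD ha) b (hTD hb)
      hBL := fun b hb => hBL b (hTD hb)
      hA := hA
      hEne := by
        intro hb he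
        haveI := hsol
        haveI : Group.IsSolvable T := solvable_of_solvable_injective (f := Subgroup.inclusion hTD)
          (Subgroup.inclusion_injective hTD)
        haveI : Nontrivial T := (Subgroup.nontrivial_iff_ne_bot T).2 hb
        have h1 := (Group.IsSolvable.commutator_lt_top_of_nontrivial T).ne
        apply h1
        rw [eq_top_iff]
        intro g _
        have h2 : (g : AA M) ∈ ⁅T, T⁆ := by rw [he]; exact g.2
        exact (QuotientGroup.eq_one_iff _).1 ((of_iff g).1 h2)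
      hmin := by
        intro S hST hxS hyS hne
        by_contra hSnc
        exact hne (le_antisymm hST (hT.2 ⟨hST.trans hTD, hxS, hyS, hSnc⟩ hST)) }
  exact hTnc hcfg.comm

end Cfsg.Agent.H13.SF
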