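import Mathlib
import Cfsg.Agent.Lib.H13.RT7

/-!
Groups with class sizes `1, m, m*n`, `m, n` coprime: basic consequences.
-/

set_option autoImplicit false
set_option linter.style.haveILetI false
set_option linter.unusedSectionVars false
set_option linter.unusedVariables false
set_option linter.unnecessarySeqFocus false
set_option linter.style.multiGoal false

namespace Cfsg.Agent.H13.TC

open Cfsg H19 RT

universe u

variable {G : Type u} [Group G] [Finite G]

theorem exists_mul_of_index_pow {D : Subgroup G} {q k : ℕ} [hq : Fact q.Prime] (hi : D.index = q ^ k)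
    (P : Sylow q G) (g : G) : ∃ p ∈ (P : Subgroup G), ∃ d ∈ D, g = p * d := by
  classical
  let x₀ : G ⧸ D := ((1 : G) : G ⧸ D)
  set St := MulAction.stabilizer (↥(P : Subgroup G)) x₀ with hSt
  have h1 : Nat.card St * (MulAction.orbit (↥(P : Subgroup G)) x₀).ncard = Nat.card (P : Subgroup G) := by
    rw [← MulAction.index_stabilizer]
    exact St.card_mul_index
  let B : Subgroup G := St.map (P : Subgroup G).subtype
  have hBD : B ≤ D := by
    rintro _ ⟨p, hp, rfl⟩
    have hp' : p • x₀ = x₀ := hp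
    have h2 : ((p : G) : G ⧸ D) = ((1 : G) : G ⧸ D) := by
      have : p • x₀ = ((p : G) • (1 : G) : G) := rfl
      rw [hp'] at this
      simpa using this.symm
    have h3 := QuotientGroup.eq.mp h2
    simpa using (D.inv_mem_iff.mp (by simpa using h3))
  have hBp : IsPGroup q B := (P.isPGroup'.to_le (Subgroup.map_subtype_le St))
  obtain ⟨u, hu⟩ := IsPGroup.iff_card.mp hBp
  have hStB : Nat.card St = Nat.card B := (Subgroup.card_map_of_injective (Subgroup.subtype_injective _)).symm
  have hdB : q ^ u ∣ Nat.card D := by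
    rw [← hu]
    exact Subgroup.card_dvd_of_le hBD
  have hG : Nat.card D * q ^ k = Nat.card G := by
    rw [← hi]
    exact D.card_mul_index
  have h4 : q ^ (u + k) ∣ Nat.card G := by
    rw [pow_add, ← hG]
    exact Nat.mul_dvd_mul_right hdB _
  have h5 : q ^ (u + k) ∣ Nat.card (P : Subgroup G) := Sylow.pow_dvd_card_of_pow_dvd_card P h4
  rw [← h1, hStB, hu, pow_add] at h5
  have h6 : q ^ k ∣ (MulAction.orbit (↥(P : Subgroup G)) x₀).ncard :=
    Nat.dvd_of_mul_dvd_mul_left (pow_pos hq.out.pos u) h5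
  have hcard : Nat.card (G ⧸ D) = q ^ k := by
    rw [← hi]
    rfl
  have h7 : (MulAction.orbit (↥(P : Subgroup G)) x₀) = Set.univ := by
    apply Set.eq_of_subset_of_ncard_le (Set.subset_univ _)
    rw [Set.ncard_univ, hcard]
    exact Nat.le_of_dvd (Nat.pos_of_ne_zero (by
      rw [← MulAction.index_stabilizer]
      exact Subgroup.FiniteIndex.index_ne_zero)) h6
  have h8 : ((g : G) : G ⧸ D) ∈ MulAction.orbit (↥(P : Subgroup G)) x₀ := by
    rw [h7]
    exact Set.mem_univ _
  obtain ⟨p, hp⟩ := h8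
  have h9 : ((p : G) : G ⧸ D) = (g : G ⧸ D) := by
    have hp2 : p • x₀ = ((g : G) : G ⧸ D) := hp
    have : p • x₀ = ((p : G) • (1 : G) : G) := rfl
    rw [← hp2, this]
    simp
  have h10 := QuotientGroup.eq.mp h9
  exact ⟨p, p.2, (p : G)⁻¹ * g, h10, by group⟩

/-- Wielandt: a `q`-element with `q`-power class size lies in every Sylow `q`-subgroup. -/
theorem mem_sylow_of_pp_index {q k e : ℕ} [hq : Fact q.Prime] {x : G} (hx : orderOf x = q ^ e)
    (hi : (cz x).index = q ^ k) (P : Sylow q G) : x ∈ (P : Subgroup G) := by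
  classical
  obtain ⟨P₀, hP₀⟩ := exists_sylow_of_orderOf hx
  obtain ⟨g, hg⟩ := MulAction.exists_smul_eq G P₀ P
  obtain ⟨p, hp, d, hd, hpd⟩ := exists_mul_of_index_pow hi P₀ g⁻¹
  rw [← hg, Sylow.coe_subgroup_smul]
  refine ⟨g⁻¹ * x * g, ?_, ?_⟩
  · have hdx := mem_cz.mp hd
    have h1 : g⁻¹ * x * g = p * x * p⁻¹ := by
      have hg' : g = d⁻¹ * p⁻¹ := by
        have : g = (g⁻¹)⁻¹ := by group
        rw [this, hpd]
        group
      rw [hpd, hg']
      calc p * d * x * (d⁻¹ * p⁻¹) = p * (d * x) * d⁻¹ * p⁻¹ := by group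
        _ = p * (x * d) * d⁻¹ * p⁻¹ := by rw [hdx]
        _ = p * x * p⁻¹ := by group
    rw [h1]
    exact (P₀ : Subgroup G).mul_mem ((P₀ : Subgroup G).mul_mem hp hP₀) ((P₀ : Subgroup G).inv_mem hp)
  · show g * (g⁻¹ * x * g) * g⁻¹ = x
    group

/-- A subgroup containing the prime-power-order elements of `X` contains `X`. -/
theorem le_of_pp {X D : Subgroup G}
    (h : ∀ (t e : ℕ) (v : G), t.Prime → v ∈ X → orderOf v = t ^ e → v ∈ D) : X ≤ D := by
  classical
  by_contra hn
  have hne : (D.subgroupOf X).index ≠ 1 := by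
    intro h1
    rw [Subgroup.index_eq_one] at h1
    apply hn
    intro a ha
    have : (⟨a, ha⟩ : X) ∈ D.subgroupOf X := by
      rw [h1]
      exact Subgroup.mem_top _
    exact this
  obtain ⟨t, ht, htd⟩ := Nat.exists_prime_and_dvd hne
  haveI : Fact t.Prime := ⟨ht⟩
  obtain ⟨y, e, hy, hyD⟩ := exists_nc_elt htd
  apply hyD
  have : (y : G) ∈ D := h t e y ht y.2 (by rw [Subgroup.orderOf_coe, hy])
  exact this

/-- General existence lemma for non-central prime-power elements. -/
theorem exists_nc_of_card_dvd' {t e : ℕ} (ht : t.Prime) {x : G} (hx : orderOf x = t ^ e)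
    (hxZ : x ∉ Subgroup.center G) (D' D : Subgroup G) (hZ : Subgroup.center G ≤ D') (hxD : x ∈ D')
    (hd : Nat.card D' ∣ Nat.card D) :
    ∃ a ∈ D, a ∉ Subgroup.center G ∧ ∃ f : ℕ, orderOf a = t ^ f := by
  classical
  haveI : Fact t.Prime := ⟨ht⟩
  obtain ⟨P⟩ : Nonempty (Sylow t D) := inferInstance
  set A : Subgroup G := (P : Subgroup D).map D.subtype with hA
  have hAle : A ≤ D := Subgroup.map_subtype_le _
  have hAp : IsPGroup t A := P.isPGroup'.map _
  by_cases hAZ : A ≤ Subgroup.center G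
  · exfalso
    haveI hAn : A.Normal := by
      constructor
      intro a ha g
      have := Subgroup.mem_center_iff.mp (hAZ ha) g
      rw [this]
      simpa using ha
    have hKp : IsPGroup t ↥(A ⊔ Subgroup.zpowers x) := by
      apply hAp.to_sup_of_normal_left
      exact IsPGroup.of_card (n := e) (by rw [Nat.card_zpowers, hx])
    have hKle : A ⊔ Subgroup.zpowers x ≤ D' := by
      apply sup_le (hAZ.trans hZ)
      rw [Subgroup.zpowers_le]
      exact hxD
    have hlt : A < A ⊔ Subgroup.zpowers x := by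
      refine lt_of_le_of_ne le_sup_left ?_
      intro h
      have h1 : x ∈ A := by
        rw [h]
        exact (le_sup_right : Subgroup.zpowers x ≤ _) (Subgroup.mem_zpowers x)
      exact hxZ (hAZ h1)
    have hc1 : Nat.card A < Nat.card ↥(A ⊔ Subgroup.zpowers x) := by
      by_contra hge
      exact hlt.ne (Subgroup.eq_of_le_of_card_ge hlt.le (not_lt.mp hge))
    obtain ⟨j, hj⟩ := IsPGroup.iff_card.mp hKp
    have hd2 : Nat.card ↥(A ⊔ Subgroup.zpowers x) ∣ Nat.card D := (Subgroup.card_dvd_of_le hKle).trans hd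
    rw [hj] at hd2
    have hcA : Nat.card A = t ^ (Nat.card D).factorization t := by
      rw [hA, Subgroup.card_map_of_injective (Subgroup.subtype_injective _)]
      exact Sylow.card_eq_multiplicity P
    have hle : j ≤ (Nat.card D).factorization t :=
      (ht.pow_dvd_iff_le_factorization Nat.card_pos.ne').mp hd2
    rw [hj, hcA] at hc1
    have := Nat.pow_le_pow_right ht.pos hle
    omega
  · obtain ⟨a, haA, haZ⟩ := SetLike.not_le_iff_exists.mp hAZ
    obtain ⟨f, hf⟩ := elt_of_pgroup ht hAp haA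
    exact ⟨a, hAle haA, haZ, f, hf⟩

theorem card_cz_dvd_of_index_dvd {a b : G} (h : (cz b).index ∣ (cz a).index) :
    Nat.card (cz a) ∣ Nat.card (cz b) := by
  obtain ⟨k, hk⟩ := h
  have h1 := (cz a).card_mul_index
  have h2 := (cz b).card_mul_index
  have hbi : (cz b).index ≠ 0 := Subgroup.FiniteIndex.index_ne_zero
  refine ⟨k, ?_⟩
  rw [hk] at h1
  apply Nat.eq_of_mul_eq_mul_right (Nat.pos_of_ne_zero hbi)
  rw [h2, ← h1]
  ring

theorem conj_order {g a : G} : orderOf (g * a * g⁻¹) = orderOf a := by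
  have : g * a * g⁻¹ = MulAut.conj g a := by simp [MulAut.conj_apply]
  rw [this]
  exact orderOf_injective (MulAut.conj g).toMonoidHom (MulAut.conj g).injective a

theorem commute_conj {g a b : G} (h : a * b = b * a) : (g * a * g⁻¹) * (g * b * g⁻¹) = (g * b * g⁻¹) * (g * a * g⁻¹) := by
  calc (g * a * g⁻¹) * (g * b * g⁻¹) = g * (a * b) * g⁻¹ := by group
    _ = g * (b * a) * g⁻¹ := by rw [h]
    _ = (g * b * g⁻¹) * (g * a * g⁻¹) := by group

/-- Centralizer of a conjugate. -/
theorem cz_conj_mem_iff {g a x : G} (hx : x ∈ cz a) : g * x * g⁻¹ ∈ cz (g * a * g⁻¹) := conj_mem_cz_conj hx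

structure Setup (m n : ℕ) (G : Type u) [Group G] : Prop where
  hm : 1 < m
  hn : 1 < n
  hcop : m.Coprime n
  hcls : Cls m (m * n) G
  hexm : ∃ x : G, (cz x).index = m
  hexn : ∃ x : G, (cz x).index = m * n

namespace Setup

variable {m n : ℕ} (S : Setup m n G)
include S

theorem m_lt : m < m * n := by
  have := S.hm
  have := S.hn
  nlinarith

theorem index_cases {x : G} (hx : x ∉ Subgroup.center G) : (cz x).index = m ∨ (cz x).index = m * n := by
  rcases S.hcls x with h | h | h
  · exact absurd (cz_index_eq_one_iff.mp h) hx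
  · exact Or.inl h
  · exact Or.inr h

theorem dvd_index {x : G} (hx : x ∉ Subgroup.center G) : m ∣ (cz x).index := by
  rcases S.index_cases hx with h | h <;> rw [h]
  exact dvd_mul_right _ _

theorem index_dvd_mn (x : G) : (cz x).index ∣ m * n := by
  rcases S.hcls x with h | h | h <;> rw [h]
  · exact one_dvd _
  · exact dvd_mul_right _ _

theorem nc_of_m {x : G} (h : (cz x).index = m) : x ∉ Subgroup.center G := by
  intro hx
  have := cz_index_eq_one_iff.mpr hx
  have := S.hm
  omega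

theorem nc_of_mn {x : G} (h : (cz x).index = m * n) : x ∉ Subgroup.center G := by
  intro hx
  have := cz_index_eq_one_iff.mpr hx
  have := S.hm
  have := S.m_lt
  omega

theorem mn_ne_m : m * n ≠ m := S.m_lt.ne'

theorem cz_le_of_big {g b : G} (hb : (cz b).index = m * n) (hc : Commute g b)
    (hco : (orderOf g).Coprime (orderOf b)) : cz b ≤ cz g := by
  have hE := cz_mul_eq_inf hc hco
  have hle : cz (g * b) ≤ cz b := by
    rw [hE]
    exact inf_le_right
  have h1 := Subgroup.relIndex_mul_index hle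
  rw [hb] at h1
  have hm := S.hm
  have hlt := S.m_lt
  have hr : (cz (g * b)).relIndex (cz b) = 1 := by
    have hpos : 0 < (cz (g * b)).relIndex (cz b) := Nat.pos_of_ne_zero (by
      intro h0
      rw [h0, zero_mul] at h1
      exact Subgroup.FiniteIndex.index_ne_zero h1.symm)
    rcases S.hcls (g * b) with h | h | h
    · rw [h] at h1
      nlinarith
    · rw [h] at h1
      nlinarith
    · rw [h] at h1
      exact Nat.eq_of_mul_eq_mul_right (by omega) (h1.trans (one_mul _).symm)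
  rw [Subgroup.relIndex_eq_one] at hr
  exact hr.trans (by rw [hE]; exact inf_le_left)

theorem exists_pp_class_m : ∃ (r e : ℕ) (y : G), r.Prime ∧ orderOf y = r ^ e ∧ (cz y).index = m := by
  obtain ⟨x, hx⟩ := S.hexm
  obtain ⟨t, e, x', ht, he, hz, hnc⟩ := exists_pp_part x (S.nc_of_m hx)
  refine ⟨t, e, x', ht, he, ?_⟩
  have h1 := cz_eq_of_central S.hcls (by have := S.hm; omega) S.m_lt hx (cz_le_cz_of_mem_zpowers hz) hnc
  rw [h1, hx]

/-- Every prime dividing `n` gives an element of that order with class size `m`. -/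
theorem exists_s_class_m {s : ℕ} (hs : s.Prime) (hsn : s ∣ n) :
    ∃ (f : ℕ) (z : G), orderOf z = s ^ f ∧ (cz z).index = m := by
  classical
  haveI : Fact s.Prime := ⟨hs⟩
  by_contra hno
  push Not at hno
  have hsm : ¬ s ∣ m := by
    intro h
    have := Nat.dvd_gcd h hsn
    rw [S.hcop] at this
    exact hs.one_lt.ne' (Nat.dvd_one.mp this)
  have hbig : ∀ (f : ℕ) (u : G), orderOf u = s ^ f → u ∉ Subgroup.center G → (cz u).index = m * n := by
    intro f u hu huZ
    rcases S.index_cases huZ with h | h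
    · exact absurd h (hno f u hu)
    · exact h
  obtain ⟨x, hx⟩ := S.hexn
  obtain ⟨u₁, e, hu₁, hu₁x⟩ := exists_nc_elt (D := cz x) (t := s) (by rw [hx]; exact hsn.trans (dvd_mul_left _ _))
  have hu₁Z : u₁ ∉ Subgroup.center G := fun h => hu₁x (center_le_cz x h)
  obtain ⟨r, e', y, hr, hy, hym⟩ := S.exists_pp_class_m
  have hrs : r ≠ s := by
    rintro rfl
    exact hno e' y hy hym
  have htop := eq_top_of_conj_cover (cz y) (by
    intro w
    by_cases hw : w ∈ Subgroup.center G
    · refine ⟨1, ?_⟩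
      simpa using center_le_cz y hw
    · have hd : Nat.card (cz u₁) ∣ Nat.card (cz w) := by
        apply card_cz_dvd_of_index_dvd
        rw [hbig e u₁ hu₁ hu₁Z]
        exact S.index_dvd_mn w
      obtain ⟨u, huw, huZ, f, hu⟩ := exists_nc_of_card_dvd' hs hu₁ hu₁Z (cz u₁) (cz w) (center_le_cz _) (mem_cz.mpr rfl) hd
      have hsm' : ¬ s ∣ (cz y).index := by rwa [hym]
      obtain ⟨g, hg⟩ := exists_conj_mem_of_not_dvd hsm' hu
      refine ⟨g, ?_⟩
      have hg1 : (cz (g * u * g⁻¹)).index = m * n := by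
        rw [index_cz_conj]
        exact hbig f u hu huZ
      have hco : (orderOf y).Coprime (orderOf (g * u * g⁻¹)) := by
        rw [conj_order, hy, hu]
        exact Nat.Coprime.pow _ _ ((Nat.coprime_primes hr hs).mpr hrs)
      have hle := S.cz_le_of_big hg1 (show Commute y (g * u * g⁻¹) from (mem_cz.mp hg).symm) hco
      have hwu : w ∈ cz u := mem_cz.mpr (mem_cz.mp huw).symm
      have h1 := conj_mem_cz_conj (g := g) hwu
      have h2 := hle h1
      exact mem_cz.mpr (mem_cz.mp h2 |> fun h => by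
        exact (h)))
  have h1 : (cz y).index = 1 := by
    rw [htop]
    exact Subgroup.index_top
  have := S.hm
  omega

theorem central_of_sylow_le {q : ℕ} [Fact q.Prime] (hq : q ∣ m) (Q : Sylow q G) {b : G} (h : (Q : Subgroup G) ≤ cz b) :
    b ∈ Subgroup.center G := by
  by_contra hb
  have h1 : q ∣ (cz b).index := hq.trans (S.dvd_index hb)
  exact Q.not_dvd_index (h1.trans (Subgroup.index_dvd_of_le h))

theorem exists_central_in_sylow {s : ℕ} [hs : Fact s.Prime] (hsn : s ∣ n) (T : Sylow s G) :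
    ∃ z ∈ (T : Subgroup G), (cz z).index = m ∧ (∀ u ∈ (T : Subgroup G), u * z = z * u) ∧ ∃ f, orderOf z = s ^ f := by
  classical
  obtain ⟨f, z₀, hz₀, hz₀m⟩ := S.exists_s_class_m hs.out hsn
  have hsm : ¬ s ∣ (cz z₀).index := by
    rw [hz₀m]
    intro h
    have := Nat.dvd_gcd h hsn
    rw [S.hcop] at this
    exact hs.out.one_lt.ne' (Nat.dvd_one.mp this)
  obtain ⟨T₀, hT₀⟩ := exists_sylow_le_of_not_dvd hsm
  obtain ⟨g, hg⟩ := MulAction.exists_smul_eq G T₀ T
  have hcomm : ∀ u ∈ (T : Subgroup G), u * (g * z₀ * g⁻¹) = (g * z₀ * g⁻¹) * u := by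
    intro u hu
    rw [← hg, Sylow.coe_subgroup_smul] at hu
    obtain ⟨v, hv, hvu⟩ := hu
    have hvu' : g * v * g⁻¹ = u := hvu
    rw [← hvu']
    exact commute_conj (mem_cz.mp (hT₀ hv))
  have hzT : g * z₀ * g⁻¹ ∈ (T : Subgroup G) := by
    have hord : orderOf (g * z₀ * g⁻¹) = s ^ f := by rw [conj_order, hz₀]
    have hp1 : IsPGroup s (Subgroup.zpowers (g * z₀ * g⁻¹)) :=
      IsPGroup.of_card (n := f) (by rw [Nat.card_zpowers, hord])
    have hn : (T : Subgroup G) ≤ Subgroup.normalizer ((Subgroup.zpowers (g * z₀ * g⁻¹) : Subgroup G) : Set G) := by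
      intro u hu
      rw [Subgroup.mem_normalizer_iff]
      intro w
      have hcu : Commute u (g * z₀ * g⁻¹) := hcomm u hu
      constructor
      · rintro ⟨i, rfl⟩
        refine ⟨i, ?_⟩
        show (g * z₀ * g⁻¹) ^ i = u * (g * z₀ * g⁻¹) ^ i * u⁻¹
        rw [((hcu.zpow_right i).eq), mul_inv_cancel_right]
      · rintro ⟨i, hi⟩
        refine ⟨i, ?_⟩
        have hi' : (g * z₀ * g⁻¹) ^ i = u * w * u⁻¹ := hi
        have h2 : u * w * u⁻¹ * u = u * w := by group
        show (g * z₀ * g⁻¹) ^ i = w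
        have h3 : u * (g * z₀ * g⁻¹) ^ i = (g * z₀ * g⁻¹) ^ i * u := (hcu.zpow_right i).eq
        rw [hi'] at h3
        have h4 : u * (u * w * u⁻¹) = u * w := by
          rw [h3, h2]
        have h5 := mul_left_cancel h4
        rw [hi', h5]
    have hsup : IsPGroup s ↥((T : Subgroup G) ⊔ Subgroup.zpowers (g * z₀ * g⁻¹)) :=
      IsPGroup.to_sup_of_normal_right' T.isPGroup' hp1 hn
    have heq := T.is_maximal' hsup le_sup_left
    rw [← heq]
    exact (le_sup_right : Subgroup.zpowers (g * z₀ * g⁻¹) ≤ _) (Subgroup.mem_zpowers _)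
  exact ⟨g * z₀ * g⁻¹, hzT, by rw [index_cz_conj, hz₀m], hcomm, f, by rw [conj_order, hz₀]⟩

theorem exists_nc_of_dvd_m {t : ℕ} (ht : t.Prime) (htm : t ∣ m) :
    ∃ (e : ℕ) (x : G), orderOf x = t ^ e ∧ x ∉ Subgroup.center G := by
  haveI : Fact t.Prime := ⟨ht⟩
  obtain ⟨x, hx⟩ := S.hexm
  obtain ⟨u, e, hu, hux⟩ := exists_nc_elt (D := cz x) (t := t) (by rw [hx]; exact htm)
  exact ⟨e, u, hu, fun h => hux (center_le_cz x h)⟩

theorem exists_nc_in_class_m {t : ℕ} (ht : t.Prime) (htm : t ∣ m) {y : G} (hym : (cz y).index = m) :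
    ∃ a ∈ cz y, a ∉ Subgroup.center G ∧ ∃ f : ℕ, orderOf a = t ^ f := by
  obtain ⟨e, x, hx, hxZ⟩ := S.exists_nc_of_dvd_m ht htm
  apply exists_nc_of_card_dvd ht hx hxZ
  apply card_cz_dvd_of_index_dvd
  rw [hym]
  exact S.dvd_index hxZ

theorem not_two_primes_aux {q₁ q₂ s r e : ℕ} (hq₁ : q₁.Prime) (hq₂ : q₂.Prime) (hne : q₁ ≠ q₂) (h1 : q₁ ∣ m) (h2 : q₂ ∣ m)
    (hs : s.Prime) (hsn : s ∣ n) (hr : r.Prime) (hrs : r ≠ s) {y : G} (hy : orderOf y = r ^ e) (hym : (cz y).index = m)
    (hq₂r : q₂ ≠ r) : False := by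
  classical
  have hndvd : ∀ t : ℕ, t.Prime → t ∣ m → t ≠ s := by
    rintro t ht htm rfl
    have := Nat.dvd_gcd htm hsn
    rw [S.hcop] at this
    exact ht.one_lt.ne' (Nat.dvd_one.mp this)
  have hm := S.hm
  have hm0 : 0 < m := by omega
  obtain ⟨a₂, ha₂, ha₂Z, f₂, hf₂⟩ := S.exists_nc_in_class_m hq₂ h2 hym
  obtain ⟨a₁, ha₁, ha₁Z, f₁, hf₁⟩ := S.exists_nc_in_class_m hq₁ h1 hym
  have hc₂ := central_in_cz hr hm S.hcls hy hym hs hrs.symm hsn hq₂ hq₂r (hndvd _ hq₂ h2) ha₂ hf₂
  have hle₂ : cz y ≤ cz a₂ := fun g hg => mem_cz.mpr (hc₂ g hg)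
  have heq₂ := cz_eq_of_central S.hcls hm0 S.m_lt hym hle₂ ha₂Z
  have hym₂ : (cz a₂).index = m := by rw [heq₂, hym]
  have hpp : ∀ t e : ℕ, t.Prime → t ≠ s → ∀ v ∈ cz y, orderOf v = t ^ e → ∀ g ∈ cz y, g * v = v * g := by
    intro t e' ht hts v hv hvo
    by_cases htr : t = r
    · subst htr
      have hv' : v ∈ cz a₂ := by rwa [heq₂]
      have := central_in_cz hq₂ hm S.hcls hf₂ hym₂ hs (hndvd _ hq₂ h2).symm hsn ht hq₂r.symm hts hv' hvo
      intro g hg
      exact this g (by rwa [heq₂])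
    · exact central_in_cz hr hm S.hcls hy hym hs hrs.symm hsn ht htr hts hv hvo
  have hSt : Struct s (cz y) := by
    constructor
    · intro a ha hco b hb
      have := central_of_pp (C := cz y) (fun t => t ≠ s) hpp a ha (by
        rintro t ht htd rfl
        have := Nat.Coprime.coprime_dvd_left htd hco
        rw [Nat.coprime_self] at this
        exact ht.one_lt.ne' this)
        b hb
      exact this.symm
    · intro a ha hco haZ g hg
      have hcen : ∀ b ∈ cz y, b * a = a * b := by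
        intro b hb
        exact central_of_pp (C := cz y) (fun t => t ≠ s) hpp a ha (by
          rintro t ht htd rfl
          have := Nat.Coprime.coprime_dvd_left htd hco
          rw [Nat.coprime_self] at this
          exact ht.one_lt.ne' this) b hb
      have hle : cz y ≤ cz a := fun b hb => mem_cz.mpr (hcen b hb)
      have heq := cz_eq_of_central S.hcls hm0 S.m_lt hym hle haZ
      rw [← heq]
      exact mem_cz.mpr hg
  haveI : Fact q₁.Prime := ⟨hq₁⟩
  haveI : Fact q₂.Prime := ⟨hq₂⟩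
  obtain ⟨Q₁, hQ₁⟩ := exists_sylow_of_orderOf hf₁
  obtain ⟨Q₂, hQ₂⟩ := exists_sylow_of_orderOf hf₂
  have hnl : ∀ (t : ℕ) [Fact t.Prime] (T : Sylow t G), t ∣ m → ¬ (T : Subgroup G) ≤ cz y := by
    intro t _ T ht hle
    apply T.not_dvd_index
    have h3 : t ∣ (cz y).index := by rw [hym]; exact ht
    exact h3.trans (Subgroup.index_dvd_of_le hle)
  exact two_prime hs hSt hq₁ hq₂ hne (hndvd _ hq₁ h1) (hndvd _ hq₂ h2) Q₁.isPGroup' Q₂.isPGroup'
    (hnl _ Q₁ h1) (hnl _ Q₂ h2) hQ₁ ha₁ ha₁Z hQ₂ ha₂ ha₂Z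

/-- `m` has at most one prime divisor. -/
theorem not_two_primes {q₁ q₂ : ℕ} (hq₁ : q₁.Prime) (hq₂ : q₂.Prime) (hne : q₁ ≠ q₂) (h1 : q₁ ∣ m) (h2 : q₂ ∣ m) : False := by
  classical
  obtain ⟨s, hs, hsn⟩ := Nat.exists_prime_and_dvd (ne_of_gt S.hn)
  have hndvd : ∀ t : ℕ, t.Prime → t ∣ m → t ≠ s := by
    rintro t ht htm rfl
    have := Nat.dvd_gcd htm hsn
    rw [S.hcop] at this
    exact ht.one_lt.ne' (Nat.dvd_one.mp this)
  by_cases hall : ∀ (r e : ℕ) (y : G), r.Prime → orderOf y = r ^ e → (cz y).index = m → r = s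
  · have hcl : Cl s (m * n) G := by
      intro x hx
      by_cases hxZ : x ∈ Subgroup.center G
      · exact Or.inl (cz_index_eq_one_iff.mpr hxZ)
      · right
        obtain ⟨t, e, x', ht, he, hz, hnc⟩ := exists_pp_part x hxZ
        have hts : t ≠ s := by
          rintro rfl
          exact not_pp_part ht hx hz he hnc
        have hb : (cz x').index = m * n := by
          rcases S.index_cases hnc with h | h
          · exact absurd (hall t e x' ht he h) hts
          · exact h
        have hd := index_dvd_of_mem_zpowers hz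
        rw [hb] at hd
        rcases S.index_cases hxZ with h | h
        · rw [h] at hd
          have := Nat.le_of_dvd (by have := S.hm; omega) hd
          have := S.m_lt
          omega
        · exact h
    obtain ⟨e, x₀, hx₀, hx₀Z⟩ := S.exists_nc_of_dvd_m hq₁ h1
    have hx₀c : (orderOf x₀).Coprime s := by
      rw [hx₀]
      exact Nat.Coprime.pow_left _ ((Nat.coprime_primes hq₁ hs).mpr (hndvd _ hq₁ h1))
    exact no_two_primes hcl hq₁ hq₂ hne (hndvd _ hq₁ h1) (hndvd _ hq₂ h2) hs (h1.trans (dvd_mul_right _ _))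
      (h2.trans (dvd_mul_right _ _)) hx₀c hx₀Z
  · push Not at hall
    obtain ⟨r, e, y, hr, hy, hym, hrs⟩ := hall
    by_cases hq₂r : q₂ = r
    · exact S.not_two_primes_aux hq₂ hq₁ hne.symm h2 h1 hs hsn hr hrs hy hym (by rw [← hq₂r]; exact hne)
    · exact S.not_two_primes_aux hq₁ hq₂ hne h1 h2 hs hsn hr hrs hy hym hq₂r

theorem m_prime_pow : ∃ (q c : ℕ), q.Prime ∧ m = q ^ c ∧ c ≠ 0 := by
  obtain ⟨q, hq, hqm⟩ := Nat.exists_prime_and_dvd (ne_of_gt S.hm)
  have h0 : m ≠ 0 := by have := S.hm; omega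
  have h1 : m = q ^ m.primeFactorsList.length := by
    apply Nat.eq_prime_pow_of_unique_prime_dvd h0
    intro d hd hdm
    by_contra hne
    exact S.not_two_primes hd hq hne hdm hqm
  refine ⟨q, _, hq, h1, ?_⟩
  intro h2
  rw [h2, pow_zero] at h1
  have := S.hm
  omega

end Setup

end Cfsg.Agent.H13.TC
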