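import Mathlib
import Cfsg.Agent.Lib.H13.TC1
import Cfsg.Agent.Lib.H01.Fitting

/-!
Groups with class sizes `1, m, m*n`: general group theory.
-/

set_option autoImplicit false
set_option linter.style.haveILetI false
set_option linter.unusedSectionVars false
set_option linter.unusedVariables false
set_option linter.unnecessarySeqFocus false
set_option linter.style.multiGoal false

namespace Cfsg.Agent.H13.TC

open Cfsg H19 RT
open scoped commutatorElement

universe u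

theorem exists_fix_all {P : Type*} [Group P] [Group.IsNilpotent P] (S : P → Prop) (T : Subgroup P)
    (hS : ∀ x g, S x → S ⁅x, g⁆) {a₀ : P} (h₀ : S a₀) (h₀' : a₀ ∉ T) : ∃ a, S a ∧ a ∉ T ∧ ∀ g, ⁅a, g⁆ ∈ T := by
  classical
  obtain ⟨c, hc⟩ := Group.IsNilpotent.nilpotent (G := P)
  have key : ∀ (k : ℕ) (a : P), a ∈ Subgroup.upperCentralSeries P k → S a → a ∉ T → ∃ a, S a ∧ a ∉ T ∧ ∀ g, ⁅a, g⁆ ∈ T := by
    intro k
    induction k with
    | zero =>
      intro a ha hSa haT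
      have : a = 1 := by simpa using ha
      rw [this] at haT
      exact absurd T.one_mem haT
    | succ k ih =>
      intro a ha hSa haT
      by_cases h : ∀ g, ⁅a, g⁆ ∈ T
      · exact ⟨a, hSa, haT, h⟩
      · push Not at h
        obtain ⟨g, hg⟩ := h
        refine ih ⁅a, g⁆ ?_ (hS _ _ hSa) hg
        exact Subgroup.mem_upperCentralSeries_succ_iff.mp ha g
  exact key c a₀ (by rw [hc]; exact Subgroup.mem_top _) h₀ h₀'

variable {G : Type u} [Group G] [Finite G]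

theorem exists_z2_normal {q : ℕ} [hq : Fact q.Prime] {Q N : Subgroup G} (hQ : IsPGroup q Q) (hNQ : N ≤ Q)
    (hN : ∀ g ∈ Q, ∀ a ∈ N, g * a * g⁻¹ ∈ N) (hNZ : ¬ N ≤ Subgroup.center G) :
    ∃ a ∈ N, a ∉ Subgroup.center G ∧ (∀ g ∈ Q, g * a * g⁻¹ * a⁻¹ ∈ Subgroup.center G) ∧ a ^ q ∈ Subgroup.center G := by
  classical
  haveI : Group.IsNilpotent Q := hQ.isNilpotent
  obtain ⟨a₀, ha₀N, ha₀Z⟩ := SetLike.not_le_iff_exists.mp hNZ
  obtain ⟨a, haN, haZ, ha⟩ := exists_fix_all (P := Q) (fun x => (x : G) ∈ N) ((Subgroup.center G).subgroupOf Q)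
    (by
      intro x g hx
      have h1 : ((⁅x, g⁆ : Q) : G) = (x : G) * ((g : G) * (x : G)⁻¹ * (g : G)⁻¹) := by
        simp [commutatorElement_def, mul_assoc]
      show ((⁅x, g⁆ : Q) : G) ∈ N
      rw [h1]
      exact N.mul_mem hx (hN _ g.2 _ (N.inv_mem hx)))
    (a₀ := ⟨a₀, hNQ ha₀N⟩) ha₀N (by
      intro h
      exact ha₀Z h)
  have haZ' : (a : G) ∉ Subgroup.center G := haZ
  have hcomm : ∀ g ∈ Q, g * (a : G) * g⁻¹ * (a : G)⁻¹ ∈ Subgroup.center G := by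
    intro g hg
    have h1 : ((⁅a, (⟨g, hg⟩ : Q)⁆ : Q) : G) ∈ Subgroup.center G := ha _
    have h2 : g * (a : G) * g⁻¹ * (a : G)⁻¹ = (((⁅a, (⟨g, hg⟩ : Q)⁆ : Q) : G))⁻¹ := by
      simp [commutatorElement_def]
      group
    rw [h2]
    exact (Subgroup.center G).inv_mem h1
  obtain ⟨e, he⟩ := elt_of_pgroup hq.out hQ a.2
  have hex : ∃ j : ℕ, (a : G) ^ (q ^ j) ∈ Subgroup.center G := by
    refine ⟨e, ?_⟩
    rw [← he, pow_orderOf_eq_one]
    exact (Subgroup.center G).one_mem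
  have hj0 : Nat.find hex ≠ 0 := by
    intro h0
    have := Nat.find_spec hex
    rw [h0] at this
    simp at this
    exact haZ' this
  obtain ⟨j, hj⟩ := Nat.exists_eq_succ_of_ne_zero hj0
  refine ⟨(a : G) ^ (q ^ j), N.pow_mem haN _, ?_, ?_, ?_⟩
  · exact Nat.find_min hex (m := j) (by rw [hj]; exact Nat.lt_succ_self j)
  · intro g hg
    have h1 := hcomm g hg
    set ζ := g * (a : G) * g⁻¹ * (a : G)⁻¹ with hζ
    have h2 : g * (a : G) * g⁻¹ = ζ * a := by rw [hζ]; group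
    have hcz : Commute ζ (a : G) := (Subgroup.mem_center_iff.mp h1 a).symm
    have h3 : g * (a : G) ^ (q ^ j) * g⁻¹ = ζ ^ (q ^ j) * (a : G) ^ (q ^ j) := by
      rw [← conj_pow, h2, hcz.mul_pow]
    rw [h3]
    simp only [mul_inv_cancel_right]
    exact (Subgroup.center G).pow_mem h1 _
  · have := Nat.find_spec hex
    rw [hj, pow_succ, pow_mul] at this
    exact this

section identity

variable {A : Type*} [CommGroup A]

theorem prod_reindex {q i : ℕ} (hq : q.Prime) (hi0 : 0 < i) (hiq : i < q) (τ : Monoid.End A) (hτ : τ ^ q = 1) (k : A) :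
    ∏ t ∈ Finset.range q, (τ ^ (t * i)) k = ∏ j ∈ Finset.range q, (τ ^ j) k := by
  have hco : Nat.gcd q i = 1 := Nat.coprime_of_lt_prime hi0.ne' hiq hq
  have hinj : Set.InjOn (fun t => t * i % q) (Finset.range q : Set ℕ) := by
    intro a ha b hb hab
    have ha' : a < q := by simpa using ha
    have hb' : b < q := by simpa using hb
    have h1 : a * i ≡ b * i [MOD q] := hab
    exact Nat.ModEq.eq_of_lt_of_lt (Nat.ModEq.cancel_right_of_coprime hco h1) ha' hb'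
  refine Finset.prod_nbij (fun t => t * i % q) ?_ hinj ?_ ?_
  · intro a _
    exact Finset.mem_range.mpr (Nat.mod_lt _ hq.pos)
  · apply Finset.surjOn_of_injOn_of_card_le _ _ hinj (le_refl _)
    intro a _
    exact Finset.mem_coe.mpr (Finset.mem_range.mpr (Nat.mod_lt _ hq.pos))
  · intro a _
    show (τ ^ (a * i)) k = (τ ^ (a * i % q)) k
    rw [← pow_eq_pow_mod (a * i) hτ]

/-- The norm of `ρ`. -/
def nrm (q : ℕ) (ρ : Monoid.End A) (k : A) : A := ∏ i ∈ Finset.range q, (ρ ^ i) k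

theorem nrm_fixed {q : ℕ} (ρ : Monoid.End A) (hρ : ρ ^ q = 1) (k : A) : ρ (nrm q ρ k) = nrm q ρ k := by
  unfold nrm
  rw [map_prod]
  have h1 := Finset.prod_range_succ (fun i => (ρ ^ i) k) q
  have h2 := Finset.prod_range_succ' (fun i => (ρ ^ i) k) q
  rw [h1] at h2
  have h3 : (ρ ^ q) k = (ρ ^ 0) k := by rw [hρ, pow_zero]
  rw [h3] at h2
  have h4 := mul_right_cancel h2
  rw [h4]
  apply Finset.prod_congr rfl
  intro i _
  rw [pow_succ']
  rfl

/-- If a rank two elementary abelian group of exponent `q` has all its non-trivial elements with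
fixed points in `W`, then all `q`-th powers lie in `W`. -/
theorem no_c2_core {q : ℕ} (hq : q.Prime) (σ τ : Monoid.End A) (hc : Commute σ τ) (hσ : σ ^ q = 1) (hτ : τ ^ q = 1)
    (W : Subgroup A) (hfix1 : ∀ (t : ℕ) (x : A), (σ * τ ^ t) x = x → x ∈ W) (hfix2 : ∀ x : A, τ x = x → x ∈ W)
    (hW : ∀ x ∈ W, σ x = x) (k : A) : k ^ q ∈ W := by
  have hρ : ∀ t : ℕ, (σ * τ ^ t) ^ q = 1 := by
    intro t
    rw [(hc.pow_right t).mul_pow, hσ, ← pow_mul, mul_comm, pow_mul, hτ, one_pow, one_mul]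
  have hN : ∀ t : ℕ, nrm q (σ * τ ^ t) k ∈ W := fun t => hfix1 t _ (nrm_fixed _ (hρ t) k)
  have hw : nrm q τ k ∈ W := hfix2 _ (nrm_fixed _ hτ k)
  set w := nrm q τ k with hwdef
  have hprod : ∏ t ∈ Finset.range q, nrm q (σ * τ ^ t) k ∈ W := Subgroup.prod_mem _ (fun t _ => hN t)
  obtain ⟨q', hq'⟩ : ∃ q', q = q' + 1 := ⟨q - 1, by have := hq.pos; omega⟩
  have hid : ∏ t ∈ Finset.range q, nrm q (σ * τ ^ t) k = w ^ q' * k ^ q := by
    unfold nrm
    rw [Finset.prod_comm]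
    conv_lhs => rw [hq', Finset.prod_range_succ']
    congr 1
    · have h1 : ∀ i ∈ Finset.range q', ∏ t ∈ Finset.range (q' + 1), ((σ * τ ^ t) ^ (i + 1)) k = w := by
        intro i hi
        have hi' : i < q' := Finset.mem_range.mp hi
        have h2 : ∀ t, ((σ * τ ^ t) ^ (i + 1)) k = (σ ^ (i + 1)) ((τ ^ (t * (i + 1))) k) := by
          intro t
          rw [(hc.pow_right t).mul_pow, ← pow_mul]
          rfl
        simp_rw [h2]
        rw [← map_prod]
        have h3 := prod_reindex (i := i + 1) hq (Nat.succ_pos _) (by omega) τ hτ k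
        rw [← hq', h3]
        have h4 : (σ ^ (i + 1)) w = w := by
          have : ∀ j : ℕ, (σ ^ j) w = w := by
            intro j
            induction j with
            | zero => rfl
            | succ j ih =>
              rw [pow_succ']
              show σ ((σ ^ j) w) = w
              rw [ih]
              exact hW _ hw
          exact this _
        exact h4
      rw [Finset.prod_congr rfl h1, Finset.prod_const, Finset.card_range]
    · simp [hq']
  rw [hid] at hprod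
  have h5 : k ^ q = (w ^ q')⁻¹ * (w ^ q' * k ^ q) := by group
  rw [h5]
  exact W.mul_mem (W.inv_mem (W.pow_mem hw _)) hprod

end identity

variable {X : Type u} [Group X] [Finite X]

/-- In a group where `s`-elements have `s`-power class sizes, `q`-elements commute with `s`-elements. -/
theorem comm_q_s {q s : ℕ} [hq : Fact q.Prime] [hs : Fact s.Prime] (hqs : q ≠ s)
    (hreg : ∀ (v : X) (f : ℕ), orderOf v = s ^ f → ∃ k, (cz v).index = s ^ k) {a v : X} {e f : ℕ}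
    (ha : orderOf a = q ^ e) (hv : orderOf v = s ^ f) : a * v = v * a := by
  classical
  set R := pCore s X with hR
  haveI hRn : R.Normal := H01.pCore_normal s
  have hRp : IsPGroup s R := H01.pCore_isPGroup s
  have hRs : ∀ (u : X) (f : ℕ), orderOf u = s ^ f → u ∈ R := by
    intro u f hu
    obtain ⟨k, hk⟩ := hreg u f hu
    rw [hR, H01.pCore_eq_iInf_sylow, Subgroup.mem_iInf]
    intro P
    exact mem_sylow_of_pp_index hu hk P
  have hRi : ¬ s ∣ R.index := by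
    intro h
    obtain ⟨y, e', hy, hyR⟩ := exists_nc_elt h
    exact hyR (hRs y e' hy)
  obtain ⟨P, hP⟩ := exists_sylow_of_orderOf ha
  let D : Subgroup R := (Subgroup.centralizer ((P : Subgroup X) : Set X)).subgroupOf R
  have hD : D = ⊤ := by
    apply eq_top_of_conj_cover
    intro r₀
    obtain ⟨f₀, hf₀⟩ := elt_of_pgroup hs.out hRp r₀.2
    obtain ⟨k, hk⟩ := hreg r₀ f₀ hf₀
    have hqd : ¬ q ∣ (cz (r₀ : X)).index := by
      rw [hk]
      intro h
      have := (Nat.prime_dvd_prime_iff_eq hq.out hs.out).mp (hq.out.dvd_of_dvd_pow h)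
      exact hqs this
    obtain ⟨P₁, hP₁⟩ := exists_sylow_le_of_not_dvd hqd
    obtain ⟨g, hg⟩ := MulAction.exists_smul_eq X P₁ P
    have hsup : R ⊔ cz (r₀ : X) = ⊤ := by
      rw [← Subgroup.index_eq_one]
      have h1 : (R ⊔ cz (r₀ : X)).index ∣ R.index := Subgroup.index_dvd_of_le le_sup_left
      have h2 : (R ⊔ cz (r₀ : X)).index ∣ s ^ k := by
        rw [← hk]
        exact Subgroup.index_dvd_of_le le_sup_right
      by_contra hne
      obtain ⟨j, _, hj⟩ := (Nat.dvd_prime_pow hs.out).mp h2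
      rcases Nat.eq_zero_or_pos j with h0 | h0
      · rw [h0, pow_zero] at hj
        exact hne hj
      · apply hRi
        rw [hj] at h1
        exact (dvd_pow_self s h0.ne').trans h1
    have hgm : g ∈ ((R ⊔ cz (r₀ : X) : Subgroup X) : Set X) := by
      rw [hsup]
      exact Set.mem_univ _
    rw [Subgroup.normal_mul] at hgm
    obtain ⟨r, hr, c, hc, hrc⟩ := Set.mem_mul.mp hgm
    have hrc' : r * c = g := hrc
    refine ⟨⟨r, hr⟩, ?_⟩
    show ((⟨r, hr⟩ : R) * r₀ * (⟨r, hr⟩ : R)⁻¹ : R).1 ∈ Subgroup.centralizer ((P : Subgroup X) : Set X)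
    rw [Subgroup.mem_centralizer_iff]
    intro p hp
    have hp' : p ∈ ((g • P₁ : Sylow q X) : Subgroup X) := by
      rw [hg]
      exact hp
    rw [Sylow.coe_subgroup_smul] at hp'
    obtain ⟨p₁, hp₁, hp₁e⟩ := hp'
    have hpe : g * p₁ * g⁻¹ = p := hp₁e
    have hc' := mem_cz.mp hc
    have hcm : c * p₁ * c⁻¹ ∈ cz (r₀ : X) :=
      (cz (r₀ : X)).mul_mem ((cz (r₀ : X)).mul_mem hc (hP₁ hp₁)) ((cz (r₀ : X)).inv_mem hc)
    have hcm' := mem_cz.mp hcm
    simp only [Subgroup.coe_mul, Subgroup.coe_inv]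
    have hp2 : p = r * (c * p₁ * c⁻¹) * r⁻¹ := by
      rw [← hpe, ← hrc']
      group
    rw [hp2]
    exact commute_conj hcm'
  have hvR : v ∈ R := hRs v f hv
  have hvD : (⟨v, hvR⟩ : R) ∈ D := by
    rw [hD]
    exact Subgroup.mem_top _
  have := Subgroup.mem_centralizer_iff.mp hvD a hP
  exact this

/-- Conjugation on a stable subgroup. -/
def cjEnd (Y : Subgroup G) (g : G) (hg : ∀ y ∈ Y, g * y * g⁻¹ ∈ Y) : Y →* Y where
  toFun y := ⟨g * y * g⁻¹, hg y y.2⟩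
  map_one' := by ext; simp
  map_mul' a b := by
    ext
    show g * ((a : G) * b) * g⁻¹ = (g * a * g⁻¹) * (g * b * g⁻¹)
    group

theorem no_c2 {q : ℕ} (hq : q.Prime) {Y : Subgroup G} {x₁ x₂ : G}
    (hY : ∀ a ∈ Y, ∀ b ∈ Y, a * b = b * a)
    (h1 : ∀ y ∈ Y, x₁ * y * x₁⁻¹ ∈ Y) (h2 : ∀ y ∈ Y, x₂ * y * x₂⁻¹ ∈ Y)
    (h1q : ∀ y ∈ Y, x₁ ^ q * y * (x₁ ^ q)⁻¹ = y) (h2q : ∀ y ∈ Y, x₂ ^ q * y * (x₂ ^ q)⁻¹ = y)
    (hc : ∀ y ∈ Y, (x₁ * x₂) * y * (x₁ * x₂)⁻¹ = (x₂ * x₁) * y * (x₂ * x₁)⁻¹)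
    (hfix1 : ∀ t : ℕ, ∀ y ∈ Y, (x₁ * x₂ ^ t) * y * (x₁ * x₂ ^ t)⁻¹ = y → y ∈ Subgroup.center G)
    (hfix2 : ∀ y ∈ Y, x₂ * y * x₂⁻¹ = y → y ∈ Subgroup.center G) :
    ∀ k ∈ Y, k ^ q ∈ Subgroup.center G := by
  classical
  letI cg : CommGroup Y := { (inferInstance : Group Y) with mul_comm := fun a b => Subtype.ext (hY a a.2 b b.2) }
  let σ : Monoid.End Y := cjEnd Y x₁ h1
  let τ : Monoid.End Y := cjEnd Y x₂ h2
  have hpow : ∀ (ρ : Monoid.End Y) (g : G), (∀ y : Y, ((ρ y : Y) : G) = g * y * g⁻¹) → ∀ (j : ℕ) (y : Y),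
      (((ρ ^ j) y : Y) : G) = g ^ j * y * (g ^ j)⁻¹ := by
    intro ρ g hρ j y
    induction j with
    | zero =>
      have : (((ρ ^ 0) y : Y) : G) = y := rfl
      rw [this]
      simp
    | succ j ih =>
      have h3 : (ρ ^ (j + 1)) y = ρ ((ρ ^ j) y) := by
        rw [pow_succ']
        rfl
      rw [h3, hρ, ih, pow_succ']
      group
  have hσ : σ ^ q = 1 := by
    ext y
    rw [hpow σ x₁ (fun _ => rfl)]
    exact h1q y y.2
  have hτ : τ ^ q = 1 := by
    ext y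
    rw [hpow τ x₂ (fun _ => rfl)]
    exact h2q y y.2
  have hcomm : Commute σ τ := by
    ext y
    show x₁ * (x₂ * y * x₂⁻¹) * x₁⁻¹ = x₂ * (x₁ * y * x₁⁻¹) * x₂⁻¹
    have := hc y y.2
    calc x₁ * (x₂ * y * x₂⁻¹) * x₁⁻¹ = (x₁ * x₂) * y * (x₁ * x₂)⁻¹ := by group
      _ = (x₂ * x₁) * y * (x₂ * x₁)⁻¹ := this
      _ = x₂ * (x₁ * y * x₁⁻¹) * x₂⁻¹ := by group
  intro k hk
  have := no_c2_core hq σ τ hcomm hσ hτ ((Subgroup.center G).subgroupOf Y)
    (by
      intro t x hx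
      have h3 : ((σ * τ ^ t) x : G) = x := congrArg Subtype.val hx
      have h4 : ((σ * τ ^ t) x : G) = x₁ * (x₂ ^ t * x * (x₂ ^ t)⁻¹) * x₁⁻¹ := by
        show x₁ * (((τ ^ t) x : Y) : G) * x₁⁻¹ = _
        rw [hpow τ x₂ (fun _ => rfl)]
      rw [h4] at h3
      have h5 : (x₁ * x₂ ^ t) * (x : G) * (x₁ * x₂ ^ t)⁻¹ = x₁ * (x₂ ^ t * x * (x₂ ^ t)⁻¹) * x₁⁻¹ := by group
      exact hfix1 t x x.2 (h5.trans h3))
    (by
      intro x hx
      exact hfix2 x x.2 (congrArg Subtype.val hx))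
    (by
      intro x hx
      ext
      show x₁ * x * x₁⁻¹ = x
      have := Subgroup.mem_center_iff.mp (show (x : G) ∈ Subgroup.center G from hx) x₁
      rw [this]
      group)
    (⟨k, hk⟩ : Y)
  exact this

theorem index_eq_q_or {q : ℕ} (hq : q.Prime) {B Y : Subgroup G} {a₀ : G}
    (h1 : ∀ g ∈ B, g * a₀ * g⁻¹ * a₀⁻¹ ∈ Subgroup.center G) (h2 : a₀ ^ q ∈ Subgroup.center G)
    (hA : ∀ g ∈ B, g ∈ cz a₀ → ∀ y ∈ Y, g * y = y * g)
    (hY : ∀ a ∈ Y, ∀ b ∈ Y, a * b = b * a)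
    (hN : ∀ g ∈ B, ∀ y ∈ Y, g * y * g⁻¹ ∈ Y)
    (hfix : ∀ b ∈ B, b ∉ cz a₀ → ∀ y ∈ Y, b * y * b⁻¹ = y → y ∈ Subgroup.center G)
    (hne : (cz a₀).relIndex B ≠ 1) :
    (cz a₀).relIndex B = q ∨ ∀ y ∈ Y, y ^ q ∈ Subgroup.center G := by
  classical
  haveI : Fact q.Prime := ⟨hq⟩
  have hzc : ∀ {z w : G}, z ∈ Subgroup.center G → z * w = w * z := fun hz => (Subgroup.mem_center_iff.mp hz _).symm
  let f : B →* Subgroup.center G :=
    { toFun := fun g => ⟨(g : G) * a₀ * (g : G)⁻¹ * a₀⁻¹, h1 g g.2⟩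
      map_one' := by ext; simp
      map_mul' := by
        intro g h
        ext
        have hh := h1 h h.2
        set ζ := (h : G) * a₀ * (h : G)⁻¹ * a₀⁻¹ with hζ
        have h3 : (h : G) * a₀ * (h : G)⁻¹ = ζ * a₀ := by rw [hζ]; group
        show ((g * h : B) : G) * a₀ * ((g * h : B) : G)⁻¹ * a₀⁻¹ = (g : G) * a₀ * (g : G)⁻¹ * a₀⁻¹ * ζ
        have h4 : ((g * h : B) : G) * a₀ * ((g * h : B) : G)⁻¹ = (g : G) * ((h : G) * a₀ * (h : G)⁻¹) * (g : G)⁻¹ := by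
          simp only [Subgroup.coe_mul]
          group
        rw [h4, h3]
        have h5 : (g : G) * (ζ * a₀) * (g : G)⁻¹ = ζ * ((g : G) * a₀ * (g : G)⁻¹) := by
          have : (g : G) * ζ = ζ * g := (hzc hh).symm
          calc (g : G) * (ζ * a₀) * (g : G)⁻¹ = ((g : G) * ζ) * a₀ * (g : G)⁻¹ := by group
            _ = (ζ * g) * a₀ * (g : G)⁻¹ := by rw [this]
            _ = _ := by group
        rw [h5]
        have h6 : ζ * ((g : G) * a₀ * (g : G)⁻¹) * a₀⁻¹ = ζ * ((g : G) * a₀ * (g : G)⁻¹ * a₀⁻¹) := by group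
        rw [h6]
        exact hzc hh }
  have hfv : ∀ g : B, ((f g : Subgroup.center G) : G) = (g : G) * a₀ * (g : G)⁻¹ * a₀⁻¹ := fun g => rfl
  have hker : ∀ g : B, f g = 1 ↔ (g : G) ∈ cz a₀ := by
    intro g
    rw [mem_cz, Subtype.ext_iff, hfv]
    constructor
    · intro h
      have h3 : (g : G) * a₀ * (g : G)⁻¹ * a₀⁻¹ = 1 := h
      have h4 : (g : G) * a₀ * (g : G)⁻¹ = a₀ := mul_inv_eq_one.mp h3
      calc (g : G) * a₀ = (g : G) * a₀ * (g : G)⁻¹ * g := by group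
        _ = a₀ * g := by rw [h4]
    · intro h
      rw [h]
      show a₀ * (g : G) * (g : G)⁻¹ * a₀⁻¹ = 1
      group
  have hfq : ∀ g : B, (f g) ^ q = 1 := by
    intro g
    ext
    rw [Subgroup.coe_pow, hfv]
    set ζ := (g : G) * a₀ * (g : G)⁻¹ * a₀⁻¹ with hζ
    have hζz : ζ ∈ Subgroup.center G := h1 g g.2
    have h3 : (g : G) * a₀ * (g : G)⁻¹ = ζ * a₀ := by rw [hζ]; group
    have h4 : (g : G) * a₀ ^ q * (g : G)⁻¹ = ζ ^ q * a₀ ^ q := by
      rw [← conj_pow, h3, (show Commute ζ a₀ from hzc hζz).mul_pow]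
    rw [Subgroup.mem_center_iff.mp h2 g, mul_inv_cancel_right] at h4
    have h5 : ζ ^ q * a₀ ^ q = 1 * a₀ ^ q := by rw [← h4, one_mul]
    exact mul_right_cancel h5
  have hk : f.ker = (cz a₀).subgroupOf B := by
    ext g
    rw [MonoidHom.mem_ker, hker]
    rfl
  have hcard : (cz a₀).relIndex B = Nat.card f.range := by
    rw [Subgroup.relIndex, ← hk, Subgroup.index_ker]
  have hB : ¬ B ≤ cz a₀ := by
    intro h
    exact hne (Subgroup.relIndex_eq_one.mpr h)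
  obtain ⟨x₂', hx₂', hx₂c⟩ := SetLike.not_le_iff_exists.mp hB
  set x₂ : B := ⟨x₂', hx₂'⟩ with hx₂d
  have hx₂1 : f x₂ ≠ 1 := fun h => hx₂c ((hker x₂).mp h)
  have hord : orderOf (f x₂) = q := orderOf_eq_prime (hfq x₂) hx₂1
  by_cases hcy : ∀ g : B, f g ∈ Subgroup.zpowers (f x₂)
  · left
    rw [hcard]
    have hr : f.range = Subgroup.zpowers (f x₂) := by
      apply le_antisymm
      · rintro _ ⟨g, rfl⟩
        exact hcy g
      · rw [Subgroup.zpowers_le]
        exact ⟨x₂, rfl⟩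
    rw [hr, Nat.card_zpowers, hord]
  · right
    push Not at hcy
    obtain ⟨x₁, hx₁⟩ := hcy
    have hpowmem : ∀ (g : B), ∀ y ∈ Y, (g : G) ^ q * y * ((g : G) ^ q)⁻¹ = y := by
      intro g y hy
      have h3 : f (g ^ q) = 1 := by rw [map_pow, hfq]
      have h4 := (hker (g ^ q)).mp h3
      have h5 := hA _ (g ^ q).2 h4 y hy
      have h6 : ((g ^ q : B) : G) = (g : G) ^ q := rfl
      rw [h6] at h5
      rw [h5]
      group
    apply no_c2 (G := G) hq (x₁ := (x₁ : G)) (x₂ := (x₂ : G)) hY (hN _ x₁.2) (hN _ x₂.2) (hpowmem x₁) (hpowmem x₂)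
    · intro y hy
      let c : B := (x₂ * x₁)⁻¹ * (x₁ * x₂)
      have hc1 : f c = 1 := by
        simp only [c, map_mul, map_inv]
        have hcm : f x₂ * f x₁ = f x₁ * f x₂ := Subtype.ext (Subgroup.mem_center_iff.mp (f x₁).2 _)
        rw [hcm]
        group
      have hc2 := hA _ c.2 ((hker c).mp hc1) y hy
      have hc3 : (x₁ : G) * x₂ = ((x₂ : G) * x₁) * c := by
        simp only [c, Subgroup.coe_mul, Subgroup.coe_inv]
        group
      rw [hc3]
      calc ((x₂ : G) * x₁) * c * y * (((x₂ : G) * x₁) * c)⁻¹ = ((x₂ : G) * x₁) * (c * y) * (c : G)⁻¹ * ((x₂ : G) * x₁)⁻¹ := by group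
        _ = ((x₂ : G) * x₁) * (y * c) * (c : G)⁻¹ * ((x₂ : G) * x₁)⁻¹ := by rw [hc2]
        _ = _ := by group
    · intro t y hy hyf
      refine hfix _ (x₁ * x₂ ^ t).2 ?_ y hy hyf
      intro hb
      have h3 := (hker (x₁ * x₂ ^ t)).mpr hb
      rw [map_mul, map_pow] at h3
      apply hx₁
      rw [eq_inv_of_mul_eq_one_left h3]
      exact Subgroup.inv_mem _ (Subgroup.pow_mem _ (Subgroup.mem_zpowers _) _)
    · intro y hy hyf
      exact hfix _ x₂.2 hx₂c y hy hyf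

end Cfsg.Agent.H13.TC
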