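import Mathlib
import Cfsg.Agent.Lib.H13.TC2
import Cfsg.Agent.Lib.H13.RT8

/-!
Groups with class sizes `1, m, m*n`: the case of a `q`-element of class size `m`.
-/

set_option autoImplicit false
set_option linter.style.haveILetI false
set_option linter.unusedSectionVars false
set_option linter.unusedVariables false
set_option linter.unnecessarySeqFocus false
set_option linter.style.multiGoal false

namespace Cfsg.Agent.H13.TC

open Cfsg H19 RT

universe u

variable {G : Type u} [Group G] [Finite G]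

theorem mem_of_pow_mem {z : G} {r : ℕ} (hco : r.Coprime (orderOf z)) {D : Subgroup G} (h : z ^ r ∈ D) : z ∈ D := by
  obtain ⟨k, hk⟩ := exists_pow_eq_self_of_coprime hco
  rw [← hk]
  exact D.pow_mem h k

theorem exists_conj_mem_sylow {q e : ℕ} [Fact q.Prime] (Q : Sylow q G) {y : G} (hy : orderOf y = q ^ e) :
    ∃ g : G, g * y * g⁻¹ ∈ (Q : Subgroup G) := by
  obtain ⟨P, hP⟩ := exists_sylow_of_orderOf hy
  obtain ⟨g, hg⟩ := MulAction.exists_smul_eq G P Q
  refine ⟨g, ?_⟩
  rw [← hg, Sylow.coe_subgroup_smul]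
  exact ⟨y, hP, rfl⟩

namespace Setup

variable {m n q s c e : ℕ} (S : Setup m n G) (hq : q.Prime) (hmq : m = q ^ c) (hc : c ≠ 0) {y : G}
  (hy : orderOf y = q ^ e) (hym : (cz y).index = m) (hs : s.Prime) (hsn : s ∣ n)
include S hq hmq hc hy hym hs hsn

theorem q_dvd_m : q ∣ m := by
  rw [hmq]
  exact dvd_pow_self q hc

theorem q_ne_s : q ≠ s := by
  rintro rfl
  have := Nat.dvd_gcd (S.q_dvd_m hq hmq hc hy hym hs hsn) hsn
  rw [S.hcop] at this
  exact hq.one_lt.ne' (Nat.dvd_one.mp this)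

theorem not_dvd_m {t : ℕ} (ht : t.Prime) (htq : t ≠ q) : ¬ t ∣ m := by
  intro h
  rw [hmq] at h
  exact htq ((Nat.prime_dvd_prime_iff_eq ht hq).mp (ht.dvd_of_dvd_pow h))

theorem t1_reg (v : cz y) (f : ℕ) (hv : orderOf v = s ^ f) : ∃ k, (cz v).index = s ^ k := by
  have hqs := S.q_ne_s hq hmq hc hy hym hs hsn
  have hcl := cl_of_class_m hq S.hm S.hcls hy hym
  have hco : (orderOf v).Coprime q := by
    rw [hv]
    exact Nat.Coprime.pow_left _ ((Nat.coprime_primes hs hq).mpr hqs.symm)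
  rcases hcl v hco with h | h
  · exact ⟨0, by simpa using h⟩
  · have hn0 : n ≠ 0 := by have := S.hn; omega
    refine ⟨n.primeFactorsList.length, ?_⟩
    rw [h]
    apply Nat.eq_prime_pow_of_unique_prime_dvd hn0
    intro d hd hdn
    by_contra hne
    have hdq : d ≠ q := by
      rintro rfl
      have := Nat.dvd_gcd (S.q_dvd_m hd hmq hc hy hym hs hsn) hdn
      rw [S.hcop] at this
      exact hd.one_lt.ne' (Nat.dvd_one.mp this)
    have hnc : v ∉ Subgroup.center (cz y) := by
      intro hvz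
      have := cz_index_eq_one_iff.mpr hvz
      have := S.hn
      omega
    exact no_two_primes hcl hs hd (Ne.symm hne) hqs.symm hdq hq hsn hdn hco hnc

theorem t1_comm {a v : G} {i f t : ℕ} (ha : a ∈ cz y) (hao : orderOf a = q ^ i) (hv : v ∈ cz y)
    (ht : t.Prime) (hto : t ≠ q) (hvo : orderOf v = t ^ f) : a * v = v * a := by
  have hqs := S.q_ne_s hq hmq hc hy hym hs hsn
  by_cases hts : t = s
  · subst hts
    haveI : Fact q.Prime := ⟨hq⟩
    haveI : Fact t.Prime := ⟨hs⟩
    have h1 := comm_q_s (X := cz y) (q := q) (s := t) hqs (S.t1_reg hq hmq hc hy hym hs hsn)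
      (a := ⟨a, ha⟩) (v := ⟨v, hv⟩) (e := i) (f := f)
      (by rw [Subgroup.orderOf_mk, hao]) (by rw [Subgroup.orderOf_mk, hvo])
    exact congrArg Subtype.val h1
  · exact central_in_cz hq S.hm S.hcls hy hym hs hqs.symm hsn ht hto hts hv hvo a ha

theorem t1_class {a : G} {i : ℕ} (ha : a ∈ cz y) (hao : orderOf a = q ^ i) : ∃ k, (cz a).index = q ^ k := by
  refine ⟨(cz a).index.primeFactorsList.length, ?_⟩
  apply Nat.eq_prime_pow_of_unique_prime_dvd Subgroup.FiniteIndex.index_ne_zero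
  intro d hd hda
  by_contra hne
  haveI : Fact d.Prime := ⟨hd⟩
  have hndm : ¬ d ∣ (cz y).index := by
    rw [hym]
    exact S.not_dvd_m hq hmq hc hy hym hs hsn hd hne
  obtain ⟨T, hT⟩ := exists_sylow_le_of_not_dvd hndm
  have hle : (T : Subgroup G) ≤ cz a := by
    intro u hu
    obtain ⟨f, hf⟩ := elt_of_pgroup hd T.isPGroup' hu
    have := S.t1_comm hq hmq hc hy hym hs hsn ha hao (hT hu) hd hne hf
    exact mem_cz.mpr this.symm
  exact T.not_dvd_index (hda.trans (Subgroup.index_dvd_of_le hle))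

theorem t1_mem_core {a : G} {i : ℕ} (ha : a ∈ cz y) (hao : orderOf a = q ^ i) [Fact q.Prime] : a ∈ pCore q G := by
  obtain ⟨k, hk⟩ := S.t1_class hq hmq hc hy hym hs hsn ha hao
  rw [H01.pCore_eq_iInf_sylow, Subgroup.mem_iInf]
  intro P
  exact mem_sylow_of_pp_index hao hk P

theorem t1_z : ∃ (z : G) (f : ℕ), z ∈ cz y ∧ orderOf z = s ^ f ∧ cz z = cz y ∧ z ∉ Subgroup.center G := by
  have hqs := S.q_ne_s hq hmq hc hy hym hs hsn
  haveI : Fact s.Prime := ⟨hs⟩
  have hndm : ¬ s ∣ (cz y).index := by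
    rw [hym]
    exact S.not_dvd_m hq hmq hc hy hym hs hsn hs hqs.symm
  obtain ⟨T, hT⟩ := exists_sylow_le_of_not_dvd hndm
  obtain ⟨z, hzT, hzm, hzc, f, hf⟩ := S.exists_central_in_sylow hsn T
  have hzZ := S.nc_of_m hzm
  have hzy := hT hzT
  have hle : cz y ≤ cz z := by
    apply le_of_pp
    intro t e' v ht hv hvo
    rw [mem_cz]
    by_cases htq : t = q
    · subst htq
      exact S.t1_comm hq hmq hc hy hym hs hsn hv hvo hzy hs hqs.symm hf
    · by_cases hts : t = s
      · subst hts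
        have h1 := mem_sylow_of_pp_index (G := cz y) (q := t) (x := ⟨v, hv⟩) (e := e')
          (by rw [Subgroup.orderOf_mk, hvo])
          (S.t1_reg hq hmq hc hy hym hs hsn ⟨v, hv⟩ e' (by rw [Subgroup.orderOf_mk, hvo])).choose_spec
          (T.subtype hT)
        have h2 : v ∈ (T : Subgroup G) := by
          have := h1
          rw [Sylow.coe_subtype, Subgroup.mem_subgroupOf] at this
          exact this
        exact hzc v h2
      · exact (central_in_cz hq S.hm S.hcls hy hym hs hqs.symm hsn ht htq hts hv hvo z hzy).symm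
  have heq := cz_eq_of_central S.hcls (by have := S.hm; omega) S.m_lt hym hle hzZ
  exact ⟨z, f, hzy, hf, heq, hzZ⟩

theorem t1_central_q {a : G} {i : ℕ} (ha : a ∈ cz y) (hao : orderOf a = q ^ i) : cz y ≤ cz a := by
  obtain ⟨z, f, hzy, hf, hzc, hzZ⟩ := S.t1_z hq hmq hc hy hym hs hsn
  have hqs := S.q_ne_s hq hmq hc hy hym hs hsn
  have hco : (orderOf a).Coprime (orderOf z) := by
    rw [hao, hf]
    exact Nat.Coprime.pow _ _ ((Nat.coprime_primes hq hs).mpr hqs)
  have hcm : Commute a z := (S.t1_comm hq hmq hc hy hym hs hsn ha hao hzy hs hqs.symm hf)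
  have hE := cz_mul_eq_inf hcm hco
  rw [hzc] at hE
  have h1 : (cz a ⊓ cz y).relIndex (cz y) = (cz a).relIndex (cz y) := Subgroup.inf_relIndex_right _ _
  have h2 := Subgroup.relIndex_mul_index (inf_le_right : cz a ⊓ cz y ≤ cz y)
  rw [h1, hym, ← hE] at h2
  -- the relative index is a power of `q`
  have h3 : (cz a).relIndex (cz y) = q ^ ((cz a).relIndex (cz y)).primeFactorsList.length := by
    apply Nat.eq_prime_pow_of_unique_prime_dvd
    · exact Subgroup.FiniteIndex.index_ne_zero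
    · intro d hd hda
      by_contra hne
      haveI : Fact d.Prime := ⟨hd⟩
      obtain ⟨u, f', hu, huD⟩ := exists_nc_elt (D := (cz a).subgroupOf (cz y)) (t := d) hda
      apply huD
      rw [Subgroup.mem_subgroupOf]
      have := S.t1_comm hq hmq hc hy hym hs hsn ha hao u.2 hd hne (by rw [← Subgroup.orderOf_coe] at hu; exact hu)
      exact mem_cz.mpr this.symm
  have hm := S.hm
  have hn := S.hn
  have hm0 : 0 < m := by omega
  have hr1 : (cz a).relIndex (cz y) = 1 := by
    rcases S.hcls (a * z) with h | h | h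
    · rw [h] at h2
      have : (cz a).relIndex (cz y) * m ≠ 1 := by
        intro h4
        have := Nat.eq_one_of_mul_eq_one_left h4
        omega
      exact absurd h2 this
    · rw [h] at h2
      exact Nat.eq_of_mul_eq_mul_right hm0 (h2.trans (one_mul _).symm)
    · rw [h, mul_comm m n] at h2
      have h5 := Nat.eq_of_mul_eq_mul_right hm0 h2
      exfalso
      rw [h3] at h5
      have h6 : s ∣ q ^ ((cz a).relIndex (cz y)).primeFactorsList.length := by
        rw [h5]
        exact hsn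
      exact hqs ((Nat.prime_dvd_prime_iff_eq hs hq).mp (hs.dvd_of_dvd_pow h6)).symm
  exact Subgroup.relIndex_eq_one.mp hr1

theorem t1_conj_eq {g : G} (hg : g * y * g⁻¹ ∈ cz y) : cz (g * y * g⁻¹) = cz y := by
  have hyZ := S.nc_of_m hym
  have h1 := S.t1_central_q hq hmq hc hy hym hs hsn hg (by rw [conj_order, hy])
  exact cz_eq_of_central S.hcls (by have := S.hm; omega) S.m_lt hym h1 (conj_notMem_center hyZ)

theorem t1_core_le [Fact q.Prime] : pCore q G ≤ cz y := by
  classical
  obtain ⟨z, f, hzy, hf, hzc, hzZ⟩ := S.t1_z hq hmq hc hy hym hs hsn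
  have hqs := S.q_ne_s hq hmq hc hy hym hs hsn
  set T := pCore q G with hT
  haveI hTn : T.Normal := H01.pCore_normal q
  have hTp : IsPGroup q T := H01.pCore_isPGroup q
  haveI : Group.IsNilpotent T := hTp.isNilpotent
  have hyT : y ∈ T := S.t1_mem_core hq hmq hc hy hym hs hsn (mem_cz.mpr rfl) hy
  by_contra hn
  have hlt : (cz y).subgroupOf T < ⊤ := by
    refine lt_top_iff_ne_top.mpr ?_
    intro h
    apply hn
    intro t ht
    have : (⟨t, ht⟩ : T) ∈ (cz y).subgroupOf T := by
      rw [h]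
      exact Subgroup.mem_top _
    exact this
  have hnc := (normalizerCondition_of_isNilpotent (G := T)) _ hlt
  obtain ⟨b, hb, hbn⟩ := SetLike.exists_of_lt hnc
  apply hbn
  rw [Subgroup.mem_subgroupOf]
  have hb1 := Subgroup.mem_normalizer_iff.mp hb ⟨y, hyT⟩
  have hy1 : (⟨y, hyT⟩ : T) ∈ (cz y).subgroupOf T := by
    rw [Subgroup.mem_subgroupOf]
    exact mem_cz.mpr rfl
  have hy2 := hb1.mp hy1
  rw [Subgroup.mem_subgroupOf] at hy2
  have hy3 : (b : G) * y * (b : G)⁻¹ ∈ cz y := hy2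
  have heq := S.t1_conj_eq hq hmq hc hy hym hs hsn hy3
  have hbn' : (b : G) * z * (b : G)⁻¹ ∈ cz y := by
    have := conj_mem_cz_conj (g := (b : G)) (mem_cz.mpr (mem_cz.mp hzy))
    rwa [heq] at this
  set cc := (b : G) * z * (b : G)⁻¹ * z⁻¹ with hcc
  have hccy : cc ∈ cz y := (cz y).mul_mem hbn' ((cz y).inv_mem hzy)
  have hccT : cc ∈ T := by
    have h1 : cc = (b : G) * (z * (b : G)⁻¹ * z⁻¹) := by
      rw [hcc]
      group
    rw [h1]
    exact T.mul_mem b.2 (hTn.conj_mem _ (T.inv_mem b.2) z)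
  obtain ⟨i, hi⟩ := elt_of_pgroup hq hTp hccT
  have hccz := S.t1_central_q hq hmq hc hy hym hs hsn hccy hi hzy
  have hcom : Commute cc z := (mem_cz.mp hccz).symm
  have hcop : (orderOf cc).Coprime (orderOf z) := by
    rw [hi, hf]
    exact Nat.Coprime.pow _ _ ((Nat.coprime_primes hq hs).mpr hqs)
  have ho := hcom.orderOf_mul_eq_mul_orderOf_of_coprime hcop
  have h2 : cc * z = (b : G) * z * (b : G)⁻¹ := by
    rw [hcc]
    group
  rw [h2, conj_order] at ho
  have hoz : 0 < orderOf z := orderOf_pos z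
  have h3 : orderOf cc = 1 := by
    apply Nat.eq_of_mul_eq_mul_right hoz
    rw [one_mul]
    exact ho.symm
  have h4 : cc = 1 := orderOf_eq_one_iff.mp h3
  have h5 : (b : G) * z * (b : G)⁻¹ = z := mul_inv_eq_one.mp h4
  have h6 : (b : G) ∈ cz z := by
    rw [mem_cz]
    calc (b : G) * z = (b : G) * z * (b : G)⁻¹ * b := by group
      _ = z * b := by rw [h5]
  rwa [hzc] at h6

theorem t1_normal : (cz y).Normal := by
  haveI : Fact q.Prime := ⟨hq⟩
  constructor
  intro h hh g
  have hTn : (pCore q G).Normal := H01.pCore_normal q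
  have hyT : y ∈ pCore q G := S.t1_mem_core hq hmq hc hy hym hs hsn (mem_cz.mpr rfl) hy
  have h1 : g * y * g⁻¹ ∈ cz y := S.t1_core_le hq hmq hc hy hym hs hsn (hTn.conj_mem _ hyT g)
  have heq := S.t1_conj_eq hq hmq hc hy hym hs hsn h1
  have := conj_mem_cz_conj (g := g) (mem_cz.mpr (mem_cz.mp hh))
  rwa [heq] at this

end Setup

end Cfsg.Agent.H13.TC
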