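import Mathlib
import Cfsg.Agent.Lib.H13.TC3

/-!
Groups with class sizes `1, m, m*n`: the abelian normal subgroup.
-/

set_option autoImplicit false
set_option linter.style.haveILetI false
set_option linter.unusedSectionVars false
set_option linter.unusedVariables false
set_option linter.unnecessarySeqFocus false
set_option linter.style.multiGoal false

namespace Cfsg.Agent.H13.TC

open Cfsg H19 RT

universe u

variable {G : Type u} [Group G] [Finite G]

/-- The data of the normal subgroup `M`. -/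
structure MData (m n q s c e f : ℕ) (M : Subgroup G) (y z : G) : Prop where
  S : Setup m n G
  hq : q.Prime
  hmq : m = q ^ c
  hc : c ≠ 0
  hs : s.Prime
  hqs : q ≠ s
  hMn : M.Normal
  hMi : M.index = m
  hy : y ∈ M
  hyo : orderOf y = q ^ e
  hyZ : y ∉ Subgroup.center G
  hz : z ∈ M
  hzo : orderOf z = s ^ f
  hzc : cz z = M
  hzZ : z ∉ Subgroup.center G
  hqc : ∀ a ∈ M, ∀ i, orderOf a = q ^ i → M ≤ cz a
  hcl : Cl q n M

theorem Setup.mdata {m n q s c e : ℕ} (S : Setup m n G) (hq : q.Prime) (hmq : m = q ^ c) (hc : c ≠ 0) {y : G}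
    (hy : orderOf y = q ^ e) (hym : (cz y).index = m) (hs : s.Prime) (hsn : s ∣ n) :
    ∃ (z : G) (f : ℕ), MData m n q s c e f (cz y) y z := by
  obtain ⟨z, f, hzy, hf, hzc, hzZ⟩ := S.t1_z hq hmq hc hy hym hs hsn
  exact ⟨z, f, S, hq, hmq, hc, hs, S.q_ne_s hq hmq hc hy hym hs hsn, S.t1_normal hq hmq hc hy hym hs hsn, hym,
    mem_cz.mpr rfl, hy, S.nc_of_m hym, hzy, hf, hzc, hzZ,
    fun a ha i hi => S.t1_central_q hq hmq hc hy hym hs hsn ha hi, cl_of_class_m hq S.hm S.hcls hy hym⟩

theorem pow_index_mem' {N L : Subgroup G} (hNL : N ≤ L) (hc : N ≤ Subgroup.center G) {a : G} (ha : a ∈ L) :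
    a ^ N.relIndex L ∈ N := by
  haveI : (N.subgroupOf L).Normal := by
    constructor
    intro b hb g
    rw [Subgroup.mem_subgroupOf] at hb ⊢
    have h1 := Subgroup.mem_center_iff.mp (hc hb) g
    show (g : G) * b * (g : G)⁻¹ ∈ N
    rw [h1]
    simpa using hb
  have := Subgroup.pow_index_mem (N.subgroupOf L) (⟨a, ha⟩ : L)
  rw [Subgroup.mem_subgroupOf] at this
  exact this

namespace MData

variable {m n q s c e f : ℕ} {M : Subgroup G} {y z : G} (D : MData m n q s c e f M y z)
include D

theorem hm0 : 0 < m := by have := D.S.hm; omega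

theorem zm : (cz z).index = m := by rw [D.hzc, D.hMi]

theorem center_le : Subgroup.center G ≤ M := by
  rw [← D.hzc]
  exact center_le_cz z

theorem q_dvd_m : q ∣ m := by
  rw [D.hmq]
  exact dvd_pow_self q D.hc

theorem s_coprime_m {t i : ℕ} (ht : t.Prime) (htq : t ≠ q) : (t ^ i).Coprime m := by
  rw [D.hmq]
  exact Nat.Coprime.pow _ _ ((Nat.coprime_primes ht D.hq).mpr htq)

/-- Elements of `M` whose centralizer contains `M`. -/
theorem cz_eq_of_le {a : G} (haZ : a ∉ Subgroup.center G) (h : M ≤ cz a) : cz a = M := by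
  have := cz_eq_of_central D.S.hcls D.hm0 D.S.m_lt D.zm (by rw [D.hzc]; exact h) haZ
  rw [this, D.hzc]

theorem cz_le {g : G} {t i : ℕ} (hg : g ∈ M) (ht : t.Prime) (hgo : orderOf g = t ^ i) (hgZ : g ∉ Subgroup.center G) :
    cz g ≤ M := by
  by_cases htq : t = q
  · subst htq
    rw [D.cz_eq_of_le hgZ (D.hqc g hg i hgo)]
  · have hco : (orderOf (⟨g, hg⟩ : M)).Coprime q := by
      rw [Subgroup.orderOf_mk, hgo]
      exact Nat.Coprime.pow_left _ ((Nat.coprime_primes ht D.hq).mpr htq)
    have hsub : (cz (⟨g, hg⟩ : M) : Subgroup M) = (cz g).subgroupOf M := by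
      ext b
      rw [Subgroup.mem_subgroupOf, mem_cz, mem_cz, Subtype.ext_iff]
      rfl
    have h1 : (cz (⟨g, hg⟩ : M)).index = (cz g).relIndex M := by rw [hsub]; rfl
    rcases D.hcl _ hco with h | h
    · rw [h1] at h
      have hle := Subgroup.relIndex_eq_one.mp h
      rw [D.cz_eq_of_le hgZ hle]
    · rw [h1] at h
      haveI := D.hMn
      have h2 : M.relIndex (cz g) ∣ m := by
        rw [← D.hMi]
        exact Subgroup.relIndex_dvd_index_of_normal _ _
      have h3 := Subgroup.relIndex_mul_index (inf_le_left : cz g ⊓ M ≤ cz g)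
      have h4 := Subgroup.relIndex_mul_index (inf_le_right : cz g ⊓ M ≤ M)
      rw [Subgroup.inf_relIndex_left] at h3
      rw [Subgroup.inf_relIndex_right, h, D.hMi] at h4
      rw [← h4] at h3
      have hm1 := D.S.hm
      have hn1 := D.S.hn
      rcases D.S.index_cases hgZ with h5 | h5
      · exfalso
        rw [h5, mul_comm n m] at h3
        have h6 : M.relIndex (cz g) = n := Nat.eq_of_mul_eq_mul_right D.hm0 (by rw [h3, mul_comm])
        rw [h6] at h2
        have := Nat.dvd_gcd h2 (dvd_refl n)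
        rw [D.S.hcop] at this
        have := Nat.dvd_one.mp this
        omega
      · rw [h5, mul_comm n m] at h3
        have h6 : M.relIndex (cz g) = 1 := by
          have hpos : 0 < m * n := by positivity
          exact Nat.eq_of_mul_eq_mul_right hpos (by rw [h3, one_mul])
        exact Subgroup.relIndex_eq_one.mp h6

theorem fix_central {x g : G} (hx : x ∉ M) (hg : g ∈ M) (hc : g * x = x * g) : g ∈ Subgroup.center G := by
  by_contra hgZ
  obtain ⟨t, e', g', ht, he, hz', hnc⟩ := exists_pp_part g hgZ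
  have hg' : g' ∈ M := (Subgroup.zpowers_le.mpr hg) hz'
  have hxg : x ∈ cz g := mem_cz.mpr hc.symm
  exact hx (D.cz_le hg' ht he hnc (cz_le_cz_of_mem_zpowers hz' hxg))

theorem inf_eq_center {x : G} (hx : x ∉ M) : cz x ⊓ M = Subgroup.center G := by
  apply le_antisymm
  · rintro g ⟨h1, h2⟩
    exact D.fix_central hx h2 (mem_cz.mp h1)
  · exact le_inf (center_le_cz x) D.center_le

/-- `|M : Z| * m = e * |x^G|` with `e ∣ m`. -/
theorem index_formula {x : G} (hx : x ∉ M) :
    ∃ e' : ℕ, e' ∣ m ∧ (Subgroup.center G).relIndex M * m = e' * (cz x).index := by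
  haveI := D.hMn
  refine ⟨M.relIndex (cz x), ?_, ?_⟩
  · rw [← D.hMi]
    exact Subgroup.relIndex_dvd_index_of_normal _ _
  · have h3 := Subgroup.relIndex_mul_index (inf_le_left : cz x ⊓ M ≤ cz x)
    have h4 := Subgroup.relIndex_mul_index (inf_le_right : cz x ⊓ M ≤ M)
    rw [Subgroup.inf_relIndex_left] at h3
    rw [D.hMi, D.inf_eq_center hx] at h4
    rw [D.inf_eq_center hx] at h3
    rw [h4, h3]

theorem big_of_notMem {x : G} (hx : x ∉ M) : (cz x).index = m * n := by
  have hxZ : x ∉ Subgroup.center G := fun h => hx (D.center_le h)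
  rcases D.S.index_cases hxZ with h | h
  · exfalso
    obtain ⟨e', he', hf⟩ := D.index_formula hx
    rw [h] at hf
    have hr : (Subgroup.center G).relIndex M = e' := Nat.eq_of_mul_eq_mul_right D.hm0 hf
    have h1 := pow_index_mem' D.center_le (le_refl _) D.hz
    apply D.hzZ
    apply mem_of_pow_mem _ h1
    rw [hr, D.hzo]
    have h2 : (s ^ f).Coprime m := D.s_coprime_m D.hs D.hqs.symm
    exact (Nat.Coprime.coprime_dvd_right he' h2).symm
  · exact h

theorem exists_notMem : ∃ x : G, x ∉ M := by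
  by_contra h
  push Not at h
  have : M = ⊤ := by
    ext g
    simpa using h g
  have h1 := D.hMi
  rw [this, Subgroup.index_top] at h1
  have := D.S.hm
  omega

theorem abelian : ∀ a ∈ M, ∀ b ∈ M, a * b = b * a := by
  obtain ⟨x, hx⟩ := D.exists_notMem
  have hpp : ∀ (t i : ℕ), t.Prime → True → ∀ v ∈ M, orderOf v = t ^ i → ∀ g ∈ M, g * v = v * g := by
    intro t i ht _ v hv hvo g hg
    by_cases hvZ : v ∈ Subgroup.center G
    · exact (Subgroup.mem_center_iff.mp hvZ g)
    by_cases htq : t = q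
    · subst htq
      exact mem_cz.mp (D.hqc v hv i hvo hg)
    · have hco : (orderOf (⟨v, hv⟩ : M)).Coprime q := by
        rw [Subgroup.orderOf_mk, hvo]
        exact Nat.Coprime.pow_left _ ((Nat.coprime_primes ht D.hq).mpr htq)
      have hsub : (cz (⟨v, hv⟩ : M) : Subgroup M) = (cz v).subgroupOf M := by
        ext b
        rw [Subgroup.mem_subgroupOf, mem_cz, mem_cz, Subtype.ext_iff]
        rfl
      have h1 : (cz (⟨v, hv⟩ : M)).index = (cz v).relIndex M := by rw [hsub]; rfl
      rcases D.hcl _ hco with h | h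
      · rw [h1] at h
        exact mem_cz.mp (Subgroup.relIndex_eq_one.mp h hg)
      · exfalso
        apply hvZ
        rw [h1] at h
        obtain ⟨e', he', hf⟩ := D.index_formula hx
        rw [D.big_of_notMem hx] at hf
        set L := cz v ⊓ M with hL
        have hZL : Subgroup.center G ≤ L := le_inf (center_le_cz v) D.center_le
        have h2 := Subgroup.relIndex_mul_relIndex (Subgroup.center G) L M hZL inf_le_right
        have h3 : L.relIndex M = n := by
          rw [hL, Subgroup.inf_relIndex_right, h]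
        rw [h3] at h2
        have hn0 : 0 < n := by have := D.S.hn; omega
        have h4 : (Subgroup.center G).relIndex L = e' := by
          have h5 : (Subgroup.center G).relIndex L * n * m = e' * n * m := by
            rw [h2, hf]
            ring
          exact Nat.eq_of_mul_eq_mul_right hn0 (Nat.eq_of_mul_eq_mul_right D.hm0 h5)
        have h6 : v ∈ L := ⟨mem_cz.mpr rfl, hv⟩
        have h7 := pow_index_mem' hZL (le_refl _) h6
        apply mem_of_pow_mem _ h7
        rw [h4, hvo]
        have h8 : (t ^ i).Coprime m := D.s_coprime_m ht htq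
        exact (Nat.Coprime.coprime_dvd_right he' h8).symm
  intro a ha b hb
  have := central_of_pp (C := M) (fun _ => True) hpp a ha (fun _ _ _ => trivial) b hb
  exact this.symm

theorem mem_iff (x : G) : x ∈ M ↔ (cz x).index = 1 ∨ (cz x).index = m := by
  constructor
  · intro hx
    by_cases hxZ : x ∈ Subgroup.center G
    · exact Or.inl (cz_index_eq_one_iff.mpr hxZ)
    · right
      have hle : M ≤ cz x := fun g hg => mem_cz.mpr (D.abelian g hg x hx)
      have h1 : (cz x).index ∣ m := by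
        rw [← D.hMi]
        exact Subgroup.index_dvd_of_le hle
      rcases D.S.index_cases hxZ with h | h
      · exact h
      · rw [h] at h1
        have := Nat.le_of_dvd D.hm0 h1
        have := D.S.m_lt
        omega
  · intro h
    by_contra hx
    have h1 := D.big_of_notMem hx
    have := D.S.m_lt
    have := D.S.hm
    rcases h with h | h <;> omega

theorem m_eq_q : m = q := by
  classical
  haveI : Fact q.Prime := ⟨D.hq⟩
  haveI := D.hMn
  obtain ⟨Q⟩ : Nonempty (Sylow q G) := inferInstance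
  obtain ⟨g, hg⟩ := exists_conj_mem_sylow Q D.hyo
  have hNZ : ¬ (Q : Subgroup G) ⊓ M ≤ Subgroup.center G := by
    intro h
    exact conj_notMem_center (g := g) D.hyZ (h ⟨hg, D.hMn.conj_mem _ D.hy g⟩)
  obtain ⟨a₀, ha₀N, ha₀Z, ha₀c, ha₀q⟩ := exists_z2_normal Q.isPGroup' (inf_le_left : (Q : Subgroup G) ⊓ M ≤ Q)
    (by
      rintro b hb a ⟨h1, h2⟩
      exact ⟨(Q : Subgroup G).mul_mem ((Q : Subgroup G).mul_mem hb h1) ((Q : Subgroup G).inv_mem hb),
        D.hMn.conj_mem _ h2 b⟩) hNZ
  have ha₀M : a₀ ∈ M := ha₀N.2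
  have hab := D.abelian
  have hcz : cz a₀ = M := D.cz_eq_of_le ha₀Z (fun b hb => mem_cz.mpr (hab b hb a₀ ha₀M))
  have hsup : M ⊔ (Q : Subgroup G) = ⊤ := by
    rw [← Subgroup.index_eq_one]
    have h1 : (M ⊔ (Q : Subgroup G)).index ∣ M.index := Subgroup.index_dvd_of_le le_sup_left
    have h2 : (M ⊔ (Q : Subgroup G)).index ∣ (Q : Subgroup G).index := Subgroup.index_dvd_of_le le_sup_right
    rw [D.hMi, D.hmq] at h1
    obtain ⟨j, _, hj⟩ := (Nat.dvd_prime_pow D.hq).mp h1
    rcases Nat.eq_zero_or_pos j with h0 | h0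
    · rw [hj, h0, pow_zero]
    · exfalso
      rw [hj] at h2
      exact Q.not_dvd_index ((dvd_pow_self q h0.ne').trans h2)
  have hcomm : ∀ g ∈ (⊤ : Subgroup G), g * a₀ * g⁻¹ * a₀⁻¹ ∈ Subgroup.center G := by
    intro g _
    have hgm : g ∈ ((M ⊔ (Q : Subgroup G) : Subgroup G) : Set G) := by
      rw [hsup]
      exact Set.mem_univ _
    rw [Subgroup.normal_mul] at hgm
    obtain ⟨u, hu, b, hb, hub⟩ := Set.mem_mul.mp hgm
    have hub' : u * b = g := hub
    have h1 := ha₀c b hb
    set ζ := b * a₀ * b⁻¹ * a₀⁻¹ with hζ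
    have h2 : b * a₀ * b⁻¹ = ζ * a₀ := by rw [hζ]; group
    have h3 : u * a₀ = a₀ * u := hab u hu a₀ ha₀M
    have h4 : u * ζ = ζ * u := Subgroup.mem_center_iff.mp h1 u
    have h5 : g * a₀ * g⁻¹ * a₀⁻¹ = ζ := by
      rw [← hub']
      calc u * b * a₀ * (u * b)⁻¹ * a₀⁻¹ = u * (b * a₀ * b⁻¹) * u⁻¹ * a₀⁻¹ := by group
        _ = u * (ζ * a₀) * u⁻¹ * a₀⁻¹ := by rw [h2]
        _ = (u * ζ) * a₀ * u⁻¹ * a₀⁻¹ := by group
        _ = ζ * (u * a₀) * u⁻¹ * a₀⁻¹ := by rw [h4]; group
        _ = ζ * (a₀ * u) * u⁻¹ * a₀⁻¹ := by rw [h3]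
        _ = ζ := by group
    rw [h5]
    exact h1
  have hne : (cz a₀).relIndex ⊤ ≠ 1 := by
    rw [Subgroup.relIndex_top_right, hcz, D.hMi]
    have := D.S.hm
    omega
  rcases index_eq_q_or D.hq (B := ⊤) (Y := M) hcomm ha₀q
      (by
        intro b _ hb u hu
        rw [hcz] at hb
        exact hab b hb u hu)
      hab
      (fun g _ u hu => D.hMn.conj_mem _ hu g)
      (by
        intro b _ hb u hu hf
        rw [hcz] at hb
        apply D.fix_central hb hu
        calc u * b = b * u * b⁻¹ * b := by rw [hf]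
          _ = b * u := by group)
      hne with h | h
  · rw [Subgroup.relIndex_top_right, hcz, D.hMi] at h
    exact h
  · exfalso
    apply D.hzZ
    apply mem_of_pow_mem _ (h z D.hz)
    rw [D.hzo]
    exact Nat.Coprime.pow_right _ ((Nat.coprime_primes D.hq D.hs).mpr D.hqs)

end MData

end Cfsg.Agent.H13.TC
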