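import Mathlib
import Cfsg.Agent.Lib.H13.TC4

/-!
Groups with class sizes `1, q, q*n`: the normal complement.
-/

set_option autoImplicit false
set_option linter.style.haveILetI false
set_option linter.unusedSectionVars false
set_option linter.unusedVariables false
set_option linter.unnecessarySeqFocus false
set_option linter.style.multiGoal false

namespace Cfsg.Agent.H13.TC

open Cfsg H19 RT

universe u

variable {G : Type u} [Group G] [Finite G]

theorem mem_norm_of_conj_le {T : Subgroup G} {g : G} (h : ∀ t ∈ T, g * t * g⁻¹ ∈ T) :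
    g ∈ Subgroup.normalizer (T : Set G) := by
  rw [Subgroup.mem_normalizer_iff]
  intro y
  refine ⟨h y, fun hy => ?_⟩
  have hinj : Function.Injective (fun t : T => (⟨g * t * g⁻¹, h t t.2⟩ : T)) := by
    intro a b hab
    have h1 : g * (a : G) * g⁻¹ = g * b * g⁻¹ := congrArg Subtype.val hab
    exact Subtype.ext (by simpa using h1)
  obtain ⟨t, ht⟩ := (Finite.injective_iff_surjective.1 hinj) ⟨_, hy⟩
  have h1 : g * (t : G) * g⁻¹ = g * y * g⁻¹ := congrArg Subtype.val ht
  have h2 : (t : G) = y := by simpa using h1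
  rw [← h2]
  exact t.2

/-- The `q'`-part of an abelian subgroup. -/
def partK (M : Subgroup G) (hM : ∀ a ∈ M, ∀ b ∈ M, a * b = b * a) (q : ℕ) : Subgroup G where
  carrier := {g | g ∈ M ∧ (orderOf g).Coprime q}
  mul_mem' := by
    rintro a b ⟨ha, ha'⟩ ⟨hb, hb'⟩
    refine ⟨M.mul_mem ha hb, ?_⟩
    have hc : Commute a b := hM a ha b hb
    exact Nat.Coprime.coprime_dvd_left hc.orderOf_mul_dvd_mul_orderOf (Nat.Coprime.mul_left ha' hb')
  one_mem' := ⟨M.one_mem, by simp⟩
  inv_mem' := by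
    rintro a ⟨ha, ha'⟩
    exact ⟨M.inv_mem ha, by rwa [orderOf_inv]⟩

namespace MData

variable {n q s c e f : ℕ} {M : Subgroup G} {y z : G} (D : MData q n q s c e f M y z)
include D

/-- The complement. -/
def K (_D : MData q n q s c e f M y z) : Subgroup G := partK M _D.abelian q

theorem mem_K {g : G} : g ∈ D.K ↔ g ∈ M ∧ (orderOf g).Coprime q := Iff.rfl

theorem K_le : D.K ≤ M := fun _ h => h.1

theorem K_comm : ∀ a ∈ D.K, ∀ b ∈ D.K, a * b = b * a := fun a ha b hb => D.abelian a ha.1 b hb.1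

theorem K_normal : D.K.Normal := by
  constructor
  rintro a ⟨ha, ha'⟩ g
  exact ⟨D.hMn.conj_mem _ ha g, by rwa [conj_order]⟩

theorem pp_mem_M {t i : ℕ} {g : G} (ht : t.Prime) (htq : t ≠ q) (hg : orderOf g = t ^ i) : g ∈ M := by
  haveI := D.hMn
  have h1 := Subgroup.pow_index_mem M g
  rw [D.hMi] at h1
  apply mem_of_pow_mem _ h1
  rw [hg]
  exact Nat.Coprime.pow_right _ ((Nat.coprime_primes D.hq ht).mpr (Ne.symm htq))

theorem pp_mem_K {t i : ℕ} {g : G} (ht : t.Prime) (htq : t ≠ q) (hg : orderOf g = t ^ i) : g ∈ D.K := by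
  refine ⟨D.pp_mem_M ht htq hg, ?_⟩
  rw [hg]
  exact Nat.Coprime.pow_left _ ((Nat.coprime_primes ht D.hq).mpr htq)

theorem K_card_coprime : (Nat.card D.K).Coprime q := by
  haveI : Fact q.Prime := ⟨D.hq⟩
  rw [Nat.coprime_comm, Nat.Prime.coprime_iff_not_dvd D.hq]
  intro h
  obtain ⟨x, hx⟩ := exists_prime_orderOf_dvd_card' q h
  have h1 := x.2.2
  have h2 : orderOf (x : G) = q := by rw [Subgroup.orderOf_coe, hx]
  rw [h2, Nat.coprime_self] at h1
  exact D.hq.one_lt.ne' h1

theorem K_index : ∃ a : ℕ, D.K.index = q ^ a := by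
  refine ⟨D.K.index.primeFactorsList.length, ?_⟩
  apply Nat.eq_prime_pow_of_unique_prime_dvd Subgroup.FiniteIndex.index_ne_zero
  intro d hd hda
  by_contra hne
  haveI : Fact d.Prime := ⟨hd⟩
  obtain ⟨u, i, hu, huK⟩ := exists_nc_elt hda
  exact huK (D.pp_mem_K hd hne hu)

theorem eq_one_of_K_of_pgroup {g : G} {i : ℕ} (h1 : g ∈ D.K) (h2 : orderOf g = q ^ i) : g = 1 := by
  have h3 := h1.2
  rw [h2] at h3
  rcases Nat.eq_zero_or_pos i with h0 | h0
  · rw [h0, pow_zero] at h2
    exact orderOf_eq_one_iff.mp h2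
  · exfalso
    have h4 : q ∣ (q ^ i).gcd q := Nat.dvd_gcd (dvd_pow_self q h0.ne') (dvd_refl q)
    rw [h3] at h4
    exact D.hq.one_lt.ne' (Nat.dvd_one.mp h4)

theorem top_of_le {x : G} (hx : x ∉ M) {L : Subgroup G} (hML : M ≤ L) (hxL : x ∈ L) : L = ⊤ := by
  have h1 := Subgroup.relIndex_mul_index hML
  rw [D.hMi] at h1
  rcases (Nat.dvd_prime D.hq).mp ⟨_, h1.symm⟩ with h | h
  · exact (hx (Subgroup.relIndex_eq_one.mp h hxL)).elim
  · rw [h] at h1
    have hq0 := D.hq.pos
    have h2 : L.index = 1 := by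
      apply Nat.eq_of_mul_eq_mul_left hq0
      rw [h1, mul_one]
    exact Subgroup.index_eq_one.mp h2

theorem K_sup_sylow (P : Sylow q G) : D.K ⊔ (P : Subgroup G) = ⊤ := by
  rw [← Subgroup.index_eq_one]
  have h1 : (D.K ⊔ (P : Subgroup G)).index ∣ D.K.index := Subgroup.index_dvd_of_le le_sup_left
  have h2 : (D.K ⊔ (P : Subgroup G)).index ∣ (P : Subgroup G).index := Subgroup.index_dvd_of_le le_sup_right
  obtain ⟨a, ha⟩ := D.K_index
  rw [ha] at h1
  obtain ⟨j, _, hj⟩ := (Nat.dvd_prime_pow D.hq).mp h1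
  rcases Nat.eq_zero_or_pos j with h0 | h0
  · rw [hj, h0, pow_zero]
  · exfalso
    rw [hj] at h2
    haveI : Fact q.Prime := ⟨D.hq⟩
    exact P.not_dvd_index ((dvd_pow_self q h0.ne').trans h2)

/-- No abelian direct factor forces `K ⊓ Z = 1`. -/
theorem K_inf_center (hnodf : ∀ A B : Subgroup G, A.Normal → B.Normal → A ⊓ B = ⊥ → A ⊔ B = ⊤ → IsMulCommutative A → A = ⊥) :
    D.K ⊓ Subgroup.center G = ⊥ := by
  classical
  haveI : Fact q.Prime := ⟨D.hq⟩
  haveI hKn := D.K_normal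
  haveI hMn := D.hMn
  obtain ⟨x, hx⟩ := D.exists_notMem
  have hcm := D.K_comm
  have hconj : ∀ k ∈ D.K, x * k * x⁻¹ ∈ D.K := fun k hk => hKn.conj_mem k hk x
  let δ : D.K →* D.K :=
    { toFun := fun k => ⟨x * k * x⁻¹ * (k : G)⁻¹, D.K.mul_mem (hconj k k.2) (D.K.inv_mem k.2)⟩
      map_one' := by ext; simp
      map_mul' := by
        intro a b
        ext
        show x * ((a : G) * b) * x⁻¹ * ((a : G) * b)⁻¹ = (x * a * x⁻¹ * (a : G)⁻¹) * (x * b * x⁻¹ * (b : G)⁻¹)
        have h1 : (a : G)⁻¹ * (x * b * x⁻¹ * (b : G)⁻¹) = (x * b * x⁻¹ * (b : G)⁻¹) * (a : G)⁻¹ :=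
          hcm _ (D.K.inv_mem a.2) _ (D.K.mul_mem (hconj b b.2) (D.K.inv_mem b.2))
        calc x * ((a : G) * b) * x⁻¹ * ((a : G) * b)⁻¹ = (x * a * x⁻¹) * (x * b * x⁻¹ * (b : G)⁻¹) * (a : G)⁻¹ := by group
          _ = (x * a * x⁻¹) * ((x * b * x⁻¹ * (b : G)⁻¹) * (a : G)⁻¹) := by group
          _ = (x * a * x⁻¹) * ((a : G)⁻¹ * (x * b * x⁻¹ * (b : G)⁻¹)) := by rw [h1]
          _ = _ := by group }
  have hδ : ∀ k : D.K, ((δ k : D.K) : G) = x * k * x⁻¹ * (k : G)⁻¹ := fun k => rfl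
  have hker : ∀ k : D.K, δ k = 1 ↔ (k : G) ∈ Subgroup.center G := by
    intro k
    constructor
    · intro h
      have h1 : x * k * x⁻¹ * (k : G)⁻¹ = 1 := congrArg Subtype.val h
      have h2 : x * k * x⁻¹ = k := mul_inv_eq_one.mp h1
      apply D.fix_central hx k.2.1
      calc (k : G) * x = (x * k * x⁻¹) * x := by rw [h2]
        _ = x * k := by group
    · intro h
      ext
      rw [hδ, Subgroup.mem_center_iff.mp h x]
      simp
  -- the image of `δ` meets the kernel trivially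
  have hdisj : Disjoint δ.ker δ.range := by
    rw [Subgroup.disjoint_def]
    rintro a ha ⟨k, rfl⟩
    have haZ : (δ k : G) ∈ Subgroup.center G := (hker _).mp ha
    set ζ : G := ((δ k : D.K) : G) with hζ
    have hk1 : x * k * x⁻¹ = ζ * k := by rw [hζ, hδ]; group
    have hpow : ∀ j : ℕ, x ^ j * k * (x ^ j)⁻¹ = ζ ^ j * k := by
      intro j
      induction j with
      | zero => simp
      | succ j ih =>
        have h2 : x ^ (j + 1) * k * (x ^ (j + 1))⁻¹ = x * (x ^ j * k * (x ^ j)⁻¹) * x⁻¹ := by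
          rw [pow_succ']
          group
        rw [h2, ih]
        have h3 : x * (ζ ^ j * k) * x⁻¹ = ζ ^ j * (x * k * x⁻¹) := by
          have h4 : x * ζ ^ j = ζ ^ j * x := ((Subgroup.center G).pow_mem haZ j |> fun h => Subgroup.mem_center_iff.mp h x)
          calc x * (ζ ^ j * k) * x⁻¹ = (x * ζ ^ j) * k * x⁻¹ := by group
            _ = (ζ ^ j * x) * k * x⁻¹ := by rw [h4]
            _ = _ := by group
        rw [h3, hk1, pow_succ]
        group
    have h5 : x ^ q ∈ M := by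
      have := Subgroup.pow_index_mem M x
      rwa [D.hMi] at this
    have h6 : x ^ q * k * (x ^ q)⁻¹ = k := by
      rw [D.abelian _ h5 _ k.2.1]
      group
    have h7 := hpow q
    rw [h6] at h7
    have h8 : ζ ^ q = 1 := by
      have : ζ ^ q * (k : G) = 1 * k := by rw [← h7, one_mul]
      exact mul_right_cancel this
    have hζK : ζ ∈ D.K := (δ k).2
    have h9 : orderOf ζ ∣ q := orderOf_dvd_of_pow_eq_one h8
    have h10 : ζ = 1 := by
      have h11 := hζK.2
      rcases (Nat.dvd_prime D.hq).mp h9 with h | h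
      · exact orderOf_eq_one_iff.mp h
      · rw [h, Nat.coprime_self] at h11
        exact absurd h11 D.hq.one_lt.ne'
    exact Subtype.ext h10
  have hcardk : Nat.card δ.ker * Nat.card δ.range = Nat.card D.K := by
    rw [← Subgroup.index_ker]
    exact δ.ker.card_mul_index
  have hcompl := Subgroup.isComplement'_of_card_mul_and_disjoint hcardk hdisj
  -- the subgroups `A`, `B`
  set A : Subgroup G := D.K ⊓ Subgroup.center G with hA
  set B : Subgroup G := δ.range.map D.K.subtype with hB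
  have hBK : B ≤ D.K := Subgroup.map_subtype_le _
  have hBn : B.Normal := by
    rw [← Subgroup.normalizer_eq_top_iff]
    apply D.top_of_le hx
    · intro u hu
      rw [Subgroup.mem_normalizer_iff]
      intro b
      constructor
      · intro hb
        have h1 := D.abelian u hu b (D.K_le (hBK hb))
        have : u * b * u⁻¹ = b := by rw [h1]; group
        rwa [this]
      · intro hb
        have h1 := D.abelian u hu (u * b * u⁻¹) (D.K_le (hBK hb))
        have h2 : u * (u * b * u⁻¹) = (u * b * u⁻¹) * u := h1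
        have h3 : u * b * u⁻¹ = b := by
          have : u * b = b * u := by
            have h4 : u * b * u⁻¹ ∈ M := D.K_le (hBK hb)
            have h5 : b ∈ M := by
              have h6 : b = u⁻¹ * (u * b * u⁻¹) * u := by group
              rw [h6]
              exact M.mul_mem (M.mul_mem (M.inv_mem hu) h4) hu
            exact D.abelian u hu b h5
          rw [this]
          group
        rwa [h3] at hb
    · have hxb : ∀ b ∈ B, x * b * x⁻¹ ∈ B := by
        rintro _ ⟨_, ⟨k, rfl⟩, rfl⟩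
        refine ⟨δ ⟨x * k * x⁻¹, hconj k k.2⟩, ⟨_, rfl⟩, ?_⟩
        show x * (x * k * x⁻¹) * x⁻¹ * (x * k * x⁻¹)⁻¹ = x * (x * k * x⁻¹ * (k : G)⁻¹) * x⁻¹
        group
      exact mem_norm_of_conj_le hxb
  have hkAB : ∀ k ∈ D.K, ∃ a ∈ A, ∃ b ∈ B, k = a * b := by
    intro k hk
    obtain ⟨⟨a, b⟩, hab, -⟩ := hcompl.existsUnique ⟨k, hk⟩
    refine ⟨(a : D.K), ⟨a.1.2, (hker a.1).mp a.2⟩, (b : D.K), ⟨b.1, b.2, rfl⟩, ?_⟩
    exact (congrArg Subtype.val hab).symm
  obtain ⟨P⟩ : Nonempty (Sylow q G) := inferInstance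
  set C : Subgroup G := B ⊔ (P : Subgroup G) with hC
  have hAC : A ⊔ C = ⊤ := by
    rw [eq_top_iff, ← D.K_sup_sylow P]
    apply sup_le
    · intro k hk
      obtain ⟨a, ha, b, hb, rfl⟩ := hkAB k hk
      exact (A ⊔ C).mul_mem ((le_sup_left : A ≤ A ⊔ C) ha) ((le_sup_right : C ≤ A ⊔ C) ((le_sup_left : B ≤ C) hb))
    · exact le_trans le_sup_right (le_sup_right : C ≤ A ⊔ C)
  have hCn : C.Normal := by
    rw [← Subgroup.normalizer_eq_top_iff, eq_top_iff, ← hAC]
    apply sup_le _ Subgroup.le_normalizer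
    intro a ha
    rw [Subgroup.mem_normalizer_iff]
    intro c
    have h1 : a * c * a⁻¹ = c := by
      rw [(Subgroup.mem_center_iff.mp ha.2 c).symm]
      group
    rw [h1]
  have hAn : A.Normal := by
    rw [hA]
    haveI : (Subgroup.center G).Normal := inferInstance
    exact Subgroup.normal_inf_normal _ _
  have hinf : A ⊓ C = ⊥ := by
    rw [Subgroup.eq_bot_iff_forall]
    rintro c ⟨hcA, hcC⟩
    have hcm' : c ∈ ((B ⊔ (P : Subgroup G) : Subgroup G) : Set G) := hcC
    rw [Subgroup.normal_mul] at hcm'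
    obtain ⟨b, hb, p, hp, hbp⟩ := Set.mem_mul.mp hcm'
    have hbp' : b * p = c := hbp
    have hp1 : p = b⁻¹ * c := by rw [← hbp']; group
    have hpK : p ∈ D.K := by
      rw [hp1]
      exact D.K.mul_mem (D.K.inv_mem (hBK hb)) hcA.1
    obtain ⟨i, hi⟩ := elt_of_pgroup D.hq P.isPGroup' hp
    have hp2 := D.eq_one_of_K_of_pgroup hpK hi
    have hcb : c = b := by rw [← hbp', hp2, mul_one]
    rw [hcb] at hcA ⊢
    obtain ⟨b', hb', hbb⟩ := hb
    have h3 : b' ∈ δ.ker := by
      rw [MonoidHom.mem_ker, hker]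
      rw [← hbb] at hcA
      exact hcA.2
    have h4 := Subgroup.disjoint_def.mp hdisj h3 hb'
    rw [← hbb, h4]
    rfl
  exact hnodf A C hAn hCn hinf hAC ⟨⟨fun a b => Subtype.ext (hcm a a.2.1 b b.2.1)⟩⟩

variable (hK : D.K ⊓ Subgroup.center G = ⊥)
include hK

theorem eq_one_of_fix {x k : G} (hx : x ∉ M) (hk : k ∈ D.K) (h : k * x = x * k) : k = 1 := by
  have h1 : k ∈ D.K ⊓ Subgroup.center G := ⟨hk, D.fix_central hx hk.1 h⟩
  rw [hK] at h1
  exact h1

theorem cz_card_pow {x : G} (hx : x ∉ M) : ∃ u, Nat.card (cz x) = q ^ u := by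
  refine ⟨(Nat.card (cz x)).primeFactorsList.length, ?_⟩
  apply Nat.eq_prime_pow_of_unique_prime_dvd Nat.card_pos.ne'
  intro d hd hda
  by_contra hne
  haveI : Fact d.Prime := ⟨hd⟩
  obtain ⟨g, hg⟩ := exists_prime_orderOf_dvd_card' d hda
  have hgo : orderOf (g : G) = d ^ 1 := by rw [Subgroup.orderOf_coe, hg, pow_one]
  have h1 := D.eq_one_of_fix hK hx (D.pp_mem_K hd hne hgo) (mem_cz.mp g.2)
  rw [h1, orderOf_one] at hgo
  have := hd.one_lt
  rw [pow_one] at hgo
  omega

theorem K_card : Nat.card D.K = n := by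
  obtain ⟨x, hx⟩ := D.exists_notMem
  obtain ⟨u, hu⟩ := D.cz_card_pow hK hx
  obtain ⟨a, ha⟩ := D.K_index
  have h1 := (cz x).card_mul_index
  have h2 := D.K.card_mul_index
  rw [hu, D.big_of_notMem hx] at h1
  rw [ha, ← h1] at h2
  have hco := D.K_card_coprime
  have hnco : n.Coprime q := (D.S.hcop).symm
  apply Nat.dvd_antisymm
  · have h3 : Nat.card D.K ∣ q ^ u * (q * n) := ⟨_, h2.symm⟩
    have h4 : q ^ u * (q * n) = q ^ (u + 1) * n := by ring
    rw [h4] at h3
    exact (Nat.Coprime.pow_right _ hco).dvd_of_dvd_mul_left h3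
  · have h3 : n ∣ Nat.card D.K * q ^ a := by
      rw [h2]
      exact ⟨q ^ u * q, by ring⟩
    exact (Nat.Coprime.pow_right _ hnco).dvd_of_dvd_mul_right h3

theorem q_dvd_n_sub_one : q ∣ n - 1 := by
  classical
  haveI : Fact q.Prime := ⟨D.hq⟩
  haveI hKn := D.K_normal
  obtain ⟨x, hx⟩ := D.exists_notMem
  haveI : Fintype D.K := Fintype.ofFinite _
  let F : Function.End D.K := fun k => ⟨x * k * x⁻¹, hKn.conj_mem k k.2 x⟩
  have hF : ∀ (j : ℕ) (k : D.K), (((F ^ j) k : D.K) : G) = x ^ j * k * (x ^ j)⁻¹ := by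
    intro j k
    induction j with
    | zero =>
      have : (((F ^ 0) k : D.K) : G) = k := rfl
      rw [this]
      simp
    | succ j ih =>
      have h3 : (F ^ (j + 1)) k = F ((F ^ j) k) := by
        rw [pow_succ']
        rfl
      rw [h3]
      show x * (((F ^ j) k : D.K) : G) * x⁻¹ = _
      rw [ih, pow_succ']
      group
  have hFq : F ^ q ^ 1 = 1 := by
    rw [pow_one]
    funext k
    apply Subtype.ext
    rw [hF]
    have h5 : x ^ q ∈ M := by
      haveI := D.hMn
      have := Subgroup.pow_index_mem M x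
      rwa [D.hMi] at this
    rw [D.abelian _ h5 _ k.2.1]
    show (k : G) * x ^ q * (x ^ q)⁻¹ = k
    group
  have h1 := Equiv.Perm.card_fixedPoints_modEq hFq
  have h2 : Fintype.card (Function.fixedPoints F) = 1 := by
    rw [Fintype.card_eq_one_iff]
    refine ⟨⟨1, ?_⟩, ?_⟩
    · show F 1 = 1
      ext
      simp [F]
    · rintro ⟨k, hk⟩
      apply Subtype.ext
      apply Subtype.ext
      have h3 : x * (k : G) * x⁻¹ = k := congrArg Subtype.val hk
      have h4 : (k : G) * x = x * k := by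
        calc (k : G) * x = (x * k * x⁻¹) * x := by rw [h3]
          _ = x * k := by group
      exact D.eq_one_of_fix hK hx k.2 h4
  rw [h2, Nat.card_eq_fintype_card.symm, D.K_card hK] at h1
  have hn1 : 1 ≤ n := by have := D.S.hn; omega
  exact (Nat.modEq_iff_dvd' hn1).mp h1.symm

end MData

end Cfsg.Agent.H13.TC
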