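import Mathlib
import Cfsg.Agent.Lib.H13.TC5

/-!
Groups with class sizes `1, q, q*n`: the commutator subgroup of a Sylow subgroup.
-/

set_option autoImplicit false
set_option linter.style.haveILetI false
set_option linter.unusedSectionVars false
set_option linter.unusedVariables false
set_option linter.unnecessarySeqFocus false
set_option linter.style.multiGoal false

namespace Cfsg.Agent.H13.TC

open Cfsg H19 RT
open scoped commutatorElement

universe u

variable {G : Type u} [Group G] [Finite G]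

namespace MData

variable {n q s c e f : ℕ} {M : Subgroup G} {y z : G} (D : MData q n q s c e f M y z)
  (hK : D.K ⊓ Subgroup.center G = ⊥)
include D hK

theorem commutator_card (P : Sylow q G) : Nat.card (commutator (P : Subgroup G)) = q := by
  classical
  haveI : Fact q.Prime := ⟨D.hq⟩
  haveI hMn := D.hMn
  haveI hKn := D.K_normal
  have hq := D.hq
  have hab := D.abelian
  -- an element of `P` outside `M`
  have hPM : ¬ (P : Subgroup G) ≤ M := by
    intro h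
    apply P.not_dvd_index
    have h1 := Subgroup.index_dvd_of_le h
    rw [D.hMi] at h1
    exact h1
  obtain ⟨x, hxP, hx⟩ := SetLike.not_le_iff_exists.mp hPM
  have hPp : IsPGroup q (P : Subgroup G) := P.isPGroup'
  have hczP : cz x ≤ (P : Subgroup G) := by
    intro cc hcc
    have hgm : cc ∈ ((D.K ⊔ (P : Subgroup G) : Subgroup G) : Set G) := by
      rw [D.K_sup_sylow P]
      exact Set.mem_univ _
    rw [Subgroup.normal_mul] at hgm
    obtain ⟨k, hk, p, hp, hkp⟩ := Set.mem_mul.mp hgm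
    have hkp' : k * p = cc := hkp
    have h1 : cc * x = x * cc := mem_cz.mp hcc
    rw [← hkp'] at h1
    have h2 : k⁻¹ * (x * k * x⁻¹) = p * (x * p⁻¹ * x⁻¹) := by
      have h3 : (x * k * x⁻¹) * (x * p * x⁻¹) = k * p := by
        calc (x * k * x⁻¹) * (x * p * x⁻¹) = (x * (k * p)) * x⁻¹ := by group
          _ = ((k * p) * x) * x⁻¹ := by rw [h1]
          _ = k * p := by group
      calc k⁻¹ * (x * k * x⁻¹) = k⁻¹ * ((x * k * x⁻¹) * (x * p * x⁻¹)) * (x * p * x⁻¹)⁻¹ := by group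
        _ = k⁻¹ * (k * p) * (x * p * x⁻¹)⁻¹ := by rw [h3]
        _ = _ := by group
    have h4 : k⁻¹ * (x * k * x⁻¹) ∈ D.K := D.K.mul_mem (D.K.inv_mem hk) (hKn.conj_mem k hk x)
    have h5 : p * (x * p⁻¹ * x⁻¹) ∈ (P : Subgroup G) :=
      Subgroup.mul_mem _ hp (Subgroup.mul_mem _ (Subgroup.mul_mem _ hxP (Subgroup.inv_mem _ hp)) (Subgroup.inv_mem _ hxP))
    rw [← h2] at h5
    obtain ⟨i, hi⟩ := elt_of_pgroup hq hPp h5
    have h6 := D.eq_one_of_K_of_pgroup h4 hi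
    have h7 : x * k * x⁻¹ = k := by
      have : k⁻¹ * (x * k * x⁻¹) = 1 := h6
      calc x * k * x⁻¹ = k * (k⁻¹ * (x * k * x⁻¹)) := by group
        _ = k := by rw [this, mul_one]
    have h8 : k * x = x * k := by
      calc k * x = (x * k * x⁻¹) * x := by rw [h7]
        _ = x * k := by group
    have h9 := D.eq_one_of_fix hK hx hk h8
    rw [← hkp', h9, one_mul]
    exact hp
  -- the index of `P`
  have hPi : (P : Subgroup G).index = n := by
    obtain ⟨α, hα⟩ := IsPGroup.iff_card.mp hPp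
    obtain ⟨a, ha⟩ := D.K_index
    have h1 := (P : Subgroup G).card_mul_index
    have h2 := D.K.card_mul_index
    rw [D.K_card hK, ha, ← h1, hα] at h2
    have hco1 : ((P : Subgroup G).index).Coprime q := by
      rw [Nat.coprime_comm, Nat.Prime.coprime_iff_not_dvd hq]
      exact P.not_dvd_index
    have hco2 : n.Coprime q := D.S.hcop.symm
    apply Nat.dvd_antisymm
    · have h3 : (P : Subgroup G).index ∣ n * q ^ a := by
        rw [h2]
        exact dvd_mul_left _ _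
      exact (Nat.Coprime.pow_right _ hco1).dvd_of_dvd_mul_right h3
    · have h3 : n ∣ q ^ α * (P : Subgroup G).index := by
        rw [← h2]
        exact dvd_mul_right _ _
      exact (Nat.Coprime.pow_right _ hco2).dvd_of_dvd_mul_left h3
  have hn0 : 0 < n := by have := D.S.hn; omega
  have hr1 : (cz x).relIndex (P : Subgroup G) = q := by
    have h1 := Subgroup.relIndex_mul_index hczP
    rw [hPi, D.big_of_notMem hx] at h1
    exact Nat.eq_of_mul_eq_mul_right hn0 h1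
  have hrel : ∀ L : Subgroup G, (∃ a ∈ L, a ∉ M) → M.relIndex L = q := by
    rintro L ⟨a, haL, haM⟩
    have h1 : M.relIndex L ∣ q := by
      rw [← D.hMi] 
      exact Subgroup.relIndex_dvd_index_of_normal _ _
    rcases (Nat.dvd_prime hq).mp h1 with h | h
    · exact absurd (Subgroup.relIndex_eq_one.mp h haL) haM
    · exact h
  have hr2 : (Subgroup.center G).relIndex (cz x) = q := by
    rw [← D.inf_eq_center hx, Subgroup.inf_relIndex_left]
    exact hrel _ ⟨x, mem_cz.mpr rfl, hx⟩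
  have hZcz : Subgroup.center G ≤ cz x := center_le_cz x
  have hZP : Subgroup.center G ≤ (P : Subgroup G) := hZcz.trans hczP
  have hr3 := Subgroup.relIndex_mul_relIndex (Subgroup.center G) (cz x) (P : Subgroup G) hZcz hczP
  rw [hr1, hr2] at hr3
  set P₀ : Subgroup G := M ⊓ (P : Subgroup G) with hP₀
  have hZP₀ : Subgroup.center G ≤ P₀ := le_inf D.center_le hZP
  have hr4 := Subgroup.relIndex_mul_relIndex (Subgroup.center G) P₀ (P : Subgroup G) hZP₀ inf_le_right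
  have hr5 : P₀.relIndex (P : Subgroup G) = q := by
    rw [hP₀, Subgroup.inf_relIndex_right]
    exact hrel _ ⟨x, hxP, hx⟩
  rw [hr5, ← hr3] at hr4
  have hr6 : (Subgroup.center G).relIndex P₀ = q := Nat.eq_of_mul_eq_mul_right hq.pos hr4
  -- the commutator map
  have hmem : ∀ b ∈ P₀, x * b * x⁻¹ * b⁻¹ ∈ P₀ := by
    rintro b ⟨hb1, hb2⟩
    exact ⟨M.mul_mem (hMn.conj_mem b hb1 x) (M.inv_mem hb1),
      Subgroup.mul_mem _ (Subgroup.mul_mem _ (Subgroup.mul_mem _ hxP hb2) (Subgroup.inv_mem _ hxP)) (Subgroup.inv_mem _ hb2)⟩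
  let δ : P₀ →* P₀ :=
    { toFun := fun b => ⟨x * b * x⁻¹ * (b : G)⁻¹, hmem b b.2⟩
      map_one' := by ext; simp
      map_mul' := by
        intro a b
        ext
        show x * ((a : G) * b) * x⁻¹ * ((a : G) * b)⁻¹ = (x * a * x⁻¹ * (a : G)⁻¹) * (x * b * x⁻¹ * (b : G)⁻¹)
        have h1 : (a : G)⁻¹ * (x * b * x⁻¹ * (b : G)⁻¹) = (x * b * x⁻¹ * (b : G)⁻¹) * (a : G)⁻¹ :=
          hab _ (M.inv_mem a.2.1) _ (hmem b b.2).1
        calc x * ((a : G) * b) * x⁻¹ * ((a : G) * b)⁻¹ = (x * a * x⁻¹) * (x * b * x⁻¹ * (b : G)⁻¹) * (a : G)⁻¹ := by group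
          _ = (x * a * x⁻¹) * ((x * b * x⁻¹ * (b : G)⁻¹) * (a : G)⁻¹) := by group
          _ = (x * a * x⁻¹) * ((a : G)⁻¹ * (x * b * x⁻¹ * (b : G)⁻¹)) := by rw [h1]
          _ = _ := by group }
  have hδ : ∀ b : P₀, ((δ b : P₀) : G) = x * b * x⁻¹ * (b : G)⁻¹ := fun k => rfl
  have hker : δ.ker = (Subgroup.center G).subgroupOf P₀ := by
    ext b
    rw [MonoidHom.mem_ker, Subgroup.mem_subgroupOf]
    constructor
    · intro h
      have h1 : x * b * x⁻¹ * (b : G)⁻¹ = 1 := congrArg Subtype.val h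
      have h2 : x * b * x⁻¹ = b := mul_inv_eq_one.mp h1
      apply D.fix_central hx b.2.1
      calc (b : G) * x = (x * b * x⁻¹) * x := by rw [h2]
        _ = x * b := by group
    · intro h
      ext
      rw [hδ, Subgroup.mem_center_iff.mp h x]
      simp
  have hcard : Nat.card δ.range = q := by
    rw [← Subgroup.index_ker, hker]
    exact hr6
  set I : Subgroup G := δ.range.map P₀.subtype with hI
  have hIc : Nat.card I = q := by
    rw [hI, Subgroup.card_map_of_injective (Subgroup.subtype_injective _), hcard]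
  have hIm : ∀ b ∈ P₀, x * b * x⁻¹ * b⁻¹ ∈ I := fun b hb => ⟨δ ⟨b, hb⟩, ⟨_, rfl⟩, rfl⟩
  have hIP₀ : I ≤ P₀ := Subgroup.map_subtype_le _
  have hIx : ∀ i ∈ I, x * i * x⁻¹ ∈ I := by
    rintro _ ⟨_, ⟨b, rfl⟩, rfl⟩
    have h1 : x * (b : G) * x⁻¹ ∈ P₀ :=
      ⟨hMn.conj_mem _ b.2.1 x, Subgroup.mul_mem _ (Subgroup.mul_mem _ hxP b.2.2) (Subgroup.inv_mem _ hxP)⟩
    have h2 := hIm _ h1
    have h3 : x * (x * (b : G) * x⁻¹) * x⁻¹ * (x * (b : G) * x⁻¹)⁻¹ = x * (x * b * x⁻¹ * (b : G)⁻¹) * x⁻¹ := by group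
    rw [h3] at h2
    exact h2
  have hcj : ∀ (j : ℕ), ∀ b ∈ P₀, x ^ j * b * (x ^ j)⁻¹ * b⁻¹ ∈ I := by
    intro j
    induction j with
    | zero =>
      intro b _
      simp [I.one_mem]
    | succ j ih =>
      intro b hb
      have h1 := ih b hb
      set cc := x ^ j * b * (x ^ j)⁻¹ * b⁻¹ with hcc
      have h2 : x ^ j * b * (x ^ j)⁻¹ = cc * b := by rw [hcc]; group
      have h3 : x ^ (j + 1) * b * (x ^ (j + 1))⁻¹ * b⁻¹ = (x * cc * x⁻¹) * (x * b * x⁻¹ * b⁻¹) := by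
        have : x ^ (j + 1) * b * (x ^ (j + 1))⁻¹ = x * (x ^ j * b * (x ^ j)⁻¹) * x⁻¹ := by
          rw [pow_succ']
          group
        rw [this, h2]
        group
      rw [h3]
      exact I.mul_mem (hIx _ h1) (hIm _ hb)
  have hdec : ∀ p ∈ (P : Subgroup G), ∃ b ∈ P₀, ∃ j : ℕ, p = b * x ^ j := by
    intro p hp
    have htop : M ⊔ Subgroup.zpowers x = ⊤ := D.top_of_le hx le_sup_left
      ((le_sup_right : Subgroup.zpowers x ≤ _) (Subgroup.mem_zpowers x))
    have hgm : p ∈ ((M ⊔ Subgroup.zpowers x : Subgroup G) : Set G) := by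
      rw [htop]
      exact Set.mem_univ _
    rw [Subgroup.normal_mul] at hgm
    obtain ⟨u, hu, w, hw, huw⟩ := Set.mem_mul.mp hgm
    have huw' : u * w = p := huw
    have hw' : w ∈ Submonoid.powers x := mem_powers_iff_mem_zpowers.mpr hw
    obtain ⟨j, hj⟩ := hw'
    have hj' : x ^ j = w := hj
    refine ⟨u, ⟨hu, ?_⟩, j, ?_⟩
    · have : u = p * (x ^ j)⁻¹ := by rw [hj', ← huw']; group
      rw [this]
      exact Subgroup.mul_mem _ hp (Subgroup.inv_mem _ (Subgroup.pow_mem _ hxP j))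
    · rw [hj', huw']
  have heq : ⁅(P : Subgroup G), (P : Subgroup G)⁆ = I := by
    apply le_antisymm
    · rw [Subgroup.commutator_le]
      intro p₁ hp₁ p₂ hp₂
      obtain ⟨b₁, hb₁, j₁, rfl⟩ := hdec p₁ hp₁
      obtain ⟨b₂, hb₂, j₂, rfl⟩ := hdec p₂ hp₂
      have hc₁ := hcj j₁ b₂ hb₂
      have hc₂ := hcj j₂ b₁ hb₁
      set w₁ := x ^ j₁ with hw₁
      set w₂ := x ^ j₂ with hw₂
      set c₁ := w₁ * b₂ * w₁⁻¹ * b₂⁻¹ with hc₁d
      set c₂ := w₂ * b₁ * w₂⁻¹ * b₁⁻¹ with hc₂d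
      have hww : w₁ * w₂ = w₂ * w₁ := by
        rw [hw₁, hw₂, ← pow_add, ← pow_add, add_comm]
      have hw₁b : w₁ * b₂ = c₁ * b₂ * w₁ := by rw [hc₁d]; group
      have hw₂b : w₂ * b₁ = c₂ * b₁ * w₂ := by rw [hc₂d]; group
      have hb₁M := hb₁.1
      have hb₂M := hb₂.1
      have hc₁M := (hIP₀ hc₁).1
      have hc₂M := (hIP₀ hc₂).1
      have e1 : b₁ * w₁ * (b₂ * w₂) = (b₁ * b₂) * c₁ * (w₁ * w₂) := by
        calc b₁ * w₁ * (b₂ * w₂) = b₁ * (w₁ * b₂) * w₂ := by group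
          _ = b₁ * (c₁ * b₂ * w₁) * w₂ := by rw [hw₁b]
          _ = b₁ * (c₁ * b₂) * (w₁ * w₂) := by group
          _ = b₁ * (b₂ * c₁) * (w₁ * w₂) := by rw [hab c₁ hc₁M b₂ hb₂M]
          _ = _ := by group
      have e2 : b₂ * w₂ * (b₁ * w₁) = (b₁ * b₂) * c₂ * (w₁ * w₂) := by
        calc b₂ * w₂ * (b₁ * w₁) = b₂ * (w₂ * b₁) * w₁ := by group
          _ = b₂ * (c₂ * b₁ * w₂) * w₁ := by rw [hw₂b]
          _ = b₂ * (c₂ * b₁) * (w₂ * w₁) := by group
          _ = b₂ * (b₁ * c₂) * (w₁ * w₂) := by rw [hab c₂ hc₂M b₁ hb₁M, hww]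
          _ = (b₂ * b₁) * c₂ * (w₁ * w₂) := by group
          _ = _ := by rw [hab b₂ hb₂M b₁ hb₁M]
      have e3 : ⁅b₁ * w₁, b₂ * w₂⁆ = (b₁ * b₂) * (c₁ * c₂⁻¹) * (b₁ * b₂)⁻¹ := by
        rw [commutatorElement_def]
        have : b₁ * w₁ * (b₂ * w₂) * (b₁ * w₁)⁻¹ * (b₂ * w₂)⁻¹ = (b₁ * w₁ * (b₂ * w₂)) * (b₂ * w₂ * (b₁ * w₁))⁻¹ := by group
        rw [this, e1, e2]
        group
      rw [e3]
      have hbb : b₁ * b₂ ∈ M := M.mul_mem hb₁M hb₂M
      have hcc : c₁ * c₂⁻¹ ∈ M := M.mul_mem hc₁M (M.inv_mem hc₂M)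
      rw [hab _ hbb _ hcc, mul_inv_cancel_right]
      exact I.mul_mem hc₁ (I.inv_mem hc₂)
    · rintro _ ⟨_, ⟨b, rfl⟩, rfl⟩
      have h1 := Subgroup.commutator_mem_commutator hxP b.2.2
      rw [commutatorElement_def] at h1
      exact h1
  have hmap := Subgroup.map_subtype_commutator (P : Subgroup G)
  rw [heq] at hmap
  calc Nat.card (commutator (P : Subgroup G))
      = Nat.card ((commutator (P : Subgroup G)).map (P : Subgroup G).subtype) :=
        (Subgroup.card_map_of_injective (Subgroup.subtype_injective _)).symm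
    _ = Nat.card I := by rw [hmap]
    _ = q := hIc

end MData

theorem MData.final {m n q s c e f : ℕ} {M : Subgroup G} {y z : G} (D : MData m n q s c e f M y z)
    (hnodf : ∀ A B : Subgroup G, A.Normal → B.Normal → A ⊓ B = ⊥ → A ⊔ B = ⊤ → IsMulCommutative A → A = ⊥) :
    m.Prime ∧ m ∣ n - 1 ∧ (∃ M : Subgroup G, M.Normal ∧ (M : Set G) = {x : G | (Subgroup.centralizer ({x} : Set G)).index = 1 ∨ (Subgroup.centralizer ({x} : Set G)).index = m} ∧ M.index = m ∧ IsMulCommutative M) ∧ (∃ N : Subgroup G, N.Normal ∧ (Nat.card N).Coprime m ∧ ∃ a : ℕ, N.index = m ^ a) ∧ ∀ P : Sylow m G, Nat.card (commutator (P : Subgroup G)) = m := by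
  have h := D.m_eq_q
  subst h
  have hK := D.K_inf_center hnodf
  haveI : Fact m.Prime := ⟨D.hq⟩
  refine ⟨D.hq, D.q_dvd_n_sub_one hK, ⟨M, D.hMn, ?_, D.hMi, ⟨⟨fun a b => Subtype.ext (D.abelian a a.2 b b.2)⟩⟩⟩,
    ⟨D.K, D.K_normal, D.K_card_coprime, D.K_index⟩, fun P => D.commutator_card hK P⟩
  ext x
  exact D.mem_iff x

end Cfsg.Agent.H13.TC
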