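import Mathlib
import Cfsg.Agent.Lib.H13.TC5
import Cfsg.Agent.Lib.H13.RT11

/-!
Groups with class sizes `1, m, m*n`: no `q`-element of class size `m`, first part.
-/

set_option autoImplicit false
set_option linter.style.haveILetI false
set_option linter.unusedSectionVars false
set_option linter.unusedVariables false
set_option linter.unnecessarySeqFocus false
set_option linter.style.multiGoal false

namespace Cfsg.Agent.H13.TC

open Cfsg H19 RT

universe u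

variable {G : Type u} [Group G] [Finite G]

theorem mem_sylow_of_comm {X : Type*} [Group X] [Finite X] {q k : ℕ} [hq : Fact q.Prime] (Q' : Sylow q X) {g : X}
    (hg : orderOf g = q ^ k) (h : (Q' : Subgroup X) ≤ cz g) : g ∈ (Q' : Subgroup X) := by
  have hp1 : IsPGroup q (Subgroup.zpowers g) := IsPGroup.of_card (n := k) (by rw [Nat.card_zpowers, hg])
  have hn : (Q' : Subgroup X) ≤ Subgroup.normalizer ((Subgroup.zpowers g : Subgroup X) : Set X) := by
    intro u hu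
    have hcu : Commute u g := mem_cz.mp (h hu)
    apply mem_norm_of_conj_le
    rintro _ ⟨i, rfl⟩
    refine ⟨i, ?_⟩
    show g ^ i = u * g ^ i * u⁻¹
    rw [(hcu.zpow_right i).eq, mul_inv_cancel_right]
  have hsup : IsPGroup q ↥((Q' : Subgroup X) ⊔ Subgroup.zpowers g) :=
    IsPGroup.to_sup_of_normal_right' Q'.isPGroup' hp1 hn
  have heq := Q'.is_maximal' hsup le_sup_left
  rw [← heq]
  exact (le_sup_right : Subgroup.zpowers g ≤ _) (Subgroup.mem_zpowers _)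

/-- The relative index of a Sylow subgroup of `D` in a Sylow subgroup of `G`. -/
theorem relIndex_eq_of_sylow {q c k : ℕ} [hq : Fact q.Prime] {A D : Subgroup G} (Q : Sylow q G)
    (hAQ : A ≤ (Q : Subgroup G)) (hAD : A ≤ D) (hA : ¬ q ∣ A.relIndex D) (hD : D.index = q ^ c * k) (hk : ¬ q ∣ k) :
    A.relIndex (Q : Subgroup G) = q ^ c := by
  have h1 := Subgroup.relIndex_mul_index hAQ
  have h2 := Subgroup.relIndex_mul_index hAD
  rw [hD] at h2
  rw [← h2] at h1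
  obtain ⟨α, hα⟩ := IsPGroup.iff_card.mp Q.isPGroup'
  have h3 : A.relIndex (Q : Subgroup G) ∣ q ^ α := by
    rw [← hα]
    have : (A.subgroupOf (Q : Subgroup G)).index ∣ Nat.card (Q : Subgroup G) := Subgroup.index_dvd_card _
    exact this
  obtain ⟨β, _, hβ⟩ := (Nat.dvd_prime_pow hq.out).mp h3
  rw [hβ] at h1 ⊢
  have hco : ∀ x : ℕ, ¬ q ∣ x → ∀ j : ℕ, (q ^ j).Coprime x := fun x hx j =>
    Nat.Coprime.pow_left _ ((Nat.Prime.coprime_iff_not_dvd hq.out).mpr hx)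
  apply Nat.dvd_antisymm
  · have h4 : q ^ β ∣ q ^ c * (A.relIndex D * k) := ⟨(Q : Subgroup G).index, by rw [h1]; ring⟩
    have h5 : ¬ q ∣ A.relIndex D * k := by
      intro h
      rcases (Nat.Prime.dvd_mul hq.out).mp h with h | h
      · exact hA h
      · exact hk h
    exact (hco _ h5 β).dvd_of_dvd_mul_right h4
  · have h4 : q ^ c ∣ q ^ β * (Q : Subgroup G).index := ⟨A.relIndex D * k, by rw [h1]; ring⟩
    exact (hco _ Q.not_dvd_index c).dvd_of_dvd_mul_right h4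

/-- Hypotheses of the second case. -/
structure T2 (m n q s c : ℕ) (G : Type u) [Group G] : Prop where
  S : Setup m n G
  hq : q.Prime
  hmq : m = q ^ c
  hc : c ≠ 0
  hs : s.Prime
  hsn : s ∣ n
  hqs : q ≠ s
  hno : ∀ (e : ℕ) (x : G), orderOf x = q ^ e → (cz x).index ≠ m
  hns : ∀ d : ℕ, d.Prime → d ∣ n → d = s
  hv : ∀ (r e : ℕ) (v : G), r.Prime → orderOf v = r ^ e → (cz v).index = m → r = s

theorem Setup.t2 {m n q c : ℕ} (S : Setup m n G) (hq : q.Prime) (hmq : m = q ^ c) (hc : c ≠ 0)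
    (hno : ∀ (e : ℕ) (x : G), orderOf x = q ^ e → (cz x).index ≠ m) :
    ∃ s, T2 m n q s c G := by
  have hqm : q ∣ m := by
    rw [hmq]
    exact dvd_pow_self q hc
  have hA : ∀ {r e d : ℕ} {v : G}, r.Prime → orderOf v = r ^ e → (cz v).index = m → d.Prime → d ∣ n → d = r := by
    intro r e d v hr hve hvm hd hdn
    by_contra hne
    have hrq : q ≠ r := by
      rintro rfl
      exact hno e v hve hvm
    have hdq : q ≠ d := by
      rintro rfl
      have := Nat.dvd_gcd hqm hdn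
      rw [S.hcop] at this
      exact hq.one_lt.ne' (Nat.dvd_one.mp this)
    obtain ⟨a, ha, haZ, f, hf⟩ := S.exists_nc_in_class_m hq hqm hvm
    have hc' := central_in_cz hr S.hm S.hcls hve hvm hd hne hdn hq hrq hdq ha hf
    have hle : cz v ≤ cz a := fun g hg => mem_cz.mpr (hc' g hg)
    have heq := cz_eq_of_central S.hcls (by have := S.hm; omega) S.m_lt hvm hle haZ
    exact hno f a hf (by rw [heq, hvm])
  obtain ⟨r, e, y, hr, hy, hym⟩ := S.exists_pp_class_m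
  obtain ⟨d, hd, hdn⟩ := Nat.exists_prime_and_dvd (ne_of_gt S.hn)
  have hdr := hA hr hy hym hd hdn
  subst hdr
  refine ⟨d, S, hq, hmq, hc, hr, hdn, ?_, hno, ?_, ?_⟩
  · rintro rfl
    exact hno e y hy hym
  · intro d' hd' hd'n
    exact hA hr hy hym hd' hd'n
  · intro r' e' v hr' hve hvm
    exact (hA hr' hve hvm hr hdn).symm

namespace T2

variable {m n q s c : ℕ} (D : T2 m n q s c G)
include D

theorem hm0 : 0 < m := by have := D.S.hm; omega

theorem q_dvd_m : q ∣ m := by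
  rw [D.hmq]
  exact dvd_pow_self q D.hc

theorem not_dvd_m {t : ℕ} (ht : t.Prime) (htq : t ≠ q) : ¬ t ∣ m := by
  intro h
  rw [D.hmq] at h
  exact htq ((Nat.prime_dvd_prime_iff_eq ht D.hq).mp (ht.dvd_of_dvd_pow h))

theorem q_not_dvd_n : ¬ q ∣ n := by
  intro h
  have := Nat.dvd_gcd D.q_dvd_m h
  rw [D.S.hcop] at this
  exact D.hq.one_lt.ne' (Nat.dvd_one.mp this)

theorem n_eq : n = s ^ n.primeFactorsList.length :=
  Nat.eq_prime_pow_of_unique_prime_dvd (by have := D.S.hn; omega) (fun {d} hd hdn => D.hns d hd hdn)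

theorem big_of_q {e : ℕ} {x : G} (hx : orderOf x = q ^ e) (hxZ : x ∉ Subgroup.center G) : (cz x).index = m * n := by
  rcases D.S.index_cases hxZ with h | h
  · exact absurd h (D.hno e x hx)
  · exact h

theorem big_of_ne_s {t e : ℕ} {x : G} (ht : t.Prime) (hts : t ≠ s) (hx : orderOf x = t ^ e)
    (hxZ : x ∉ Subgroup.center G) : (cz x).index = m * n := by
  rcases D.S.index_cases hxZ with h | h
  · exact absurd (D.hv t e x ht hx h) hts
  · exact h

theorem coprime_q_s (i j : ℕ) : (q ^ i).Coprime (s ^ j) :=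
  Nat.Coprime.pow _ _ ((Nat.coprime_primes D.hq D.hs).mpr D.hqs)

/-- `q`-subgroups of the centralizer of a class-`m` `s`-element are abelian. -/
theorem sylow_abelian {e : ℕ} {v : G} (hv : orderOf v = s ^ e) (hvm : (cz v).index = m) {P : Subgroup G}
    (hP : IsPGroup q P) (hPv : P ≤ cz v) : ∀ a ∈ P, ∀ b ∈ P, a * b = b * a := by
  classical
  haveI : Fact q.Prime := ⟨D.hq⟩
  have hcl := cl_of_class_m D.hs D.S.hm D.S.hcls hv hvm
  have hreg : ∀ x : cz v, (orderOf x).Coprime s → ∃ k, (cz x).index = s ^ k := by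
    intro x hx
    rcases hcl x hx with h | h
    · exact ⟨0, by simpa using h⟩
    · exact ⟨_, h.trans D.n_eq⟩
  obtain ⟨W, hWc, hWs, k, hWi⟩ := abelian_complement_of_regular D.hs hreg
  have hqW : ¬ q ∣ W.index := by
    rw [hWi]
    intro h
    exact D.hqs ((Nat.prime_dvd_prime_iff_eq D.hq D.hs).mp (D.hq.dvd_of_dvd_pow h))
  obtain ⟨T, hT⟩ := exists_sylow_le_of_not_dvd hqW
  have hP' : IsPGroup q (P.subgroupOf (cz v)) := hP.comap_subtype
  obtain ⟨T', hT'⟩ := hP'.exists_le_sylow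
  obtain ⟨g, hg⟩ := MulAction.exists_smul_eq (cz v) T' T
  intro a ha b hb
  have hmem : ∀ u (hu : u ∈ P), g * (⟨u, hPv hu⟩ : cz v) * g⁻¹ ∈ W := by
    intro u hu
    apply hT
    rw [← hg, Sylow.coe_subgroup_smul]
    exact ⟨⟨u, hPv hu⟩, hT' (by rw [Subgroup.mem_subgroupOf]; exact hu), rfl⟩
  have h1 := hWc _ (hmem a ha) _ (hmem b hb)
  have h2 : (⟨a, hPv ha⟩ : cz v) * ⟨b, hPv hb⟩ = ⟨b, hPv hb⟩ * ⟨a, hPv ha⟩ := by
    have h3 : g * ((⟨a, hPv ha⟩ : cz v) * ⟨b, hPv hb⟩) * g⁻¹ = g * ((⟨b, hPv hb⟩ : cz v) * ⟨a, hPv ha⟩) * g⁻¹ := by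
      calc g * ((⟨a, hPv ha⟩ : cz v) * ⟨b, hPv hb⟩) * g⁻¹
          = (g * (⟨a, hPv ha⟩ : cz v) * g⁻¹) * (g * (⟨b, hPv hb⟩ : cz v) * g⁻¹) := by group
        _ = (g * (⟨b, hPv hb⟩ : cz v) * g⁻¹) * (g * (⟨a, hPv ha⟩ : cz v) * g⁻¹) := h1
        _ = _ := by group
    simpa using h3
  exact congrArg Subtype.val h2

theorem exists_class_m_in_cz {e : ℕ} {x : G} (hx : orderOf x = q ^ e) (hxZ : x ∉ Subgroup.center G) :
    ∃ (v : G) (f : ℕ), v ∈ cz x ∧ orderOf v = s ^ f ∧ (cz v).index = m := by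
  classical
  haveI : Fact s.Prime := ⟨D.hs⟩
  obtain ⟨f₀, z₀, hz₀, hz₀m⟩ := D.S.exists_s_class_m D.hs D.hsn
  obtain ⟨a₀, ha₀, ha₀Z, g₀, hg₀⟩ := D.S.exists_nc_in_class_m D.hq D.q_dvd_m hz₀m
  have hz₀a : z₀ ∈ cz a₀ := mem_cz.mpr (mem_cz.mp ha₀).symm
  have hd : Nat.card (cz a₀) ∣ Nat.card (cz x) := by
    apply card_cz_dvd_of_index_dvd
    rw [D.big_of_q hg₀ ha₀Z, D.big_of_q hx hxZ]
  obtain ⟨u, hu, huZ, f, hf⟩ := exists_nc_of_card_dvd' D.hs hz₀ (D.S.nc_of_m hz₀m) (cz a₀) (cz x) (center_le_cz _) hz₀a hd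
  rcases D.S.index_cases huZ with h | h
  · exact ⟨u, f, hu, hf, h⟩
  · have hco : (orderOf x).Coprime (orderOf u) := by
      rw [hx, hf]
      exact D.coprime_q_s _ _
    have hle := D.S.cz_le_of_big h (show Commute x u from (mem_cz.mp hu).symm) hco
    obtain ⟨T, hT⟩ := exists_sylow_of_orderOf hf
    obtain ⟨v, hvT, hvm, hvc, f', hf'⟩ := D.S.exists_central_in_sylow D.hsn T
    exact ⟨v, f', hle (mem_cz.mpr (hvc u hT).symm), hf', hvm⟩

/-- The centralizer of a non-central `q`-element is abelian. -/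
theorem cz_abelian {e : ℕ} {x : G} (hx : orderOf x = q ^ e) (hxZ : x ∉ Subgroup.center G) :
    ∀ a ∈ cz x, ∀ b ∈ cz x, a * b = b * a := by
  classical
  haveI : Fact q.Prime := ⟨D.hq⟩
  obtain ⟨v, f, hv, hvo, hvm⟩ := D.exists_class_m_in_cz hx hxZ
  have hxb := D.big_of_q hx hxZ
  have hle : cz x ≤ cz v := by
    apply D.S.cz_le_of_big hxb (show Commute v x from mem_cz.mp hv)
    rw [hvo, hx]
    exact (D.coprime_q_s _ _).symm
  have hp : ∀ (t f : ℕ) (w : G), t.Prime → t ≠ q → w ∈ cz x → orderOf w = t ^ f → cz x ≤ cz w := by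
    intro t f w ht htq hw hwo
    apply D.S.cz_le_of_big hxb (show Commute w x from mem_cz.mp hw)
    rw [hwo, hx]
    exact Nat.Coprime.pow _ _ ((Nat.coprime_primes ht D.hq).mpr htq)
  obtain ⟨A⟩ : Nonempty (Sylow q (cz x)) := inferInstance
  set Â : Subgroup G := (A : Subgroup (cz x)).map (cz x).subtype with hÂ
  have hÂp : IsPGroup q Â := A.isPGroup'.map _
  have hÂc := D.sylow_abelian hvo hvm hÂp ((Subgroup.map_subtype_le _).trans hle)
  have hidx : (Subgroup.center (cz x)).index = q ^ (Subgroup.center (cz x)).index.primeFactorsList.length := by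
    apply Nat.eq_prime_pow_of_unique_prime_dvd Subgroup.FiniteIndex.index_ne_zero
    intro d hd hda
    by_contra hne
    haveI : Fact d.Prime := ⟨hd⟩
    obtain ⟨w, f', hw, hwc⟩ := exists_nc_elt hda
    apply hwc
    rw [Subgroup.mem_center_iff]
    intro b
    have h1 := hp d f' w hd hne w.2 (by rw [Subgroup.orderOf_coe, hw])
    exact Subtype.ext (mem_cz.mp (h1 b.2))
  have hsup : (A : Subgroup (cz x)) ⊔ Subgroup.center (cz x) = ⊤ := by
    rw [← Subgroup.index_eq_one]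
    have h1 : ((A : Subgroup (cz x)) ⊔ Subgroup.center (cz x)).index ∣ (Subgroup.center (cz x)).index :=
      Subgroup.index_dvd_of_le le_sup_right
    have h2 : ((A : Subgroup (cz x)) ⊔ Subgroup.center (cz x)).index ∣ (A : Subgroup (cz x)).index :=
      Subgroup.index_dvd_of_le le_sup_left
    rw [hidx] at h1
    obtain ⟨j, _, hj⟩ := (Nat.dvd_prime_pow D.hq).mp h1
    rcases Nat.eq_zero_or_pos j with h0 | h0
    · rw [hj, h0, pow_zero]
    · exfalso
      rw [hj] at h2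
      exact A.not_dvd_index ((dvd_pow_self q h0.ne').trans h2)
  have hdec : ∀ g : cz x, ∃ a ∈ (A : Subgroup (cz x)), ∃ ζ ∈ Subgroup.center (cz x), g = a * ζ := by
    intro g
    have hg : g ∈ (((A : Subgroup (cz x)) ⊔ Subgroup.center (cz x) : Subgroup (cz x)) : Set (cz x)) := by
      rw [hsup]
      exact Set.mem_univ _
    rw [Subgroup.mul_normal] at hg
    obtain ⟨a, ha, ζ, hζ, h⟩ := Set.mem_mul.mp hg
    exact ⟨a, ha, ζ, hζ, h.symm⟩
  intro a ha b hb
  obtain ⟨a₁, ha₁, ζ₁, hζ₁, h1⟩ := hdec ⟨a, ha⟩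
  obtain ⟨a₂, ha₂, ζ₂, hζ₂, h2⟩ := hdec ⟨b, hb⟩
  have h3 : a₁ * a₂ = a₂ * a₁ := Subtype.ext (hÂc _ ⟨a₁, ha₁, rfl⟩ _ ⟨a₂, ha₂, rfl⟩)
  have h4 : (⟨a, ha⟩ : cz x) * ⟨b, hb⟩ = ⟨b, hb⟩ * ⟨a, ha⟩ := by
    rw [h1, h2]
    have c1 : ζ₁ * (a₂ * ζ₂) = (a₂ * ζ₂) * ζ₁ := (Subgroup.mem_center_iff.mp hζ₁ _).symm
    have c2 : ζ₂ * a₁ = a₁ * ζ₂ := (Subgroup.mem_center_iff.mp hζ₂ _).symm
    calc a₁ * ζ₁ * (a₂ * ζ₂) = a₁ * (ζ₁ * (a₂ * ζ₂)) := by group
      _ = a₁ * ((a₂ * ζ₂) * ζ₁) := by rw [c1]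
      _ = (a₁ * a₂) * ζ₂ * ζ₁ := by group
      _ = (a₂ * a₁) * ζ₂ * ζ₁ := by rw [h3]
      _ = a₂ * (ζ₂ * a₁) * ζ₁ := by rw [c2]; group
      _ = (a₂ * ζ₂) * (a₁ * ζ₁) := by group
  exact congrArg Subtype.val h4

theorem cz_eq_of_mem {e i : ℕ} {x b : G} (hx : orderOf x = q ^ e) (hxZ : x ∉ Subgroup.center G)
    (hb : b ∈ cz x) (hbo : orderOf b = q ^ i) (hbZ : b ∉ Subgroup.center G) : cz b = cz x := by
  symm
  apply eq_of_le_of_index_eq
  · intro g hg
    exact mem_cz.mpr (D.cz_abelian hx hxZ g hg b hb)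
  · rw [D.big_of_q hx hxZ, D.big_of_q hbo hbZ]

end T2

end Cfsg.Agent.H13.TC
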