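import Mathlib
import Cfsg.Agent.Lib.H13.TC7

/-!
Groups with class sizes `1, m, m*n`: no `q`-element of class size `m`, second part.
-/

set_option autoImplicit false
set_option linter.style.haveILetI false
set_option linter.unusedSectionVars false
set_option linter.unusedVariables false
set_option linter.unnecessarySeqFocus false
set_option linter.style.multiGoal false

namespace Cfsg.Agent.H13.TC

open Cfsg H19 RT

universe u

variable {G : Type u} [Group G] [Finite G]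

/-- An element of the second centre of `Q` outside the centre. -/
structure Good (Q : Subgroup G) (a : G) : Prop where
  mem : a ∈ Q
  nc : a ∉ Subgroup.center G
  cm : ∀ g ∈ Q, g * a * g⁻¹ * a⁻¹ ∈ Subgroup.center G

theorem Good.conj {q : ℕ} [Fact q.Prime] {Q : Sylow q G} {a : G} (h : Good (Q : Subgroup G) a) (g : G) :
    Good ((g • Q : Sylow q G) : Subgroup G) (g * a * g⁻¹) := by
  refine ⟨?_, conj_notMem_center h.nc, ?_⟩
  · rw [Sylow.coe_subgroup_smul]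
    exact ⟨a, h.mem, rfl⟩
  · intro u hu
    rw [Sylow.coe_subgroup_smul] at hu
    obtain ⟨t, ht, htu⟩ := hu
    have htu' : g * t * g⁻¹ = u := htu
    have h1 := h.cm t ht
    have h2 : u * (g * a * g⁻¹) * u⁻¹ * (g * a * g⁻¹)⁻¹ = g * (t * a * t⁻¹ * a⁻¹) * g⁻¹ := by
      rw [← htu']
      group
    rw [h2, Subgroup.mem_center_iff.mp h1 g]
    simpa using h1

theorem Good.norm {Q : Subgroup G} {a g cc : G} (h : Good Q a) (hg : g ∈ Q) (hc : cc ∈ cz a) : g * cc * g⁻¹ ∈ cz a := by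
  have h1 := h.cm g hg
  set ζ := g * a * g⁻¹ * a⁻¹ with hζ
  have h2 : g * a * g⁻¹ = ζ * a := by rw [hζ]; group
  have h3 := conj_mem_cz_conj (g := g) hc
  rw [h2, mem_cz] at h3
  rw [mem_cz]
  have h4 : (g * cc * g⁻¹) * ζ = ζ * (g * cc * g⁻¹) := Subgroup.mem_center_iff.mp h1 _
  have h5 : ζ * ((g * cc * g⁻¹) * a) = ζ * (a * (g * cc * g⁻¹)) := by
    calc ζ * ((g * cc * g⁻¹) * a) = (ζ * (g * cc * g⁻¹)) * a := by group
      _ = ((g * cc * g⁻¹) * ζ) * a := by rw [h4]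
      _ = (g * cc * g⁻¹) * (ζ * a) := by group
      _ = (ζ * a) * (g * cc * g⁻¹) := h3
      _ = _ := by group
  exact mul_left_cancel h5

theorem fix_lemma {q s i k : ℕ} (hqs : (q ^ i).Coprime (s ^ k)) {a V e : G} (ha : orderOf a = q ^ i)
    (hez : e ∈ Subgroup.center G) (h : a * V * a⁻¹ = V * e) (hes : e ^ (s ^ k) = 1) : e = 1 := by
  have hpow : ∀ j : ℕ, a ^ j * V * (a ^ j)⁻¹ = V * e ^ j := by
    intro j
    induction j with
    | zero => simp
    | succ j ih =>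
      have h2 : a ^ (j + 1) * V * (a ^ (j + 1))⁻¹ = a * (a ^ j * V * (a ^ j)⁻¹) * a⁻¹ := by
        rw [pow_succ']
        group
      rw [h2, ih]
      have h3 : a⁻¹ * e ^ j = e ^ j * a⁻¹ := Subgroup.mem_center_iff.mp ((Subgroup.center G).pow_mem hez j) a⁻¹
      have h4 : a * (V * e ^ j) * a⁻¹ = (a * V * a⁻¹) * e ^ j := by
        calc a * (V * e ^ j) * a⁻¹ = a * V * (e ^ j * a⁻¹) := by group
          _ = a * V * (a⁻¹ * e ^ j) := by rw [h3]
          _ = _ := by group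
      rw [h4, h, pow_succ']
      group
  have h1 := hpow (q ^ i)
  rw [← ha, pow_orderOf_eq_one] at h1
  simp only [one_mul, inv_one, mul_one] at h1
  rw [ha] at h1
  have h2 : e ^ (q ^ i) = 1 := by
    have : V * 1 = V * e ^ (q ^ i) := by rw [mul_one]; exact h1
    exact (mul_left_cancel this).symm
  have h3 : orderOf e ∣ q ^ i := orderOf_dvd_of_pow_eq_one h2
  have h4 : orderOf e ∣ s ^ k := orderOf_dvd_of_pow_eq_one hes
  have h5 := Nat.dvd_gcd h3 h4
  rw [hqs] at h5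
  exact orderOf_eq_one_iff.mp (Nat.dvd_one.mp h5)

namespace T2

variable {m n q s c : ℕ} (D : T2 m n q s c G)
include D

theorem good_qelts [Fact q.Prime] (Q : Sylow q G) {a g : G} {i : ℕ} (h : Good (Q : Subgroup G) a) (hg : g ∈ cz a)
    (hgo : orderOf g = q ^ i) : g ∈ (Q : Subgroup G) := by
  classical
  obtain ⟨e, he⟩ := elt_of_pgroup D.hq Q.isPGroup' h.mem
  have hab := D.cz_abelian he h.nc
  obtain ⟨A⟩ : Nonempty (Sylow q (cz a)) := inferInstance
  set Â : Subgroup G := (A : Subgroup (cz a)).map (cz a).subtype with hÂ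
  have hmem : ∀ (u : G) (j : ℕ), u ∈ cz a → orderOf u = q ^ j → u ∈ Â := by
    intro u j hu huo
    have h1 := mem_sylow_of_comm A (g := (⟨u, hu⟩ : cz a)) (k := j) (by rw [Subgroup.orderOf_mk, huo])
      (by
        intro t _
        exact mem_cz.mpr (Subtype.ext (hab t t.2 u hu)))
    exact ⟨_, h1, rfl⟩
  have hÂp : IsPGroup q Â := A.isPGroup'.map _
  have hÂle : Â ≤ cz a := Subgroup.map_subtype_le _
  have hnorm : (Q : Subgroup G) ≤ Subgroup.normalizer (Â : Set G) := by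
    intro b hb
    apply mem_norm_of_conj_le
    intro t ht
    obtain ⟨j, hj⟩ := elt_of_pgroup D.hq hÂp ht
    exact hmem _ j (h.norm hb (hÂle ht)) (by rw [conj_order, hj])
  have hsup : IsPGroup q ↥((Q : Subgroup G) ⊔ Â) := IsPGroup.to_sup_of_normal_right' Q.isPGroup' hÂp hnorm
  have heq := Q.is_maximal' hsup le_sup_left
  rw [← heq]
  exact (le_sup_right : Â ≤ _) (hmem g i hg hgo)

theorem index_q_n : ∀ {x : G} {e : ℕ}, orderOf x = q ^ e → x ∉ Subgroup.center G → (cz x).index = q ^ c * n := by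
  intro x e hx hxZ
  rw [D.big_of_q hx hxZ, D.hmq]

theorem good_index [Fact q.Prime] (Q : Sylow q G) {a : G} (h : Good (Q : Subgroup G) a) :
    (cz a).relIndex (Q : Subgroup G) = m := by
  obtain ⟨e, he⟩ := elt_of_pgroup D.hq Q.isPGroup' h.mem
  have h1 := relIndex_eq_of_sylow (A := cz a ⊓ (Q : Subgroup G)) (D := cz a) Q inf_le_right inf_le_left ?_
    (D.index_q_n he h.nc) D.q_not_dvd_n
  · rw [Subgroup.inf_relIndex_right] at h1
    rw [h1, D.hmq]
  · intro hd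
    obtain ⟨u, i, hu, huA⟩ := exists_nc_elt (D := (cz a ⊓ (Q : Subgroup G)).subgroupOf (cz a)) (t := q) hd
    apply huA
    rw [Subgroup.mem_subgroupOf]
    exact ⟨u.2, D.good_qelts Q h u.2 (by rw [Subgroup.orderOf_coe, hu])⟩

theorem good_fix [Fact q.Prime] (Q : Sylow q G) {a b y : G} (h : Good (Q : Subgroup G) a) (hb : b ∈ (Q : Subgroup G))
    (hbn : b ∉ cz a) (hy : y ∈ cz a) (hc : b * y = y * b) : y ∈ Subgroup.center G := by
  by_contra hyZ
  obtain ⟨e, he⟩ := elt_of_pgroup D.hq Q.isPGroup' h.mem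
  have hab := D.cz_abelian he h.nc
  set E : Subgroup G := cz y ⊓ (Q : Subgroup G) with hE
  set A₀ : Subgroup G := cz a ⊓ (Q : Subgroup G) with hA₀
  have hA₀E : A₀ ≤ E := by
    rintro g ⟨h1, h2⟩
    exact ⟨mem_cz.mpr (hab g h1 y hy), h2⟩
  have h1 := Subgroup.relIndex_mul_index (inf_le_right : E ≤ (Q : Subgroup G))
  have h2 := Subgroup.relIndex_mul_index (inf_le_left : E ≤ cz y)
  have h3 : q ^ c ∣ E.index := by
    rw [← h2, ← D.hmq]
    exact (D.S.dvd_index hyZ).trans (dvd_mul_left _ _)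
  rw [← h1] at h3
  have hco : (q ^ c).Coprime (Q : Subgroup G).index :=
    Nat.Coprime.pow_left _ ((Nat.Prime.coprime_iff_not_dvd D.hq).mpr Q.not_dvd_index)
  have h4 : q ^ c ∣ E.relIndex (Q : Subgroup G) := hco.dvd_of_dvd_mul_right h3
  have h5 := Subgroup.relIndex_mul_relIndex A₀ E (Q : Subgroup G) hA₀E inf_le_right
  have h6 : A₀.relIndex (Q : Subgroup G) = q ^ c := by
    rw [hA₀, Subgroup.inf_relIndex_right, D.good_index Q h, D.hmq]
  rw [h6] at h5
  obtain ⟨w, hw⟩ := h4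
  rw [hw] at h5
  have hqc : 0 < q ^ c := pow_pos D.hq.pos c
  have h7 : A₀.relIndex E * w = 1 := by
    apply Nat.eq_of_mul_eq_mul_left hqc
    rw [mul_one]
    calc q ^ c * (A₀.relIndex E * w) = A₀.relIndex E * (q ^ c * w) := by ring
      _ = q ^ c := h5
  have h8 : A₀.relIndex E = 1 := Nat.eq_one_of_mul_eq_one_right h7
  have h9 := Subgroup.relIndex_eq_one.mp h8
  exact hbn (h9 ⟨mem_cz.mpr hc, hb⟩).1

theorem good_Y [Fact q.Prime] (Q : Sylow q G) {a : G} (h : Good (Q : Subgroup G) a) :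
    ∃ (v : G) (f : ℕ) (Y : Subgroup G), orderOf v = s ^ f ∧ (cz v).index = m ∧ v ∈ Y ∧ Y.Normal ∧ Y ≤ cz a ∧
      ∀ y ∈ Y, ∃ k : ℕ, y ^ (s ^ k) = 1 := by
  classical
  obtain ⟨e, he⟩ := elt_of_pgroup D.hq Q.isPGroup' h.mem
  have hab := D.cz_abelian he h.nc
  obtain ⟨v, f, hv, hvo, hvm⟩ := D.exists_class_m_in_cz he h.nc
  have hconj : ∀ g : G, g * v * g⁻¹ ∈ cz a := by
    intro g
    obtain ⟨p, hp, d, hd, hpd⟩ := exists_mul_of_index_pow (D := cz v) (q := q) (k := c) (by rw [hvm, D.hmq]) Q g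
    have h1 : g * v * g⁻¹ = p * v * p⁻¹ := by
      rw [hpd]
      have hdv : d * v = v * d := mem_cz.mp hd
      calc p * d * v * (p * d)⁻¹ = p * (d * v) * d⁻¹ * p⁻¹ := by group
        _ = p * (v * d) * d⁻¹ * p⁻¹ := by rw [hdv]
        _ = _ := by group
    rw [h1]
    exact h.norm hp hv
  refine ⟨v, f, Subgroup.normalClosure {v}, hvo, hvm, Subgroup.subset_normalClosure rfl,
    Subgroup.normalClosure_normal, ?_⟩
  have hP : ∀ y ∈ Subgroup.normalClosure ({v} : Set G), y ∈ cz a ∧ ∃ k : ℕ, y ^ (s ^ k) = 1 := by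
    intro y hy
    refine Subgroup.closure_induction (p := fun y _ => y ∈ cz a ∧ ∃ k : ℕ, y ^ (s ^ k) = 1) ?_ ?_ ?_ ?_ hy
    · intro x hx
      obtain ⟨b, hb, hbx⟩ := Group.mem_conjugatesOfSet_iff.mp hx
      obtain ⟨g, hg⟩ := isConj_iff.mp hbx
      have hbv : b = v := hb
      subst hbv
      rw [← hg]
      refine ⟨hconj g, f, ?_⟩
      rw [conj_pow, ← hvo, pow_orderOf_eq_one]
      simp
    · exact ⟨(cz a).one_mem, 0, by simp⟩
    · rintro x₁ x₂ _ _ ⟨h1, k₁, hk₁⟩ ⟨h2, k₂, hk₂⟩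
      refine ⟨(cz a).mul_mem h1 h2, k₁ + k₂, ?_⟩
      have hcm : Commute x₁ x₂ := hab x₁ h1 x₂ h2
      rw [hcm.mul_pow, pow_add, pow_mul, hk₁, one_pow, one_mul, mul_comm, pow_mul, hk₂, one_pow]
    · rintro x₁ _ ⟨h1, k₁, hk₁⟩
      refine ⟨(cz a).inv_mem h1, k₁, ?_⟩
      rw [inv_pow, hk₁, inv_one]
  exact ⟨fun y hy => (hP y hy).1, fun y hy => (hP y hy).2⟩

theorem exists_good [Fact q.Prime] (Q : Sylow q G) :
    ∃ a : G, Good (Q : Subgroup G) a ∧ a ^ q ∈ Subgroup.center G := by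
  obtain ⟨e, x, hx, hxZ⟩ := D.S.exists_nc_of_dvd_m D.hq D.q_dvd_m
  obtain ⟨g, hg⟩ := exists_conj_mem_sylow Q hx
  have hNZ : ¬ (Q : Subgroup G) ≤ Subgroup.center G := fun h => conj_notMem_center (g := g) hxZ (h hg)
  obtain ⟨a, ha, haZ, hac, haq⟩ := exists_z2_normal Q.isPGroup' le_rfl
    (fun b hb t ht => Subgroup.mul_mem _ (Subgroup.mul_mem _ hb ht) (Subgroup.inv_mem _ hb)) hNZ
  exact ⟨a, ⟨ha, haZ, hac⟩, haq⟩

theorem m_eq_q : m = q := by
  classical
  haveI : Fact q.Prime := ⟨D.hq⟩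
  obtain ⟨Q⟩ : Nonempty (Sylow q G) := inferInstance
  obtain ⟨a, hG, haq⟩ := D.exists_good Q
  obtain ⟨e, he⟩ := elt_of_pgroup D.hq Q.isPGroup' hG.mem
  have hab := D.cz_abelian he hG.nc
  obtain ⟨v, f, Y, hvo, hvm, hvY, hYn, hYle, hYs⟩ := D.good_Y Q hG
  have hidx := D.good_index Q hG
  rcases index_eq_q_or D.hq (B := (Q : Subgroup G)) (Y := Y) (a₀ := a) hG.cm haq
      (fun g _ hg y hy => hab g hg y (hYle hy))
      (fun x hx y hy => hab x (hYle hx) y (hYle hy))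
      (fun g _ y hy => hYn.conj_mem y hy g)
      (by
        intro b hb hbn y hy hf
        apply D.good_fix Q hG hb hbn (hYle hy)
        calc b * y = b * y * b⁻¹ * b := by group
          _ = y * b := by rw [hf])
      (by
        rw [hidx]
        have := D.S.hm
        omega) with h | h
  · rw [← hidx, h]
  · exfalso
    have h1 := h v hvY
    apply D.S.nc_of_m hvm
    apply mem_of_pow_mem _ h1
    rw [hvo]
    exact D.coprime_q_s 1 f |> fun h2 => by simpa using h2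

theorem two_struct [hqf : Fact q.Prime] (Q : Sylow q G) {a₀ a₁ : G} (h₀ : Good (Q : Subgroup G) a₀)
    (h₁ : Good (Q : Subgroup G) a₁) : cz a₀ ⊓ (Q : Subgroup G) = cz a₁ ⊓ (Q : Subgroup G) := by
  classical
  by_contra hne
  haveI : Fact s.Prime := ⟨D.hs⟩
  have hmq := D.m_eq_q
  have hq := D.hq
  obtain ⟨e₀, he₀⟩ := elt_of_pgroup D.hq Q.isPGroup' h₀.mem
  obtain ⟨e₁, he₁⟩ := elt_of_pgroup D.hq Q.isPGroup' h₁.mem
  have hab₀ := D.cz_abelian he₀ h₀.nc
  have hab₁ := D.cz_abelian he₁ h₁.nc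
  set Q₀ := cz a₀ ⊓ (Q : Subgroup G) with hQ₀
  set Q₁ := cz a₁ ⊓ (Q : Subgroup G) with hQ₁
  have hi₀ : Q₀.relIndex (Q : Subgroup G) = q := by
    rw [hQ₀, Subgroup.inf_relIndex_right, D.good_index Q h₀, hmq]
  have hi₁ : Q₁.relIndex (Q : Subgroup G) = q := by
    rw [hQ₁, Subgroup.inf_relIndex_right, D.good_index Q h₁, hmq]
  have hQ₀Q : Q₀ ≤ (Q : Subgroup G) := inf_le_right
  have hQ₁Q : Q₁ ≤ (Q : Subgroup G) := inf_le_right
  have hmax : ∀ E : Subgroup G, Q₀ ≤ E → Q₁ ≤ E → (Q : Subgroup G) ≤ E := by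
    intro E h1 h2
    have hE : Q₀ ≤ E ⊓ (Q : Subgroup G) := le_inf h1 hQ₀Q
    have h3 := Subgroup.relIndex_mul_relIndex Q₀ (E ⊓ (Q : Subgroup G)) (Q : Subgroup G) hE inf_le_right
    rw [hi₀] at h3
    rcases (Nat.dvd_prime hq).mp ⟨_, h3.symm⟩ with h | h
    · exfalso
      have h4 := Subgroup.relIndex_eq_one.mp h
      have h5 : Q₁ ≤ Q₀ := (le_inf h2 hQ₁Q).trans h4
      have h6 := Subgroup.relIndex_mul_relIndex Q₁ Q₀ (Q : Subgroup G) h5 hQ₀Q
      rw [hi₀, hi₁] at h6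
      have h7 : Q₁.relIndex Q₀ = 1 := Nat.eq_of_mul_eq_mul_right hq.pos (by rw [h6, one_mul])
      exact hne (le_antisymm (Subgroup.relIndex_eq_one.mp h7) h5)
    · rw [h] at h3
      have h4 : (E ⊓ (Q : Subgroup G)).relIndex (Q : Subgroup G) = 1 := by
        apply Nat.eq_of_mul_eq_mul_left hq.pos
        rw [h3, mul_one]
      exact (Subgroup.relIndex_eq_one.mp h4).trans inf_le_left
  have hcen : ∀ e : G, Q₀ ≤ cz e → Q₁ ≤ cz e → e ∈ Subgroup.center G := fun e h1 h2 =>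
    D.S.central_of_sylow_le D.q_dvd_m Q (hmax _ h1 h2)
  obtain ⟨v₀, f₀, Y₀, hv₀o, hv₀m, hv₀Y, hY₀n, hY₀le, hY₀s⟩ := D.good_Y Q h₀
  obtain ⟨v₁, f₁, Y₁, hv₁o, hv₁m, hv₁Y, hY₁n, hY₁le, hY₁s⟩ := D.good_Y Q h₁
  have hsm : ¬ s ∣ m := D.not_dvd_m D.hs D.hqs.symm
  obtain ⟨T, hT⟩ := exists_sylow_le_of_not_dvd (D := cz v₀) (t := s) (by rwa [hv₀m])
  obtain ⟨T₁, hT₁⟩ := exists_sylow_le_of_not_dvd (D := cz v₁) (t := s) (by rwa [hv₁m])
  obtain ⟨g, hg⟩ := MulAction.exists_smul_eq G T₁ T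
  set v' := g * v₁ * g⁻¹ with hv'
  have hTv' : (T : Subgroup G) ≤ cz v' := by
    intro u hu
    rw [← hg, Sylow.coe_subgroup_smul] at hu
    obtain ⟨t, ht, htu⟩ := hu
    have htu' : g * t * g⁻¹ = u := htu
    rw [← htu']
    exact conj_mem_cz_conj (hT₁ ht)
  have hv'm : (cz v').index = m := by rw [hv', index_cz_conj, hv₁m]
  have hv'Y : v' ∈ Y₁ := hY₁n.conj_mem _ hv₁Y g
  have hv'Z := D.S.nc_of_m hv'm
  set w := v₀ * v' with hw
  have hTw : (T : Subgroup G) ≤ cz w := by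
    intro u hu
    have h1 := mem_cz.mp (hT hu)
    have h2 := mem_cz.mp (hTv' hu)
    rw [mem_cz, hw]
    calc u * (v₀ * v') = (u * v₀) * v' := by group
      _ = v₀ * (u * v') := by rw [h1]; group
      _ = v₀ * (v' * u) := by rw [h2]
      _ = _ := by group
  by_cases hwZ : w ∈ Subgroup.center G
  · apply hv'Z
    apply hcen
    · intro t ht
      have h1 : t * v₀ = v₀ * t := hab₀ t ht.1 v₀ (hY₀le hv₀Y)
      have h2 : t * w = w * t := (Subgroup.mem_center_iff.mp hwZ t)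
      have h3 : v' = v₀⁻¹ * w := by rw [hw]; group
      rw [mem_cz, h3]
      have h4 : t * v₀⁻¹ = v₀⁻¹ * t := by
        have := (show Commute t v₀ from h1).inv_right
        exact this
      calc t * (v₀⁻¹ * w) = (t * v₀⁻¹) * w := by group
        _ = v₀⁻¹ * (t * w) := by rw [h4]; group
        _ = v₀⁻¹ * (w * t) := by rw [h2]
        _ = _ := by group
    · intro t ht
      exact mem_cz.mpr (hab₁ t ht.1 v' (hY₁le hv'Y))
  · have hwm : (cz w).index = m := by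
      rcases D.S.index_cases hwZ with h | h
      · exact h
      · exfalso
        apply T.not_dvd_index
        have h1 := Subgroup.index_dvd_of_le hTw
        rw [h] at h1
        exact (D.hsn.trans (dvd_mul_left _ _)).trans h1
    obtain ⟨a', ha', ha'Z, i, hi⟩ := D.S.exists_nc_in_class_m D.hq D.q_dvd_m hwm
    obtain ⟨g₁, hg₁⟩ := exists_conj_mem_sylow Q hi
    set A := g₁ * a' * g₁⁻¹ with hA
    set V₀ := g₁ * v₀ * g₁⁻¹ with hV₀
    set V₁ := g₁ * v' * g₁⁻¹ with hV₁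
    have hAo : orderOf A = q ^ i := by rw [hA, conj_order, hi]
    have hAZ : A ∉ Subgroup.center G := conj_notMem_center ha'Z
    have hV₀Y : V₀ ∈ Y₀ := hY₀n.conj_mem _ hv₀Y g₁
    have hV₁Y : V₁ ∈ Y₁ := hY₁n.conj_mem _ hv'Y g₁
    have hV₀Z : V₀ ∉ Subgroup.center G := conj_notMem_center (D.S.nc_of_m hv₀m)
    have hV₁Z : V₁ ∉ Subgroup.center G := conj_notMem_center hv'Z
    have hcomm : A * (V₀ * V₁) = (V₀ * V₁) * A := by
      have h1 := commute_conj (g := g₁) (mem_cz.mp ha')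
      have h2 : g₁ * w * g₁⁻¹ = V₀ * V₁ := by
        rw [hw, hV₀, hV₁]
        group
      rw [h2] at h1
      exact h1
    set B₀ := A * V₀ * A⁻¹ with hB₀
    set B₁ := A * V₁ * A⁻¹ with hB₁
    have hBB : B₀ * B₁ = V₀ * V₁ := by
      rw [hB₀, hB₁]
      calc A * V₀ * A⁻¹ * (A * V₁ * A⁻¹) = (A * (V₀ * V₁)) * A⁻¹ := by group
        _ = ((V₀ * V₁) * A) * A⁻¹ := by rw [hcomm]
        _ = _ := by group
    set ε := V₀⁻¹ * B₀ with hε
    have hε1 : ε = V₁ * B₁⁻¹ := by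
      rw [hε]
      calc V₀⁻¹ * B₀ = V₀⁻¹ * (B₀ * B₁) * B₁⁻¹ := by group
        _ = V₀⁻¹ * (V₀ * V₁) * B₁⁻¹ := by rw [hBB]
        _ = _ := by group
    have hεY₀ : ε ∈ Y₀ := Y₀.mul_mem (Y₀.inv_mem hV₀Y) (hY₀n.conj_mem _ hV₀Y A)
    have hεY₁ : ε ∈ Y₁ := by
      rw [hε1]
      exact Y₁.mul_mem hV₁Y (Y₁.inv_mem (hY₁n.conj_mem _ hV₁Y A))
    have hεZ : ε ∈ Subgroup.center G := hcen ε
      (fun t ht => mem_cz.mpr (hab₀ t ht.1 ε (hY₀le hεY₀)))
      (fun t ht => mem_cz.mpr (hab₁ t ht.1 ε (hY₁le hεY₁)))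
    obtain ⟨k, hk⟩ := hY₀s ε hεY₀
    have hε2 : A * V₀ * A⁻¹ = V₀ * ε := by rw [hε, ← hB₀]; group
    have hε3 : ε = 1 := fix_lemma (D.coprime_q_s i k) hAo hεZ hε2 hk
    have hcA₀ : A * V₀ = V₀ * A := by
      have : A * V₀ * A⁻¹ = V₀ := by rw [hε2, hε3, mul_one]
      calc A * V₀ = A * V₀ * A⁻¹ * A := by group
        _ = V₀ * A := by rw [this]
    have hcA₁ : A * V₁ = V₁ * A := by
      have h1 : B₁ = V₁ := by
        have h2 : V₁ * B₁⁻¹ = 1 := by rw [← hε1, hε3]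
        exact (mul_inv_eq_one.mp h2).symm
      calc A * V₁ = A * V₁ * A⁻¹ * A := by group
        _ = V₁ * A := by rw [← hB₁, h1]
    have hA₀ : A ∈ cz a₀ := by
      by_contra hn
      exact hV₀Z (D.good_fix Q h₀ hg₁ hn (hY₀le hV₀Y) hcA₀)
    have hA₁ : A ∈ cz a₁ := by
      by_contra hn
      exact hV₁Z (D.good_fix Q h₁ hg₁ hn (hY₁le hV₁Y) hcA₁)
    exact hAZ (hcen A (fun t ht => mem_cz.mpr (hab₀ t ht.1 A hA₀)) (fun t ht => mem_cz.mpr (hab₁ t ht.1 A hA₁)))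

theorem conj_into [hqf : Fact q.Prime] (Q : Sylow q G) {a₀ x : G} {e : ℕ} (h₀ : Good (Q : Subgroup G) a₀)
    (hx : orderOf x = q ^ e) (hxZ : x ∉ Subgroup.center G) : ∃ g : G, g * x * g⁻¹ ∈ cz a₀ := by
  classical
  have hab := D.cz_abelian hx hxZ
  have hmq := D.m_eq_q
  have hq := D.hq
  obtain ⟨A⟩ : Nonempty (Sylow q (cz x)) := inferInstance
  set Â : Subgroup G := (A : Subgroup (cz x)).map (cz x).subtype with hÂ
  have hÂp : IsPGroup q Â := A.isPGroup'.map _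
  have hÂle : Â ≤ cz x := Subgroup.map_subtype_le _
  have hxÂ : x ∈ Â := by
    have h1 := mem_sylow_of_comm A (g := (⟨x, mem_cz.mpr rfl⟩ : cz x)) (k := e) (by rw [Subgroup.orderOf_mk, hx])
      (by
        intro t _
        exact mem_cz.mpr (Subtype.ext (hab t t.2 x (mem_cz.mpr rfl))))
    exact ⟨_, h1, rfl⟩
  obtain ⟨Q', hQ'⟩ := hÂp.exists_le_sylow
  have hrel : Â.relIndex (Q' : Subgroup G) = q := by
    have h1 := relIndex_eq_of_sylow (A := Â) (D := cz x) Q' hQ' hÂle ?_ (D.index_q_n hx hxZ) D.q_not_dvd_n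
    · rw [h1, ← D.hmq, hmq]
    · have h2 : Â.relIndex (cz x) = (A : Subgroup (cz x)).index := by
        show ((( A : Subgroup (cz x)).map (cz x).subtype).comap (cz x).subtype).index = _
        rw [Subgroup.comap_map_eq_self_of_injective (Subgroup.subtype_injective _)]
      rw [h2]
      exact A.not_dvd_index
  have hnorm : (Â.subgroupOf (Q' : Subgroup G)).Normal := by
    apply Subgroup.normal_of_index_eq_minFac_card
    obtain ⟨α, hα⟩ := IsPGroup.iff_card.mp Q'.isPGroup'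
    have hα0 : α ≠ 0 := by
      rintro rfl
      have h1 : (Â.subgroupOf (Q' : Subgroup G)).index ∣ Nat.card (Q' : Subgroup G) := Subgroup.index_dvd_card _
      have h2 : Â.relIndex (Q' : Subgroup G) = (Â.subgroupOf (Q' : Subgroup G)).index := rfl
      rw [← h2, hrel, hα, pow_zero] at h1
      exact hq.one_lt.ne' (Nat.dvd_one.mp h1)
    rw [hα, Nat.Prime.pow_minFac hq hα0]
    exact hrel
  have hN : ∀ g ∈ (Q' : Subgroup G), ∀ t ∈ Â, g * t * g⁻¹ ∈ Â := by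
    intro g hg t ht
    have h1 := hnorm.conj_mem (⟨t, hQ' ht⟩ : (Q' : Subgroup G)) (by rw [Subgroup.mem_subgroupOf]; exact ht) ⟨g, hg⟩
    rw [Subgroup.mem_subgroupOf] at h1
    exact h1
  obtain ⟨a₁, ha₁, ha₁Z, hac, -⟩ := exists_z2_normal Q'.isPGroup' hQ' hN (fun h => hxZ (h hxÂ))
  have h₁ : Good (Q' : Subgroup G) a₁ := ⟨hQ' ha₁, ha₁Z, hac⟩
  obtain ⟨g, hg⟩ := MulAction.exists_smul_eq G Q Q'
  have h₀' := h₀.conj g
  rw [hg] at h₀'
  have hts := D.two_struct Q' h₀' h₁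
  have hx1 : x ∈ cz a₁ ⊓ (Q' : Subgroup G) :=
    ⟨mem_cz.mpr (mem_cz.mp (hÂle ha₁)).symm, hQ' hxÂ⟩
  rw [← hts] at hx1
  have h2 := mem_cz_conj_iff.mp hx1.1
  refine ⟨g⁻¹, ?_⟩
  simpa using h2

/-- The second case does not occur. -/
theorem false_case : False := by
  classical
  haveI : Fact q.Prime := ⟨D.hq⟩
  haveI : Fact s.Prime := ⟨D.hs⟩
  obtain ⟨Q⟩ : Nonempty (Sylow q G) := inferInstance
  obtain ⟨a₀, h₀, -⟩ := D.exists_good Q
  obtain ⟨e₀, he₀⟩ := elt_of_pgroup D.hq Q.isPGroup' h₀.mem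
  have hab := D.cz_abelian he₀ h₀.nc
  obtain ⟨v₀, f₀, hv₀, hv₀o, hv₀m⟩ := D.exists_class_m_in_cz he₀ h₀.nc
  have hle : cz a₀ ≤ cz v₀ := fun g hg => mem_cz.mpr (hab g hg v₀ hv₀)
  have htop := eq_top_of_conj_cover (cz v₀) (by
    intro w
    obtain ⟨b, cc, hbc, hcom, ⟨k, hk⟩, hcc, hb, hcz⟩ := exists_primary_decomp s w
    by_cases hccZ : cc ∈ Subgroup.center G
    · obtain ⟨g, hg⟩ := exists_conj_mem_of_not_dvd (D := cz v₀) (t := s) (by
        rw [hv₀m]
        exact D.not_dvd_m D.hs D.hqs.symm) hk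
      refine ⟨g, ?_⟩
      have h1 : g * w * g⁻¹ = (g * b * g⁻¹) * cc := by
        rw [hbc]
        calc g * (b * cc) * g⁻¹ = g * b * (cc * g⁻¹) := by group
          _ = g * b * (g⁻¹ * cc) := by
            rw [(Subgroup.mem_center_iff.mp hccZ g⁻¹).symm]
          _ = _ := by group
      rw [h1]
      exact (cz v₀).mul_mem hg (center_le_cz _ hccZ)
    · obtain ⟨t, i, c', ht, hc'o, hc'z, hc'Z⟩ := exists_pp_part cc hccZ
      have hts : t ≠ s := by
        rintro rfl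
        exact not_pp_part ht hcc hc'z hc'o hc'Z
      have hc'w : c' ∈ Subgroup.zpowers w := (Subgroup.zpowers_le.mpr hcz) hc'z
      have hwc' : w ∈ cz c' := mem_cz.mpr (mem_cz.mp (cz_le_cz_of_mem_zpowers hc'w (mem_cz.mpr rfl)))
      by_cases htq : t = q
      · subst htq
        obtain ⟨g, hg⟩ := D.conj_into Q h₀ hc'o hc'Z
        refine ⟨g, ?_⟩
        have h1 := D.cz_eq_of_mem he₀ h₀.nc hg (by rw [conj_order, hc'o]) (conj_notMem_center hc'Z)
        have h2 := conj_mem_cz_conj (g := g) hwc'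
        rw [h1] at h2
        exact hle h2
      · haveI : Fact t.Prime := ⟨ht⟩
        obtain ⟨g, hg⟩ := exists_conj_mem_of_not_dvd (D := cz v₀) (t := t) (by
          rw [hv₀m]
          exact D.not_dvd_m ht htq) hc'o
        refine ⟨g, ?_⟩
        have hbig : (cz (g * c' * g⁻¹)).index = m * n := by
          rw [index_cz_conj]
          exact D.big_of_ne_s ht hts hc'o hc'Z
        have hco : (orderOf v₀).Coprime (orderOf (g * c' * g⁻¹)) := by
          rw [conj_order, hv₀o, hc'o]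
          exact Nat.Coprime.pow _ _ ((Nat.coprime_primes D.hs ht).mpr (Ne.symm hts))
        have h1 := D.S.cz_le_of_big hbig (show Commute v₀ (g * c' * g⁻¹) from (mem_cz.mp hg).symm) hco
        exact h1 (conj_mem_cz_conj hwc'))
  have h1 : (cz v₀).index = 1 := by
    rw [htop]
    exact Subgroup.index_top
  have := D.S.hm
  omega

end T2

end Cfsg.Agent.H13.TC
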